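import Cfsg.Agent.MLin.LatG
import Cfsg.Agent.MLin.Co3Data
import Cfsg.Agent.MLin.Co3Rel
import Cfsg.Agent.CosetEnum.MCo3.Certs
import Cfsg.Agent.H90.CoTrans

/-!
The Schur multiplier of the Conway group `Co3` (owner: helper7).
-/
set_option autoImplicit false
set_option maxRecDepth 1000000

namespace Cfsg.Agent.MLin.Co3

open Cfsg Cfsg.Agent Cfsg.Agent.Leech Cfsg.Agent.PermTab Cfsg.Agent.CosetEnum Cfsg.Agent.MulX Cfsg.Agent.MLin
  Cfsg.Agent.MLin.Lat MulAction

theorem codeV : ∀ p, (Spor.leechV : GolayPt → ℤ) p = ivv (tget 96 cd 552) p := by decide +kernel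

theorem norm_V : sqNorm (Spor.leechV : GolayPt → ℤ) = 48 := by decide +kernel

theorem card_S : Nat.card (stabilizer Co0 Spor.leechV) = 495766656000 := card_stab_48 _ norm_V

theorem frame_none : ∀ p : GolayPt, 9 * (e8 none : GolayPt → ℤ) p =
    4 * (Spor.leechV : GolayPt → ℤ) p - ∑ i : Fin 23, ivv (tget 96 cd (fr.getD i 0)) p := by decide +kernel

theorem frame_some : ∀ j : ZMod 23, ∀ p : GolayPt, (e8 (some j) : GolayPt → ℤ) p =
    -2 * ivv (tget 96 cd (fr.getD j.val 0)) p - (e8 none : GolayPt → ℤ) p := by decide +kernel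

theorem fr_lt : ∀ i < 23, fr.getD i 0 < 552 ∧ fr.getD i 0 ∈ fr := by decide +kernel

section

variable {pt : Fin 552 → leechLattice} (hpt : ∀ i : Fin 552, Pt cd i (pt i))

include hpt

theorem faith (a : stabilizer Co0 Spor.leechV) (h : ∀ i : Fin 552, (i : ℕ) ∈ fr → a • pt i = pt i) : a = 1 := by
  apply Subtype.ext
  have hV : Spor.leechV ∈ fixL (a : Co0) := a.2
  have hx : ∀ i : ℕ, ∀ hi : i < 23, pt ⟨fr.getD i 0, (fr_lt i hi).1⟩ ∈ fixL (a : Co0) :=
    fun i hi => h _ (fr_lt i hi).2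
  have h0 : e8 none ∈ fixL (a : Co0) := by
    apply fix_of_nsmul (m := 9) (by norm_num)
    have e : (9 : ℕ) • e8 none = (4 : ℕ) • Spor.leechV - ∑ i : Fin 23, pt ⟨fr.getD i 0, (fr_lt i i.2).1⟩ := by
      apply Subtype.ext
      funext p
      rw [AddSubgroup.coe_nsmul, AddSubgroup.coe_sub, AddSubgroup.coe_nsmul, AddSubgroup.val_finset_sum]
      have h1 := frame_none p
      have h2 : ∀ i : Fin 23, (pt ⟨fr.getD i 0, (fr_lt i i.2).1⟩ : GolayPt → ℤ) = ivv (tget 96 cd (fr.getD i 0)) :=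
        fun i => hpt _
      simp only [h2, Pi.smul_apply, Pi.sub_apply, Finset.sum_apply, nsmul_eq_mul, Nat.cast_ofNat] at h1 ⊢
      exact h1
    rw [e]
    exact (fixL (a : Co0)).sub_mem ((fixL (a : Co0)).nsmul_mem hV 4) (AddSubgroup.sum_mem _ fun i _ => hx i i.2)
  apply eq_one_of_fix_e8
  intro i
  match i with
  | none => exact h0
  | some j =>
    have hj : j.val < 23 := ZMod.val_lt j
    have e : e8 (some j) = -((2 : ℕ) • pt ⟨fr.getD j.val 0, (fr_lt _ hj).1⟩) - e8 none := by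
      apply Subtype.ext
      funext p
      rw [AddSubgroup.coe_sub, AddSubgroup.coe_neg, AddSubgroup.coe_nsmul]
      have h1 := frame_some j p
      have h2 : (pt ⟨fr.getD j.val 0, (fr_lt _ hj).1⟩ : GolayPt → ℤ) = ivv (tget 96 cd (fr.getD j.val 0)) := hpt _
      simp only [h2, Pi.smul_apply, Pi.sub_apply, Pi.neg_apply, nsmul_eq_mul, Nat.cast_ofNat]
      rw [h1]
      have h3 : (2 * ivv (tget 96 cd (fr.getD j.val 0)) : GolayPt → ℤ) p = 2 * ivv (tget 96 cd (fr.getD j.val 0)) p := rfl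
      rw [h3]
      ring
    have h3 : e8 (some j) ∈ fixL (a : Co0) := by
      rw [e]
      exact (fixL (a : Co0)).sub_mem ((fixL (a : Co0)).neg_mem ((fixL (a : Co0)).nsmul_mem (hx _ hj) 2)) h0
    exact h3

end

theorem stab_of_maps (g : Co0) (h : ∀ j < 1, Maps g (tget 96 cd (552 + j)) (tget 96 cd (552 + j))) :
    g ∈ stabilizer Co0 Spor.leechV := by
  have h1 := h 0 (by norm_num)
  have h2 : (Spor.leechV : GolayPt → ℤ) = ivv (tget 96 cd (552 + 0)) := funext codeV
  have h3 := h1 Spor.leechV h2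
  show g • Spor.leechV = Spor.leechV
  apply Subtype.ext
  rw [h3]
  exact h2.symm

/-- steps of the letters -/
def stL : ℕ → List ((ℕ × ℕ) × ℕ)
  | 0 => st0
  | 1 => st1
  | 2 => st2
  | 3 => st3
  | 4 => st4
  | 5 => st5
  | 6 => st6
  | _ => []

theorem letters_ok : ∀ i < 7, letB' 10 552 1 (gt i) cd (stL i) = true := by
  intro i hi
  match i, hi with
  | 0, _ => exact act0
  | 1, _ => exact act1
  | 2, _ => exact act2
  | 3, _ => exact act3
  | 4, _ => exact act4
  | 5, _ => exact act5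
  | 6, _ => exact act6
  | m + 7, h => exact absurd h (by omega)

theorem rel_ok : letB 14 iv = true ∧ pairB 7 iv = true ∧ triB 14 iv R1 = true ∧ relB iv 14 R1 R2 RL = true ∧
    (List.range (14 + 1)).all (fun x => !isLet 14 x || (R1.any fun q => q.1 == x || ivL iv q.1 == x)) = true ∧
    exB iv R1 RL = true ∧ ceB iv 14 R2 RL = true := by
  decide +kernel

theorem fr_words : frB 10 (tfm gt gi idt 7) fr (R1.map Prod.snd) = true ∧ frB 10 (tfm gt gi idt 7) fr R2 = true := by
  decide +kernel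

theorem exists_cp : ∃ h : ℕ → stabilizer Co0 Spor.leechV, CP (fam h 7) 14 iv R1 R2 RL := by
  obtain ⟨pt, hpt⟩ := exists_pt pts_ok
  obtain ⟨h, hh⟩ := exists_letters (k := 7) stab_of_maps letters_ok
  obtain ⟨h1, h2, h3, h4, h5, -, -⟩ := rel_ok
  obtain ⟨h6, h7⟩ := fr_words
  have hfin : Finite (stabilizer Co0 Spor.leechV) := Nat.finite_of_card_ne_zero (by rw [card_S]; norm_num)
  exact ⟨h, cp_lat (by norm_num) hid gens_ok hpt (pt_inj hpt (by norm_num) inc_ok) hh (faith hpt) h1 h2 h3 h4 h5 h6 h7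
    chain_ok (by rw [card_ok, card_S])⟩

/-! ### the order of the covering group -/

/-- words -/
def t0 : List ℕ := [1, 4, 1]
/-- words -/
def s0 : List ℕ := [1, 3, 1, 4, 1]
/-- words -/
def t1 : List ℕ := [1]
/-- words -/
def s1 : List ℕ := [3, 7, 6, 8, 5, 4]
/-- words -/
def t2 : List ℕ := [1, 6, 9, 8]
/-- words -/
def s2 : List ℕ := [5, 2, 7, 9]
/-- words -/
def e2 : List ℕ := [4, 5, 8, 13, 8, 5, 8, 10, 4, 2]
/-- words -/
def i2 : List ℕ := [4, 5, 8, 13, 8, 6, 7, 3]
/-- words -/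
def t3 : List ℕ := [13]
/-- words -/
def s3 : List ℕ := [12, 8, 13, 12, 5, 8, 6, 7, 5, 3]

theorem lem_ok : cmB iv R2 t0 [14, 8] [5, 9, 2, 3, 5, 1, 9, 6] s0 = true ∧
    cmB iv R2 t1 [4, 5, 13, 8, 6, 3] [8] s1 = true ∧
    cmB iv R2 i2 [9, 5, 9] [1, 9, 6, 9, 1] s2 = true ∧
    R2.contains (red iv ((List.replicate 2 e2).flatten ++ invW iv s2)) = true ∧
    R2.contains (red iv (t2 ++ ((List.replicate 3 s2).flatten ++ (invW iv i2 ++ invW iv e2)))) = true ∧
    cmB iv R2 t3 [3] [3, 8, 13, 11, 14, 7] s3 = true := by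
  decide +kernel

/-- exact relators -/
def E : List (List ℕ) := [cmWd iv t0 s0, cmWd iv t1 s1, cmWd iv t2 s2, cmWd iv t3 s3]

theorem exact_E : ∀ w ∈ E, (w.map (qg 14 iv RL)).prod = 1 := by
  obtain ⟨h1, -, -, -, -, -, h6⟩ := rel_ok
  have hinv := (qg_good 14 iv RL).inv
  have hcen : ∀ w ∈ R2, ∀ y, wd (qg 14 iv RL) w * y = y * wd (qg 14 iv RL) w := qg_ce h1 h6
  obtain ⟨l0, l1, l2, l3, l4, l5⟩ := lem_ok
  have c0 := comm_words hinv hcen l0
  have c1 := comm_words hinv hcen l1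
  have c2 := comm_prod hinv hcen (comm_root hinv hcen l3) (comm_words hinv hcen l2) l4
  have c3 := comm_words hinv hcen l5
  intro w hw
  unfold E at hw
  simp only [List.mem_cons, List.not_mem_nil, or_false] at hw
  rcases hw with rfl | rfl | rfl | rfl
  · exact cm_eq_one hinv c0
  · exact cm_eq_one hinv c1
  · exact cm_eq_one hinv c2
  · exact cm_eq_one hinv c3

theorem bd : Bd (⊤ : Subgroup (QG 14 iv RL)) (495766656000 * 1) := by
  have U := univ_qg 14 iv RL
  have g := good_ext U.good exact_E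
  rw [← U.top]
  have h1 := (Bd.zero (qg 14 iv RL)).cl (M := 60) MCo3A.cert g (by decide +kernel) (by decide +kernel)
    (by norm_num) rfl
  have h2 := h1.cl (M := 2520) MCo3B.cert g (by decide +kernel) (by decide +kernel) (by norm_num) rfl
  have h3 := h2.cl (M := 443520) MCo3C.cert g (by decide +kernel) (by decide +kernel) (by norm_num) rfl
  have h4 := h3.cl (M := 898128000) MCo3D.cert g (by decide +kernel) (by decide +kernel) (by norm_num) rfl
  exact h4.cl (M := 495766656000 * 1) MCo3E.cert g (by decide +kernel) (by decide +kernel) (by norm_num) rfl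

theorem mult_S : HasCyclicSchurMultiplier (stabilizer Co0 Spor.leechV) 1 := by
  obtain ⟨h, C⟩ := exists_cp
  obtain ⟨-, -, -, -, -, h5, h6⟩ := rel_ok
  exact C.cyclic h5 h6 card_S (by norm_num) (by norm_num) bd (ws := []) (by simp) (one_dvd _)

theorem mult : HasCyclicSchurMultiplier Spor.Co3 1 :=
  SchurMult.hasSchurMultiplier_of_equiv H90.Co.isoCo3 mult_S

end Cfsg.Agent.MLin.Co3
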