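import Cfsg.Agent.MLin.CrossLvl

/-!
The stabiliser of the standard cross is maximal: conclusion (owner: helper7).
-/
set_option autoImplicit false
set_option maxRecDepth 100000

namespace Cfsg.Agent.MLin.Cross

open Cfsg Cfsg.Agent Cfsg.Agent.Leech Cfsg.Agent.PermTab Cfsg.Agent.CosetEnum Cfsg.Agent.MulX Cfsg.Agent.MLin
  Cfsg.Agent.MLin.Lat MulAction

/-! ### the first orbit -/

/-- the vectors with two coordinates of size 4 -/
theorem two_mem {a b : ℤ} (ha : a = 4 ∨ a = -4) (hb : b = 4 ∨ b = -4) {i j : GolayPt} (hij : i ≠ j) :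
    (⟨twoVec a b i j, twoVec_mem' ha hb⟩ : leechLattice) ∈ orbit crossStab u := by
  have hn : sqNorm (twoVec a b i j) = 32 ∧ M4 (twoVec a b i j) = 512 := by
    have e : ∀ k : ℕ, 0 < k → (∑ p, twoVec a b i j p ^ k) = a ^ k + b ^ k := by
      intro k hk
      have h1 : ∀ p, twoVec a b i j p ^ k = (if p = i then a ^ k else 0) + (if p = j then b ^ k else 0) := by
        intro p
        unfold twoVec
        rw [Pi.add_apply, Pi.single_apply, Pi.single_apply]
        by_cases h : p = i
        · have h2 : p ≠ j := fun h3 => hij (h.symm.trans h3)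
          rw [if_pos h, if_neg h2, if_pos h, if_neg h2, add_zero, add_zero]
        · rw [if_neg h, if_neg h, zero_add, zero_add]
          by_cases h2 : p = j
          · rw [if_pos h2, if_pos h2]
          · rw [if_neg h2, if_neg h2, zero_pow hk.ne']
      rw [Finset.sum_congr rfl (fun p _ => h1 p), Finset.sum_add_distrib, Finset.sum_ite_eq', Finset.sum_ite_eq',
        if_pos (Finset.mem_univ _), if_pos (Finset.mem_univ _)]
    constructor
    · unfold sqNorm
      rw [e 2 (by norm_num)]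
      rcases ha with rfl | rfl <;> rcases hb with rfl | rfl <;> norm_num
    · unfold M4
      rw [e 4 (by norm_num)]
      rcases ha with rfl | rfl <;> rcases hb with rfl | rfl <;> norm_num
  exact (mem_u hn.1).2 hn.2

/-- shape of the coordinates -/
theorem coord_u {y : leechLattice} (hy : y ∈ orbit crossStab u) (i : GolayPt) :
    (y : GolayPt → ℤ) i = 0 ∨ (y : GolayPt → ℤ) i = 4 ∨ (y : GolayPt → ℤ) i = -4 := by
  obtain ⟨p, q, a, b, hpq, ha, hb, hyy⟩ := orbit_u_shape hy
  rw [hyy]
  unfold twoVec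
  rw [Pi.add_apply, Pi.single_apply, Pi.single_apply]
  by_cases h : i = p
  · have h2 : i ≠ q := fun h3 => hpq (h.symm.trans h3)
    rw [if_pos h, if_neg h2]
    rcases ha with rfl | rfl <;> norm_num
  · rw [if_neg h]
    by_cases h2 : i = q
    · rw [if_pos h2]
      rcases hb with rfl | rfl <;> norm_num
    · rw [if_neg h2]; norm_num

theorem dot_two (f : leechLattice) (a b : ℤ) (i j : GolayPt) :
    dotInt (f : GolayPt → ℤ) (twoVec a b i j) = a * (f : GolayPt → ℤ) i + b * (f : GolayPt → ℤ) j := by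
  unfold twoVec
  rw [← dot_single, ← dot_single]
  unfold dotInt
  rw [← Finset.sum_add_distrib]
  exact Finset.sum_congr rfl fun p _ => by rw [Pi.add_apply]; ring

theorem cross_of_orbit {K : Subgroup Co0} (h : orbit K u ⊆ orbit crossStab u) (hK : crossStab ≤ K) : K ≤ crossStab := by
  intro k hk
  rw [mem_crossStab_iff]
  intro v hv
  rw [mem_stdCross_iff] at hv ⊢
  obtain ⟨i, hi⟩ := hv
  -- image of `e8 i`
  have main : ∃ p, k • e8 i = e8 p ∨ k • e8 i = -e8 p := by
    set Y : leechLattice := k • e8 i with hY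
    have d : ∀ {a b : ℤ} (ha : a = 4 ∨ a = -4) (hb : b = 4 ∨ b = -4) {p q : GolayPt}, p ≠ q →
        (a * (Y : GolayPt → ℤ) p + b * (Y : GolayPt → ℤ) q = 0 ∨ a * (Y : GolayPt → ℤ) p + b * (Y : GolayPt → ℤ) q = 32 ∨
        a * (Y : GolayPt → ℤ) p + b * (Y : GolayPt → ℤ) q = -32) := by
      intro a b ha hb p q hpq
      set z : leechLattice := ⟨twoVec a b p q, twoVec_mem' ha hb⟩ with hz
      have hz1 : z ∈ orbit crossStab u := two_mem ha hb hpq
      have hz2 : z ∈ orbit K u := by
        obtain ⟨g, hg⟩ := hz1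
        exact ⟨⟨g, hK g.2⟩, hg⟩
      have hz3 := h (orbit_mem_smul hz2 (K.inv_mem hk))
      have h1 := co0_dot k (k⁻¹ • z) (e8 i)
      rw [smul_inv_smul, dot_e8] at h1
      have h2 := dot_two Y a b p q
      have h3 : dotInt (z : GolayPt → ℤ) (Y : GolayPt → ℤ) = a * (Y : GolayPt → ℤ) p + b * (Y : GolayPt → ℤ) q := by
        rw [← h2, dotInt_comm]
      rw [← hY, h3] at h1
      rw [h1]
      rcases coord_u hz3 i with h4 | h4 | h4 <;> rw [h4] <;> norm_num
    have hn : sqNorm (Y : GolayPt → ℤ) = 64 := by rw [hY, co0_norm, norm_e8]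
    have s0 : ∀ p q : GolayPt, p ≠ q → ((Y : GolayPt → ℤ) p + (Y : GolayPt → ℤ) q = 0 ∨ (Y : GolayPt → ℤ) p + (Y : GolayPt → ℤ) q = 8 ∨
        (Y : GolayPt → ℤ) p + (Y : GolayPt → ℤ) q = -8) ∧ ((Y : GolayPt → ℤ) p - (Y : GolayPt → ℤ) q = 0 ∨
        (Y : GolayPt → ℤ) p - (Y : GolayPt → ℤ) q = 8 ∨ (Y : GolayPt → ℤ) p - (Y : GolayPt → ℤ) q = -8) := by
      intro p q hpq
      have h1 := d (a := 4) (b := 4) (Or.inl rfl) (Or.inl rfl) hpq
      have h2 := d (a := 4) (b := -4) (Or.inl rfl) (Or.inr rfl) hpq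
      constructor
      · rcases h1 with h1 | h1 | h1
        · left; omega
        · right; left; omega
        · right; right; omega
      · rcases h2 with h2 | h2 | h2
        · left; omega
        · right; left; omega
        · right; right; omega
    -- some coordinate is not zero
    have hex : ∃ p, (Y : GolayPt → ℤ) p ≠ 0 := by
      by_contra hcon
      push Not at hcon
      have : sqNorm (Y : GolayPt → ℤ) = 0 := by
        unfold sqNorm
        exact Finset.sum_eq_zero fun p _ => by rw [hcon p]; norm_num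
      omega
    obtain ⟨p, hp⟩ := hex
    have hpp : (Y : GolayPt → ℤ) p = 8 ∨ (Y : GolayPt → ℤ) p = -8 := by
      by_contra hcon
      have h4 : ∀ q, 16 ≤ (Y : GolayPt → ℤ) q ^ 2 := by
        intro q
        have hp4 : (Y : GolayPt → ℤ) p = 4 ∨ (Y : GolayPt → ℤ) p = -4 := by
          obtain ⟨r, hr⟩ : ∃ r : GolayPt, p ≠ r := by
            rcases eq_or_ne p none with h | h
            · exact ⟨some 0, by rw [h]; decide⟩
            · exact ⟨none, h⟩
          have := s0 p r hr
          omega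
        by_cases hq : p = q
        · rw [← hq]
          rcases hp4 with h5 | h5 <;> rw [h5] <;> norm_num
        · have h6 := s0 p q hq
          have h7 : (Y : GolayPt → ℤ) q ≤ -4 ∨ 4 ≤ (Y : GolayPt → ℤ) q := by omega
          rcases h7 with h7 | h7 <;> nlinarith
      have h5 : (384 : ℤ) ≤ sqNorm (Y : GolayPt → ℤ) := by
        unfold sqNorm
        have := Finset.card_nsmul_le_sum (Finset.univ : Finset GolayPt) (fun q => (Y : GolayPt → ℤ) q ^ 2) 16 (fun q _ => h4 q)
        have hc : (Finset.univ : Finset GolayPt).card = 24 := by decide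
        rw [hc] at this
        simpa using this
      omega
    have hz : ∀ q, q ≠ p → (Y : GolayPt → ℤ) q = 0 := by
      intro q hq
      by_contra hne
      have h1 : sqNorm (Y : GolayPt → ℤ) = (Y : GolayPt → ℤ) p ^ 2 + ∑ r ∈ Finset.univ.erase p, (Y : GolayPt → ℤ) r ^ 2 := by
        unfold sqNorm
        exact (Finset.add_sum_erase _ _ (Finset.mem_univ p)).symm
      have h2 : (Y : GolayPt → ℤ) q ^ 2 ≤ ∑ r ∈ Finset.univ.erase p, (Y : GolayPt → ℤ) r ^ 2 :=
        Finset.single_le_sum (f := fun r => (Y : GolayPt → ℤ) r ^ 2) (fun r _ => sq_nonneg _)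
          (Finset.mem_erase.2 ⟨hq, Finset.mem_univ _⟩)
      have h3 : 0 < (Y : GolayPt → ℤ) q ^ 2 := by positivity
      have h4 : (Y : GolayPt → ℤ) p ^ 2 = 64 := by rcases hpp with h | h <;> rw [h] <;> norm_num
      omega
    refine ⟨p, ?_⟩
    rcases hpp with h1 | h1
    · left
      apply Subtype.ext; funext q
      rw [e8_apply]
      by_cases hq : q = p
      · rw [if_pos hq, hq, h1]
      · rw [if_neg hq, hz q hq]
    · right
      apply Subtype.ext; funext q
      rw [AddSubgroup.coe_neg, Pi.neg_apply, e8_apply]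
      by_cases hq : q = p
      · rw [if_pos hq, hq, h1]
      · rw [if_neg hq, hz q hq, neg_zero]
  obtain ⟨p, hp⟩ := main
  rcases hi with rfl | rfl
  · exact ⟨p, hp⟩
  · refine ⟨p, ?_⟩
    rw [co0_neg]
    rcases hp with h | h
    · right; rw [h]
    · left; rw [h, neg_neg]

/-! ### orders -/

theorem card_Sw : Nat.card Sw = 10321920 := by
  have h0 := os crossStab u
  rw [card_E4, card_crossStab] at h0
  have h1 := os Su w0
  have h2 : (orbit Su w0).ncard = 88 := part1.1 0
  rw [h2] at h1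
  have h3 : 1104 * (88 * Nat.card Sw) = 4096 * 244823040 := by
    rw [← h0]
    congr 1
  omega

theorem stab_neg (x : leechLattice) : stabilizer Co0 (-x) = stabilizer Co0 x := by
  ext g
  rw [mem_stabilizer_iff, mem_stabilizer_iff, co0_neg, neg_inj]

theorem card_uw : Nat.card (stabilizer Co0 u ⊓ stabilizer Co0 w0 : Subgroup Co0) = 9196830720 := by
  have h := card_stab_pair_16 (-u) w0 (by rw [neg_norm]; exact norm_leechU) nf_w0.1
    (by rw [neg_dot, codeU]; exact congrArg Neg.neg nf_w0.2.1)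
  rwa [stab_neg] at h

theorem t_elt : ∃ g : Co0, g • u = u ∧ g • w0 = w0 ∧ g • x0 ≠ x0 := by
  obtain ⟨g, hg⟩ := run_spec tS tA t_run
  obtain ⟨f1, f2, f3, f4, f5, f6⟩ := t_facts
  obtain ⟨c0, e0, m0⟩ := hg 0 (by norm_num)
  obtain ⟨c1, e1, m1⟩ := hg 1 (by norm_num)
  obtain ⟨c2, e2, m2⟩ := hg 2 (by norm_num)
  have e0' := Nat.eq_of_beq_eq_true e0
  have e1' := Nat.eq_of_beq_eq_true e1
  have e2' := Nat.eq_of_beq_eq_true e2
  subst e0' e1' e2'
  refine ⟨g, ?_, ?_, ?_⟩
  · apply Subtype.ext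
    rw [m0 u (by rw [f1]; exact codeU), f4, codeU]
  · apply Subtype.ext
    rw [m1 w0 (by rw [f2]; rfl), f5]; rfl
  · intro h
    have h1 : ((g • x0 : leechLattice) : GolayPt → ℤ) = ivv x0C := by rw [h]; rfl
    rw [m2 x0 (by rw [f3]; rfl)] at h1
    have h2 := ivv_inj (tget_lt _ _ _) (by unfold x0C; norm_num) h1
    rw [h2] at f6
    exact absurd f6 (by rw [Nat.beq_refl]; decide)

/-- the possible sizes of the third orbit -/
theorem size2 {K : Subgroup Co0} (hK : crossStab ≤ K) :
    (orbit (K ⊓ stabilizer Co0 u ⊓ stabilizer Co0 w0 : Subgroup Co0) x0).ncard = 1 ∨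
    (orbit (K ⊓ stabilizer Co0 u ⊓ stabilizer Co0 w0 : Subgroup Co0) x0).ncard = 891 := by
  have hd : (orbit (K ⊓ stabilizer Co0 u ⊓ stabilizer Co0 w0 : Subgroup Co0) x0).ncard ∣ 9196830720 := by
    rw [← card_uw]
    refine Dvd.dvd.trans ⟨_, (os _ x0).symm⟩ (Subgroup.card_dvd_of_le ?_)
    exact inf_le_inf_right _ inf_le_right
  obtain ⟨b1, b2, b3, h⟩ := lvl2 hK
  rw [h] at hd ⊢
  cases b1 <;> cases b2 <;> cases b3 <;> simp only [cond_true, cond_false] at hd ⊢
  all_goals first
    | (left; norm_num; done)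
    | (right; norm_num; done)
    | (exfalso; revert hd; norm_num)

theorem card_uwx : Nat.card (stabilizer Co0 u ⊓ stabilizer Co0 w0 ⊓ stabilizer Co0 x0 : Subgroup Co0) = 10321920 := by
  have e : (⊤ ⊓ stabilizer Co0 u ⊓ stabilizer Co0 w0 : Subgroup Co0) = stabilizer Co0 u ⊓ stabilizer Co0 w0 := by
    rw [top_inf_eq]
  have h := size2 (K := ⊤) le_top
  rw [e] at h
  have ho := os (stabilizer Co0 u ⊓ stabilizer Co0 w0) x0
  rw [card_uw] at ho
  rcases h with h | h
  · exfalso
    obtain ⟨g, g1, g2, g3⟩ := t_elt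
    rw [Set.ncard_eq_one] at h
    obtain ⟨a, ha⟩ := h
    have h1 : x0 ∈ orbit (stabilizer Co0 u ⊓ stabilizer Co0 w0 : Subgroup Co0) x0 := mem_orbit_self _
    have h2 : g • x0 ∈ orbit (stabilizer Co0 u ⊓ stabilizer Co0 w0 : Subgroup Co0) x0 :=
      orbit_mem_smul h1 ⟨g1, g2⟩
    rw [ha, Set.mem_singleton_iff] at h1 h2
    exact g3 (h2.trans h1.symm)
  · rw [h] at ho
    omega

/-- the first step -/
theorem size0 {K : Subgroup Co0} (hK : crossStab < K) : (orbit K u).ncard = 196560 := by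
  have hle := hK.le
  have o0 := os K u
  have hd : (orbit K u).ncard ∣ 8315553613086720000 := by
    rw [← card_Co0]
    exact Dvd.dvd.trans ⟨_, o0.symm⟩ (Subgroup.card_subgroup_dvd_card K)
  obtain ⟨b1, b2, h⟩ := lvl0 hle
  rw [h] at hd
  cases b1 <;> cases b2 <;> simp only [cond_true, cond_false] at hd h
  · exfalso
    have hsub : orbit crossStab u ⊆ orbit K u := by
      rintro y ⟨g, rfl⟩
      exact ⟨⟨g, hle g.2⟩, rfl⟩
    have heq : orbit crossStab u = orbit K u :=
      Set.eq_of_subset_of_ncard_le hsub (by rw [h, card_E4]) (orbit_fin norm_leechU)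
    exact not_le_of_gt hK (cross_of_orbit heq.ge hle)
  · exfalso; revert hd; norm_num
  · exfalso; revert hd; norm_num
  · rw [h]

/-- numerical core -/
theorem num23 {a b c : ℕ} (h1 : 196560 * b = c) (h2 : 88 * a = b) (h3 : 1002795171840 ∣ c) (h4 : a ∣ 9196830720) : False := by
  subst h2 h1
  have h5 : 23 ∣ 196560 * (88 * a) := Dvd.dvd.trans (by norm_num) h3
  have h6 := (Nat.Coprime.dvd_mul_left (by norm_num : Nat.Coprime 23 196560)).1 h5
  have h7 := (Nat.Coprime.dvd_mul_left (by norm_num : Nat.Coprime 23 88)).1 h6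
  have h8 := h7.trans h4
  revert h8; norm_num

theorem num11 {a b c : ℕ} (h1 : 196560 * b = c) (h2 : 4600 * a = b) (h3 : 1002795171840 ∣ c) (h4 : a ∣ 10321920) : False := by
  subst h2 h1
  have h5 : 11 ∣ 196560 * (4600 * a) := Dvd.dvd.trans (by norm_num) h3
  have h6 := (Nat.Coprime.dvd_mul_left (by norm_num : Nat.Coprime 11 196560)).1 h5
  have h7 := (Nat.Coprime.dvd_mul_left (by norm_num : Nat.Coprime 11 4600)).1 h6
  have h8 := h7.trans h4
  revert h8; norm_num

theorem numC {a b c d : ℕ} (h1 : 196560 * b = c) (h2 : 4600 * a = b) (h3 : 891 * d = a) (h4 : 10321920 ≤ d) :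
    8315553613086720000 ≤ c := by
  subst h3 h2 h1
  omega

theorem crossStab_dvd {K : Subgroup Co0} (hle : crossStab ≤ K) : 1002795171840 ∣ Nat.card K := by
  have h : Nat.card crossStab = 1002795171840 := by rw [card_crossStab]
  rw [← h]; exact Subgroup.card_dvd_of_le hle

theorem uw_dvd (K : Subgroup Co0) :
    Nat.card (K ⊓ stabilizer Co0 u ⊓ stabilizer Co0 w0 : Subgroup Co0) ∣ 9196830720 := by
  rw [← card_uw]
  exact Subgroup.card_dvd_of_le (inf_le_inf_right _ inf_le_right)

/-- the second step -/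
theorem size1 {K : Subgroup Co0} (hK : crossStab < K) : (orbit (K ⊓ stabilizer Co0 u : Subgroup Co0) w0).ncard = 4600 := by
  have o0 := os K u
  rw [size0 hK] at o0
  have o1 := os (K ⊓ stabilizer Co0 u) w0
  have hd : (orbit (K ⊓ stabilizer Co0 u : Subgroup Co0) w0).ncard ∣ 42305421312000 := by
    rw [← card_stab_32 u norm_leechU]
    exact Dvd.dvd.trans ⟨_, o1.symm⟩ (Subgroup.card_dvd_of_le inf_le_right)
  obtain ⟨b1, b2, h⟩ := lvl1 hK.le
  rw [h] at hd o1
  rw [h]
  cases b1 <;> cases b2 <;> simp only [cond_true, cond_false] at hd o1 ⊢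
  · exact (num23 o0 o1 (crossStab_dvd hK.le) (uw_dvd K)).elim
  · exfalso; revert hd; norm_num
  · exfalso; revert hd; norm_num

/-- the third step -/
theorem size2' {K : Subgroup Co0} (hK : crossStab < K) :
    (orbit (K ⊓ stabilizer Co0 u ⊓ stabilizer Co0 w0 : Subgroup Co0) x0).ncard = 891 := by
  have o0 := os K u
  rw [size0 hK] at o0
  have o1 := os (K ⊓ stabilizer Co0 u) w0
  rw [size1 hK] at o1
  have o2 := os (K ⊓ stabilizer Co0 u ⊓ stabilizer Co0 w0) x0
  rcases size2 hK.le with h | h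
  · exfalso
    rw [h, one_mul] at o2
    have h3 : Nat.card (K ⊓ stabilizer Co0 u ⊓ stabilizer Co0 w0 : Subgroup Co0) ∣ 10321920 := by
      rw [← o2, ← card_uwx]
      exact Subgroup.card_dvd_of_le (inf_le_inf_right _ (inf_le_inf_right _ inf_le_right))
    exact num11 o0 o1 (crossStab_dvd hK.le) h3
  · exact h

theorem co0_finite : Finite Co0 := Nat.finite_of_card_ne_zero (by rw [card_Co0]; norm_num)

theorem main {K : Subgroup Co0} (hK : crossStab < K) : K = ⊤ := by
  have o0 := os K u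
  rw [size0 hK] at o0
  have o1 := os (K ⊓ stabilizer Co0 u) w0
  rw [size1 hK] at o1
  have o2 := os (K ⊓ stabilizer Co0 u ⊓ stabilizer Co0 w0) x0
  rw [size2' hK] at o2
  have hfin : Finite Co0 := co0_finite
  have hS : 10321920 ≤ Nat.card (K ⊓ stabilizer Co0 u ⊓ stabilizer Co0 w0 ⊓ stabilizer Co0 x0 : Subgroup Co0) := by
    rw [← card_Sw]
    apply Nat.le_of_dvd Nat.card_pos
    apply Subgroup.card_dvd_of_le
    exact le_inf (inf_le_inf_right _ (inf_le_inf_right _ hK.le)) Sw_x0
  apply Subgroup.eq_top_of_le_card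
  rw [card_Co0]
  exact numC o0 o1 o2 hS

theorem isCoatom_crossStab : IsCoatom crossStab := by
  refine ⟨?_, fun K hK => main hK⟩
  intro h
  have h1 := card_crossStab
  rw [h, Subgroup.card_top, card_Co0] at h1
  norm_num at h1

end Cfsg.Agent.MLin.Cross
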