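import Cfsg.Agent.MLin.CrossOrb

/-!
The stabiliser of the standard cross is maximal (owner: helper7).
-/
set_option autoImplicit false
set_option maxRecDepth 100000

namespace Cfsg.Agent.MLin.Cross

open Cfsg Cfsg.Agent Cfsg.Agent.Leech Cfsg.Agent.PermTab Cfsg.Agent.CosetEnum Cfsg.Agent.MulX Cfsg.Agent.MLin
  Cfsg.Agent.MLin.Lat MulAction

/-- the first base vector -/
abbrev u : leechLattice := Spor.leechU

/-- the second base vector -/
def w0 : leechLattice := ⟨ivv w0C, mem_of_test w0_test⟩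

/-- the third base vector -/
def x0 : leechLattice := ⟨ivv x0C, mem_of_test x0_test⟩

/-- base point -/
def w1 : leechLattice := ⟨ivv w1C, mem_of_test w1_test⟩

/-- base point -/
def w2 : leechLattice := ⟨ivv w2C, mem_of_test w2_test⟩

/-- base point -/
def y1 : leechLattice := ⟨ivv y1C, mem_of_test y1_test⟩

/-- base point -/
def y2 : leechLattice := ⟨ivv y2C, mem_of_test y2_test⟩

/-- base point -/
def y3 : leechLattice := ⟨ivv y3C, mem_of_test y3_test⟩

theorem codeU : (u : GolayPt → ℤ) = ivv uC := funext (by decide +kernel)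

/-- the set of minimal vectors -/
def Min : Set leechLattice := {x | sqNorm (x : GolayPt → ℤ) = 32}

theorem orbit_mem_smul {K : Subgroup Co0} {x y : leechLattice} (hy : y ∈ orbit K x) {g : Co0} (hg : g ∈ K) :
    g • y ∈ orbit K x := by
  obtain ⟨k, rfl⟩ := hy
  exact ⟨⟨g, hg⟩ * k, mul_smul _ _ _⟩

/-- orbits and stabilisers -/
theorem os (K : Subgroup Co0) (w : leechLattice) :
    (orbit K w).ncard * Nat.card (K ⊓ stabilizer Co0 w : Subgroup Co0) = Nat.card K := by
  rw [← orbit_mul_card (G := K) w]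
  congr 1
  have h2 : MulAction.stabilizer K w = (K ⊓ stabilizer Co0 w).subgroupOf K := by
    ext g
    rw [Subgroup.mem_subgroupOf]
    constructor
    · intro h; exact ⟨g.2, h⟩
    · intro h; exact h.2
  rw [h2]
  exact (Nat.card_congr (Subgroup.subgroupOfEquivOfLe inf_le_left).toEquiv).symm

/-- a union of some of the classes of a partition -/
theorem union_card {α ι : Type*} [Fintype ι] {T : Set α} (hfin : T.Finite) {O : ι → Set α} {n : ι → ℕ} {f : α → ℤ}
    {t : ι → ℤ} (ht : Function.Injective t) (hO : ∀ i, O i ⊆ T) (hf : ∀ i, ∀ y ∈ O i, f y = t i)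
    (hn : ∀ i, (O i).ncard = n i) (hcov : ∀ y ∈ T, ∃ i, y ∈ O i) {P : Set α} (hP : P ⊆ T) (b : ι → Bool)
    (hcl : ∀ i, ∀ y ∈ O i, (y ∈ P ↔ b i = true)) : P.ncard = ∑ i, cond (b i) (n i) 0 := by
  classical
  have hOf : ∀ i, (O i).Finite := fun i => hfin.subset (hO i)
  set Of : ι → Finset α := fun i => (hOf i).toFinset with hOfd
  have hcard : ∀ i, (Of i).card = (O i).ncard := fun i => (Set.ncard_eq_toFinset_card (O i) (hOf i)).symm
  have hdisj : ∀ i ∈ (Finset.univ.filter fun i => b i = true), ∀ j ∈ (Finset.univ.filter fun i => b i = true), i ≠ j →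
      Disjoint (Of i) (Of j) := by
    intro i _ j _ hij
    rw [Finset.disjoint_left]
    intro y h1 h2
    rw [hOfd, Set.Finite.mem_toFinset] at h1 h2
    exact hij (ht ((hf i y h1).symm.trans (hf j y h2)))
  have hPf := hfin.subset hP
  have e : hPf.toFinset = (Finset.univ.filter fun i => b i = true).biUnion Of := by
    ext y
    rw [Set.Finite.mem_toFinset, Finset.mem_biUnion]
    constructor
    · intro hy
      obtain ⟨i, hi⟩ := hcov y (hP hy)
      refine ⟨i, ?_, ?_⟩
      · rw [Finset.mem_filter]; exact ⟨Finset.mem_univ _, (hcl i y hi).1 hy⟩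
      · rw [hOfd, Set.Finite.mem_toFinset]; exact hi
    · rintro ⟨i, hi, hy⟩
      rw [hOfd, Set.Finite.mem_toFinset] at hy
      exact (hcl i y hy).2 (Finset.mem_filter.1 hi).2
  rw [Set.ncard_eq_toFinset_card P hPf, e, Finset.card_biUnion hdisj, Finset.sum_filter]
  refine Finset.sum_congr rfl fun i _ => ?_
  rw [hcard, hn]
  cases b i <;> rfl

/-! ### level 0 -/

theorem Min_finite : Min.Finite := min_finite

theorem Min_ncard : Min.ncard = 196560 := by
  unfold Min
  rw [ncard_norm_sub, ncard_32]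

theorem twoVec_mem' {a b : ℤ} (ha : a = 4 ∨ a = -4) (hb : b = 4 ∨ b = -4) {i j : GolayPt} :
    twoVec a b i j ∈ leechLattice := (mem_iff _).2 (Or.inl (twoVec_isEven ha hb i j))

/-- vectors of the first orbit -/
theorem orbit_u_shape {y : leechLattice} (hy : y ∈ orbit crossStab u) : ∃ i j : GolayPt, ∃ a b : ℤ, i ≠ j ∧
    (a = 4 ∨ a = -4) ∧ (b = 4 ∨ b = -4) ∧ (y : GolayPt → ℤ) = twoVec a b i j := by
  obtain ⟨g, rfl⟩ := hy
  obtain ⟨c, hc, σ, hσ, hg⟩ := mem_crossStab_mono g.2
  refine ⟨σ none, σ (some 0), (1 - 2 * lift c (σ none)) * 4, (1 - 2 * lift c (σ (some 0))) * 4, ?_, ?_, ?_, ?_⟩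
  · intro h
    exact absurd (σ.injective h) (by decide)
  · rcases lift_zero_or_one c (σ none) with h | h <;> rw [h] <;> norm_num
  · rcases lift_zero_or_one c (σ (some 0)) with h | h <;> rw [h] <;> norm_num
  · show (((g : Co0) • u : leechLattice) : GolayPt → ℤ) = _
    rw [hg]
    funext j
    rw [mono_smul]
    show _ * Spor.vecU (σ.symm j) = (Pi.single (σ none) _ + Pi.single (σ (some 0)) _ : GolayPt → ℤ) j
    rw [Pi.add_apply, Pi.single_apply, Pi.single_apply]
    unfold Spor.vecU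
    by_cases h1 : j = σ none
    · have h2 : σ.symm j = none := by rw [h1, Equiv.symm_apply_apply]
      have h3 : j ≠ σ (some 0) := by rw [h1]; intro h; exact absurd (σ.injective h) (by decide)
      rw [if_pos (Or.inl h2), if_pos h1, if_neg h3, h1]; ring
    · have h2 : σ.symm j ≠ none := fun h => h1 (by rw [← h, Equiv.apply_symm_apply])
      by_cases h3 : j = σ (some 0)
      · have h4 : σ.symm j = some 0 := by rw [h3, Equiv.symm_apply_apply]
        rw [if_pos (Or.inr h4), if_neg h1, if_pos h3, h3]; ring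
      · have h4 : σ.symm j ≠ some 0 := fun h => h3 (by rw [← h, Equiv.apply_symm_apply])
        rw [if_neg (by tauto), if_neg h1, if_neg h3]; ring

theorem gn_mem : ∀ s ∈ gn, ∃ g ∈ crossStab, IsSt s.1 s.2 g := fun s hs => by
  obtain ⟨g, hg, hst, -⟩ := fx_spec gn_ok s hs
  exact ⟨g, hg, hst⟩

theorem orbit_fin {K : Subgroup Co0} {x : leechLattice} (hx : sqNorm (x : GolayPt → ℤ) = 32) : (orbit K x).Finite :=
  min_finite.subset (orbit_subset_min hx)

/-- parametrisation of the first orbit -/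
def par (p : Fin 24 × Fin 24 × Bool × Bool) : GolayPt → ℤ :=
  twoVec (cond p.2.2.1 4 (-4)) (cond p.2.2.2 4 (-4)) (Golay.pt p.1) (Golay.pt p.2.1)

theorem par_card : (Finset.univ.filter fun p : Fin 24 × Fin 24 × Bool × Bool => p.1 < p.2.1).card = 1104 := by
  decide +kernel

theorem sgn_cases {a : ℤ} (ha : a = 4 ∨ a = -4) : ∃ s : Bool, cond s 4 (-4) = a := by
  rcases ha with rfl | rfl
  · exact ⟨true, rfl⟩
  · exact ⟨false, rfl⟩

theorem card_E4 : (orbit crossStab u).ncard = 1104 := by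
  classical
  apply le_antisymm
  · rw [← par_card]
    have h1 : ((fun x : leechLattice => (x : GolayPt → ℤ)) '' orbit crossStab u) ⊆
        ((Finset.univ.filter fun p : Fin 24 × Fin 24 × Bool × Bool => p.1 < p.2.1).image par : Finset (GolayPt → ℤ)) := by
      rintro _ ⟨y, hy, rfl⟩
      obtain ⟨i, j, a, b, hij, ha, hb, hyy⟩ := orbit_u_shape hy
      obtain ⟨s, hs⟩ := sgn_cases ha
      obtain ⟨t, ht⟩ := sgn_cases hb
      rw [Finset.coe_image, Set.mem_image]
      have hi := Golay.idx_lt i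
      have hj := Golay.idx_lt j
      have hne : Golay.idx i ≠ Golay.idx j := fun h => hij (by rw [← pt_idx i, h, pt_idx])
      show ∃ x, _ ∧ par x = (y : GolayPt → ℤ)
      rcases lt_or_gt_of_ne hne with h | h
      · refine ⟨(⟨_, hi⟩, ⟨_, hj⟩, s, t), ?_, ?_⟩
        · simp only [Finset.coe_filter, Set.mem_ofPred_eq]
          exact ⟨Finset.mem_univ _, h⟩
        · show twoVec (cond s 4 (-4)) (cond t 4 (-4)) (Golay.pt (Golay.idx i)) (Golay.pt (Golay.idx j)) = _
          rw [hs, ht, pt_idx, pt_idx, hyy]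
      · refine ⟨(⟨_, hj⟩, ⟨_, hi⟩, t, s), ?_, ?_⟩
        · simp only [Finset.coe_filter, Set.mem_ofPred_eq]
          exact ⟨Finset.mem_univ _, h⟩
        · show twoVec (cond t 4 (-4)) (cond s 4 (-4)) (Golay.pt (Golay.idx j)) (Golay.pt (Golay.idx i)) = _
          rw [hs, ht, pt_idx, pt_idx, hyy]
          unfold twoVec
          rw [add_comm]
    have h2 := Set.ncard_le_ncard h1 (Finset.finite_toSet _)
    rw [Set.ncard_image_of_injective _ Subtype.val_injective, Set.ncard_coe_finset] at h2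
    exact h2.trans Finset.card_image_le
  · exact orbit_geS codeU gn_mem u_orb (by norm_num) u_inc (orbit_fin norm_leechU)

theorem norm_oV : sqNorm (oV : GolayPt → ℤ) = 32 := by
  show sqNorm oddVec = 32
  unfold oddVec
  decide +kernel

theorem norm_tO : sqNorm (tO : GolayPt → ℤ) = 32 := by
  show sqNorm tV = 32
  unfold tV
  decide +kernel

theorem M4_orbit {K : Subgroup Co0} (hK : K ≤ crossStab) {x y : leechLattice} (hy : y ∈ orbit K x) :
    M4 (y : GolayPt → ℤ) = M4 (x : GolayPt → ℤ) := by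
  obtain ⟨g, rfl⟩ := hy
  exact M4_inv (hK g.2) x

theorem mem_of_smul {x y : leechLattice} (h : ∃ g ∈ crossStab, g • y = x) : y ∈ orbit crossStab x := by
  obtain ⟨g, hg, rfl⟩ := h
  exact ⟨⟨g⁻¹, crossStab.inv_mem hg⟩, inv_smul_smul g y⟩

theorem mem_u {y : leechLattice} (hn : sqNorm (y : GolayPt → ℤ) = 32) :
    y ∈ orbit crossStab u ↔ M4 (y : GolayPt → ℤ) = 512 := by
  constructor
  · intro h; rw [M4_orbit le_rfl h, M4_u]
  · intro h
    rcases tri y hn with ⟨h1, -, -⟩ | ⟨-, h2, -⟩ | ⟨-, h2, -⟩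
    · exact mem_of_smul h1
    · omega
    · omega

theorem mem_odd {y : leechLattice} (hn : sqNorm (y : GolayPt → ℤ) = 32) :
    (y ∈ orbit crossStab oV ↔ M4 (y : GolayPt → ℤ) = 104) ∧ (y ∈ orbit crossStab oV ↔ IsOddVec (y : GolayPt → ℤ)) := by
  have h1 : y ∈ orbit crossStab oV → M4 (y : GolayPt → ℤ) = 104 := by
    intro h; rw [M4_orbit le_rfl h, M4_oV]
  have h2 : M4 (y : GolayPt → ℤ) = 104 → IsOddVec (y : GolayPt → ℤ) := by
    intro h
    rcases tri y hn with ⟨-, h2, -⟩ | ⟨-, -, h2⟩ | ⟨-, h2, -⟩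
    · omega
    · exact h2
    · omega
  have h3 : IsOddVec (y : GolayPt → ℤ) → y ∈ orbit crossStab oV := fun h => mem_of_smul (to_odd y hn h)
  exact ⟨⟨h1, fun h => h3 (h2 h)⟩, ⟨fun h => h2 (h1 h), h3⟩⟩

theorem mem_oct {y : leechLattice} (hn : sqNorm (y : GolayPt → ℤ) = 32) :
    y ∈ orbit crossStab tO ↔ M4 (y : GolayPt → ℤ) = 128 := by
  constructor
  · intro h; rw [M4_orbit le_rfl h, M4_tO]
  · intro h
    rcases tri y hn with ⟨-, h2, -⟩ | ⟨-, h2, -⟩ | ⟨h1, -, -⟩
    · omega
    · omega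
    · exact mem_of_smul h1

theorem card_odd : (orbit crossStab oV).ncard = 98304 := by
  have e : orbit crossStab oV = {x : leechLattice | IsOddVec (x : GolayPt → ℤ) ∧ sqNorm (x : GolayPt → ℤ) = 32} := by
    ext y
    constructor
    · intro h
      have hn : sqNorm (y : GolayPt → ℤ) = 32 := orbit_subset_min norm_oV h
      exact ⟨(mem_odd hn).2.1 h, hn⟩
    · rintro ⟨h1, h2⟩
      exact (mem_odd h2).2.2 h1
  rw [e, ncard_lattice (fun x => IsOddVec x ∧ sqNorm x = 32), ← ncard_odd_32]
  congr 1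
  ext x
  constructor
  · rintro ⟨-, h⟩; exact h
  · intro h; exact ⟨(mem_iff x).2 (Or.inr h.1), h⟩

theorem card_oct : (orbit crossStab tO).ncard = 97152 := by
  have e : orbit crossStab u ∪ orbit crossStab tO =
      {x : leechLattice | IsEvenVec (x : GolayPt → ℤ) ∧ sqNorm (x : GolayPt → ℤ) = 32} := by
    ext y
    constructor
    · intro h
      have hn : sqNorm (y : GolayPt → ℤ) = 32 := by
        rcases h with h | h
        · exact orbit_subset_min norm_leechU h
        · exact orbit_subset_min norm_tO h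
      refine ⟨?_, hn⟩
      rcases tri y hn with ⟨-, -, h2⟩ | ⟨-, h2, -⟩ | ⟨-, -, h2⟩
      · exact h2
      · rcases h with h | h
        · rw [mem_u hn] at h; omega
        · rw [mem_oct hn] at h; omega
      · exact h2
    · rintro ⟨h1, h2⟩
      rcases tri y h2 with ⟨h3, -, -⟩ | ⟨-, -, h3⟩ | ⟨h3, -, -⟩
      · exact Or.inl (mem_of_smul h3)
      · exfalso
        exact odd_not_dvd h3 none (even_dvd h1 none)
      · exact Or.inr (mem_of_smul h3)
  have h1 : (orbit crossStab u ∪ orbit crossStab tO).ncard = 98256 := by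
    rw [e, ncard_lattice (fun x => IsEvenVec x ∧ sqNorm x = 32), ← ncard_even_32]
    congr 1
    ext x
    constructor
    · rintro ⟨-, h⟩; exact h
    · intro h; exact ⟨(mem_iff x).2 (Or.inl h.1), h⟩
  have hd : Disjoint (orbit crossStab u) (orbit crossStab tO) := by
    rw [Set.disjoint_left]
    intro y h2 h3
    have hn : sqNorm (y : GolayPt → ℤ) = 32 := orbit_subset_min norm_leechU h2
    rw [mem_u hn] at h2
    rw [mem_oct hn] at h3
    omega
  rw [Set.ncard_union_eq hd (orbit_fin norm_leechU) (orbit_fin norm_tO), card_E4] at h1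
  omega

end Cfsg.Agent.MLin.Cross
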