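import Cfsg.Agent.MLin.CrossData
import Cfsg.Agent.Leech.Census2
import Cfsg.Agent.Leech.Orders

/-!
The orbits of the monomial group on the minimal vectors (owner: helper7).
-/
set_option autoImplicit false
set_option maxRecDepth 100000

namespace Cfsg.Agent.MLin.Cross

open Cfsg Cfsg.Agent Cfsg.Agent.Leech Cfsg.Agent.PermTab Cfsg.Agent.CosetEnum Cfsg.Agent.MulX Cfsg.Agent.MLin
  Cfsg.Agent.MLin.Lat MulAction

/-! ### the sum of the fourth powers -/

/-- sum of fourth powers -/
def M4 (x : GolayPt → ℤ) : ℤ := ∑ p, x p ^ 4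

theorem M4_inv {g : Co0} (hg : g ∈ crossStab) (x : leechLattice) :
    M4 ((g • x : leechLattice) : GolayPt → ℤ) = M4 (x : GolayPt → ℤ) := by
  obtain ⟨c, hc, σ, hσ, rfl⟩ := mem_crossStab_mono hg
  unfold M4
  have h1 : ∀ j, (((flipElt c hc * permElt σ hσ) • x : leechLattice) : GolayPt → ℤ) j ^ 4 =
      (x : GolayPt → ℤ) (σ.symm j) ^ 4 := by
    intro j
    rw [mono_smul, mul_pow]
    rcases lift_zero_or_one c j with h | h <;> rw [h] <;> norm_num
  rw [Finset.sum_congr rfl fun j _ => h1 j]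
  exact Equiv.sum_comp σ.symm fun j => (x : GolayPt → ℤ) j ^ 4

/-! ### odd vectors -/

/-- the odd base vector -/
def oV : leechLattice := ⟨oddVec, oddVec_mem⟩

theorem M4_oV : M4 (oV : GolayPt → ℤ) = 104 := by
  show M4 oddVec = 104
  unfold M4 oddVec
  decide +kernel

theorem to_odd (y : leechLattice) (hn : sqNorm (y : GolayPt → ℤ) = 32) (ho : IsOddVec (y : GolayPt → ℤ)) :
    ∃ g ∈ crossStab, g • y = oV := by
  obtain ⟨c, hc, h1, -⟩ := odd_normalise ho
  obtain ⟨z, hz⟩ : ∃ z, z = flipElt c hc • y := ⟨_, rfl⟩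
  have hz1 : ∀ i, (z : GolayPt → ℤ) i = flip c (y : GolayPt → ℤ) i := fun i => by rw [hz, flipElt_apply]; rfl
  have hzn : sqNorm (z : GolayPt → ℤ) = 32 := by rw [hz, co0_norm, hn]
  have hzo : IsOddVec (z : GolayPt → ℤ) := by
    rcases even_or_odd z with he | ho'
    · exfalso
      have h2 := even_dvd he none
      rw [hz1] at h2
      have h3 := h1 none
      unfold Int.ModEq at h3
      omega
    · exact ho'
  obtain ⟨e1, e2⟩ := cnt_odd hzo (by omega)
  rw [hzn] at e2
  have c3 : cnt (z : GolayPt → ℤ) 3 = 1 ∧ cnt (z : GolayPt → ℤ) 1 = 23 := by omega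
  obtain ⟨a, ha⟩ := Finset.card_eq_one.1 c3.1
  have ha1 : ((z : GolayPt → ℤ) a).natAbs = 3 := by
    have : a ∈ (Finset.univ.filter fun i => ((z : GolayPt → ℤ) i).natAbs = 3) := by rw [ha]; simp
    exact (Finset.mem_filter.1 this).2
  have hother : ∀ j, j ≠ a → ((z : GolayPt → ℤ) j).natAbs = 1 := by
    intro j hj
    have h7 := abs_le_of_norm hzn (by norm_num) j
    have h8 := odd_not_dvd hzo j
    have h9 : ((z : GolayPt → ℤ) j).natAbs = 1 ∨ ((z : GolayPt → ℤ) j).natAbs = 3 ∨
      ((z : GolayPt → ℤ) j).natAbs = 5 ∨ ((z : GolayPt → ℤ) j).natAbs = 7 := by omega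
    rcases h9 with h | h | h | h
    · exact h
    · exfalso
      have : j ∈ (Finset.univ.filter fun i => ((z : GolayPt → ℤ) i).natAbs = 3) := by
        rw [Finset.mem_filter]; exact ⟨Finset.mem_univ j, h⟩
      rw [ha, Finset.mem_singleton] at this
      exact hj this
    · have := le_cnt z.1 j h; omega
    · have := le_cnt z.1 j h; omega
  obtain ⟨σ, hσ, hσa⟩ := M24_one a none
  refine ⟨permElt σ hσ * flipElt c hc, crossStab.mul_mem (permElt_mem hσ) (flipElt_mem hc), ?_⟩
  rw [mul_smul, ← hz]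
  apply Subtype.ext
  funext j
  rw [permElt_apply]
  show _ = oddVec j
  unfold oddVec
  have h3 := h1 (σ.symm j)
  rw [← hz1] at h3
  by_cases hj : j = none
  · rw [if_pos hj]
    have h4 : σ.symm j = a := by rw [hj, ← hσa, Equiv.symm_apply_apply]
    rw [h4] at h3 ⊢
    unfold Int.ModEq at h3
    omega
  · rw [if_neg hj]
    have h4 : σ.symm j ≠ a := by
      intro h
      apply hj
      rw [← hσa, ← h, Equiv.apply_symm_apply]
    have h5 := hother _ h4
    unfold Int.ModEq at h3
    omega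

/-! ### vectors of shape `(4^2, 0^22)` -/

theorem M4_u : M4 (Spor.leechU : GolayPt → ℤ) = 512 := by
  show M4 Spor.vecU = 512
  unfold M4 Spor.vecU
  decide +kernel

theorem to_u (z : leechLattice) (hzn : sqNorm (z : GolayPt → ℤ) = 32) (he : IsEvenVec (z : GolayPt → ℤ))
    (hc4 : cnt (z : GolayPt → ℤ) 4 = 2) : ∃ g ∈ crossStab, g • z = Spor.leechU := by
  obtain ⟨e1, e2, e3⟩ := cnt_even he (by omega)
  rw [hzn] at e2
  have hc0 : cnt (z : GolayPt → ℤ) 0 = 22 := by omega
  obtain ⟨a, b, hab, hset⟩ := Finset.card_eq_two.1 hc4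
  have ha : (z.1 a).natAbs = 4 := by
    have : a ∈ (Finset.univ.filter fun i => (z.1 i).natAbs = 4) := by rw [hset]; simp
    exact (Finset.mem_filter.1 this).2
  have hb : (z.1 b).natAbs = 4 := by
    have : b ∈ (Finset.univ.filter fun i => (z.1 i).natAbs = 4) := by rw [hset]; simp
    exact (Finset.mem_filter.1 this).2
  have h0 : ∀ j, j ≠ a → j ≠ b → z.1 j = 0 := by
    intro j hja hjb
    have h7 := abs_le_of_norm hzn (by norm_num) j
    have h8 := even_dvd he j
    have h9 : (z.1 j).natAbs = 0 ∨ (z.1 j).natAbs = 2 ∨ (z.1 j).natAbs = 4 ∨ (z.1 j).natAbs = 6 ∨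
      (z.1 j).natAbs = 8 := by omega
    rcases h9 with h | h | h | h | h
    · exact Int.natAbs_eq_zero.1 h
    · have := le_cnt z.1 j h; omega
    · exfalso
      have : j ∈ (Finset.univ.filter fun i => (z.1 i).natAbs = 4) := by
        rw [Finset.mem_filter]; exact ⟨Finset.mem_univ j, h⟩
      rw [hset, Finset.mem_insert, Finset.mem_singleton] at this
      tauto
    · have := le_cnt z.1 j h; omega
    · have := le_cnt z.1 j h; omega
  obtain ⟨p, hp1, hp2⟩ : ∃ x : Fin 5 → GolayPt, Function.Injective x ∧ x 0 = a ∧ x 1 = b := by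
    let q : Fin 5 → GolayPt := fun i => Golay.pt i
    have hq : Function.Injective q := by decide
    obtain ⟨σ, -, hσ0, hσ1⟩ := M24_two (show q 0 ≠ q 1 by decide) hab
    exact ⟨fun i => σ (q i), fun i j h => hq (σ.injective h), hσ0, hσ1⟩
  obtain ⟨c, hc, hs⟩ := exists_signs z p hp1 (fun _ => false)
  have hs0 := hs 0
  have hs1 := hs 1
  rw [hp2.1] at hs0
  rw [hp2.2] at hs1
  simp only [Bool.false_eq_true, if_false] at hs0 hs1
  rw [Int.abs_eq_natAbs, ha] at hs0
  rw [Int.abs_eq_natAbs, hb] at hs1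
  obtain ⟨σ, hσ, hσa, hσb⟩ := M24_two hab (show (none : GolayPt) ≠ some 0 by decide)
  refine ⟨permElt σ hσ * flipElt c hc, crossStab.mul_mem (permElt_mem hσ) (flipElt_mem hc), ?_⟩
  rw [mul_smul]
  apply Subtype.ext
  funext j
  rw [permElt_apply]
  show _ = Spor.vecU j
  unfold Spor.vecU
  by_cases hj : j = none
  · rw [if_pos (Or.inl hj), hj, ← hσa, Equiv.symm_apply_apply, hs0]; rfl
  · by_cases hj' : j = some 0
    · rw [if_pos (Or.inr hj'), hj', ← hσb, Equiv.symm_apply_apply, hs1]; rfl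
    · rw [if_neg (by tauto), flipElt_apply, h0, mul_zero]
      · intro h; exact hj (by rw [← hσa, ← h, Equiv.apply_symm_apply])
      · intro h; exact hj' (by rw [← hσb, ← h, Equiv.apply_symm_apply])

/-! ### vectors of shape `(2^8, 0^16)` -/

/-- mask of the base octad -/
def m0 : ℕ := 0x149f

/-- points of the base octad -/
def op (i : ℕ) : ℕ := [0, 1, 2, 3, 4, 7, 10, 12].getD i 0

/-- code words with given trace on the base octad -/
def tab : List ℕ := [0, 334433, 31554, 352547, 381252, 52005, 371206, 45159, 416040, 213833, 402026, 210955, 231532, 430605, 258862, 452943, 252432, 442481, 237906, 441139, 396116, 201013, 421910, 223863, 361272, 39257, 391290, 57883, 21116, 346141, 10558, 340831, 168928, 493953, 190626, 520899, 475812, 153797, 473574, 140167, 314056, 118953, 307594, 109547, 72588, 262637, 90318, 293551, 84464, 283537, 78514, 272595, 301236, 99029, 320502, 129431, 463064, 133817, 486298, 160251, 180636, 515069, 178910, 499903, 504864, 175681, 511842,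 185603, 157028, 491269, 138790, 459847, 126216, 325481, 104010, 298027, 277580, 75309, 280334, 89455, 290352, 95313, 267634, 69395, 114548, 304405, 115766, 319063, 145176, 470393, 150618, 480827, 517724, 195645, 498974, 165759, 337856, 15777, 351362, 18147, 63108, 388325, 36294, 366503, 229096, 418953, 198058, 401355, 438188, 243149, 447726, 249487, 458192, 255921, 427666, 236787, 208020, 407285, 219094, 413111, 42232, 376473, 57274, 378331, 357820, 28637, 331518, 5279]

theorem tab_ok : (∀ k < 128, Golay.inCode (tab.getD k 0) = true) ∧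
    (∀ k < 128, ∀ i < 7, (tab.getD k 0).testBit (op i) = k.testBit i) ∧ Golay.inCode m0 = true ∧ Golay.pop m0 = 8 := by
  decide +kernel

theorem m0_bits : ∀ j < 24, m0.testBit j = true ↔ ∃ i < 8, op i = j := by decide +kernel

theorem op_idx : ∀ i < 8, Golay.idx (Golay.pt (op i)) = op i := by decide +kernel

/-- the base vector -/
def tV : GolayPt → ℤ := fun p => if m0.testBit (Golay.idx p) then 2 else 0

theorem tV_test : leechTest tV = true := by decide +kernel

/-- the base vector -/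
def tO : leechLattice := ⟨tV, mem_of_test tV_test⟩

theorem M4_tO : M4 (tO : GolayPt → ℤ) = 128 := by
  show M4 tV = 128
  unfold M4 tV
  decide +kernel

theorem exists_word (s : ℕ → Bool) : ∃ c ∈ golayCode, ∀ i < 7, lift c (Golay.pt (op i)) = if s i then 1 else 0 := by
  obtain ⟨h1, h2, -, -⟩ := tab_ok
  have hk : Nat.ofBits (fun i : Fin 7 => s i) < 128 := Nat.ofBits_lt_two_pow _
  have hs := (supports_mem_iff golayCode _).1 (Golay.ofMask_mem_supports (h1 _ hk))
  refine ⟨_, hs, fun i hi => ?_⟩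
  have h3 := h2 _ hk i hi
  rw [Nat.testBit_ofBits_lt _ _ hi] at h3
  have h4 : Golay.idx (Golay.pt (op i)) = op i := op_idx i (by omega)
  split_ifs with h
  · rw [lift_eq_one_iff, if_pos]
    · decide
    · rw [Golay.mem_ofMask, h4, h3, h]
  · rw [lift_eq_zero_iff, if_neg]
    rw [Golay.mem_ofMask, h4, h3]
    exact h

theorem pt_idx (p : GolayPt) : Golay.pt (Golay.idx p) = p := by revert p; decide +kernel

theorem m0_octad : Golay.ofMask m0 ∈ octads := by
  have h := tab_ok.2.2
  rw [Golay.mem_octads_iff, Golay.maskOf_ofMask (Golay.inCode_lt h.1)]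
  exact h

theorem sum_m0 (z : GolayPt → ℤ) (h : ∀ p, p ∉ Golay.ofMask m0 → z p = 0) :
    ∑ p, z p = ∑ i ∈ Finset.range 8, z (Golay.pt (op i)) := by
  have e : Golay.ofMask m0 = (Finset.range 8).image (fun i => Golay.pt (op i)) := by decide +kernel
  rw [← Finset.sum_subset (Finset.subset_univ (Golay.ofMask m0)) (fun p _ hp => h p hp), e,
    Finset.sum_image]
  have inj : ∀ i < 8, ∀ j < 8, Golay.pt (op i) = Golay.pt (op j) → i = j := by decide +kernel
  intro i hi j hj hij
  exact inj i (Finset.mem_range.1 hi) j (Finset.mem_range.1 hj) hij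

theorem to_octad (y : leechLattice) (hyn : sqNorm (y : GolayPt → ℤ) = 32) (he : IsEvenVec (y : GolayPt → ℤ))
    (hc2 : cnt (y : GolayPt → ℤ) 2 = 8) : ∃ g ∈ crossStab, g • y = tO := by
  obtain ⟨e1, e2, e3⟩ := cnt_even he (by omega)
  rw [hyn] at e2
  have hval : ∀ j, ((y : GolayPt → ℤ) j).natAbs = 0 ∨ ((y : GolayPt → ℤ) j).natAbs = 2 := by
    intro j
    have h7 := abs_le_of_norm hyn (by norm_num) j
    have h8 := even_dvd he j
    have h9 : ((y : GolayPt → ℤ) j).natAbs = 0 ∨ ((y : GolayPt → ℤ) j).natAbs = 2 ∨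
      ((y : GolayPt → ℤ) j).natAbs = 4 ∨ ((y : GolayPt → ℤ) j).natAbs = 6 ∨ ((y : GolayPt → ℤ) j).natAbs = 8 := by omega
    rcases h9 with h | h | h | h | h
    · exact Or.inl h
    · exact Or.inr h
    · have := le_cnt y.1 j h; omega
    · have := le_cnt y.1 j h; omega
    · have := le_cnt y.1 j h; omega
  obtain ⟨c, hc, h4, -⟩ := he
  -- the octad
  have hsup : (Finset.univ.filter fun i => ((y : GolayPt → ℤ) i).natAbs = 2) ∈ octads := by
    refine ⟨?_, hc2⟩
    rw [supports_mem_iff]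
    have e : (fun i => if i ∈ (Finset.univ.filter fun i => ((y : GolayPt → ℤ) i).natAbs = 2) then (1 : ZMod 2) else 0) = c := by
      funext i
      have h5 := h4 i
      rcases lift_zero_or_one c i with h | h
      · rw [(lift_eq_zero_iff c i).1 h, if_neg]
        intro h6'
        have h6 := (Finset.mem_filter.1 h6').2
        rw [h] at h5
        unfold Int.ModEq at h5
        omega
      · have h6 := (lift_eq_one_iff c i).1 h
        have key : ∀ a : ZMod 2, a ≠ 0 → a = 1 := by decide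
        rw [key _ h6, if_pos]
        refine Finset.mem_filter.2 ⟨Finset.mem_univ _, ?_⟩
        rw [h] at h5
        unfold Int.ModEq at h5
        rcases hval i with h7 | h7
        · exfalso; omega
        · exact h7
    rw [e]
    exact hc
  obtain ⟨σ, hσ, hσo⟩ := Golay.M24_octad_transitive hsup m0_octad
  obtain ⟨z, hz⟩ : ∃ z, z = permElt σ hσ • y := ⟨_, rfl⟩
  have hz1 : ∀ j, (z : GolayPt → ℤ) j = (y : GolayPt → ℤ) (σ.symm j) := fun j => by rw [hz, permElt_apply]
  have hz2 : ∀ j, j ∈ Golay.ofMask m0 ↔ ((z : GolayPt → ℤ) j).natAbs = 2 := by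
    intro j
    rw [← hσo, hz1, Finset.mem_smul_finset]
    constructor
    · rintro ⟨i, hi, rfl⟩
      have : σ.symm (σ • i) = i := Equiv.symm_apply_apply σ i
      rw [this]
      exact (Finset.mem_filter.1 hi).2
    · intro h
      exact ⟨σ.symm j, Finset.mem_filter.2 ⟨Finset.mem_univ _, h⟩, Equiv.apply_symm_apply σ j⟩
  obtain ⟨d, hd, hs⟩ := exists_word (fun i => decide ((z : GolayPt → ℤ) (Golay.pt (op i)) < 0))
  obtain ⟨w, hw⟩ : ∃ w, w = flipElt d hd • z := ⟨_, rfl⟩
  have hw1 : ∀ j, (w : GolayPt → ℤ) j = (1 - 2 * lift d j) * (z : GolayPt → ℤ) j := fun j => by rw [hw, flipElt_apply]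
  have hw0 : ∀ j, j ∉ Golay.ofMask m0 → (w : GolayPt → ℤ) j = 0 := by
    intro j hj
    rw [hw1]
    have h5 : (z : GolayPt → ℤ) j = 0 := by
      rw [hz2] at hj
      rw [hz1] at hj ⊢
      rcases hval (σ.symm j) with h7 | h7
      · exact Int.natAbs_eq_zero.1 h7
      · exact absurd h7 hj
    rw [h5, mul_zero]
  have hop : ∀ i < 8, Golay.pt (op i) ∈ Golay.ofMask m0 := by decide +kernel
  have hw7 : ∀ i < 7, (w : GolayPt → ℤ) (Golay.pt (op i)) = 2 := by
    intro i hi
    have h5 := (hz2 _).1 (hop i (by omega))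
    rw [hw1, hs i hi]
    by_cases h6 : (z : GolayPt → ℤ) (Golay.pt (op i)) < 0
    · rw [decide_eq_true h6, if_pos rfl]; omega
    · rw [decide_eq_false h6, if_neg (by decide)]; omega
  have hw8 : (w : GolayPt → ℤ) (Golay.pt (op 7)) = 2 ∨ (w : GolayPt → ℤ) (Golay.pt (op 7)) = -2 := by
    have h5 := (hz2 _).1 (hop 7 (by omega))
    rw [hw1]
    rcases lift_zero_or_one d (Golay.pt (op 7)) with h | h <;> rw [h] <;> omega
  have hwe : IsEvenVec (w : GolayPt → ℤ) := by
    rcases even_or_odd w with h | h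
    · exact h
    · exfalso
      apply odd_not_dvd h (Golay.pt (op 0))
      rw [hw7 0 (by norm_num)]
  obtain ⟨-, -, -, hsum⟩ := hwe
  rw [sum_m0 _ hw0] at hsum
  have hsum' : ∑ i ∈ Finset.range 8, (w : GolayPt → ℤ) (Golay.pt (op i)) = 14 + (w : GolayPt → ℤ) (Golay.pt (op 7)) := by
    rw [Finset.sum_range_succ, Finset.sum_congr rfl fun i hi => hw7 i (Finset.mem_range.1 hi)]
    simp
  rw [hsum'] at hsum
  have hw9 : (w : GolayPt → ℤ) (Golay.pt (op 7)) = 2 := by
    rcases hw8 with h | h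
    · exact h
    · rw [h] at hsum; unfold Int.ModEq at hsum; omega
  refine ⟨flipElt d hd * permElt σ hσ, crossStab.mul_mem (flipElt_mem hd) (permElt_mem hσ), ?_⟩
  rw [mul_smul, ← hz, ← hw]
  apply Subtype.ext
  funext j
  show _ = tV j
  unfold tV
  by_cases hj : j ∈ Golay.ofMask m0
  · have h5 := Golay.mem_ofMask.1 hj
    rw [if_pos h5]
    obtain ⟨i, hi, hij⟩ := (m0_bits _ (Golay.idx_lt j)).1 h5
    have h6 : j = Golay.pt (op i) := by rw [hij, pt_idx]
    rw [h6]
    by_cases h7 : i = 7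
    · rw [h7]; exact hw9
    · exact hw7 i (by omega)
  · rw [hw0 j hj, if_neg]
    rw [← Golay.mem_ofMask]
    exact hj

/-- **The monomial group has three orbits on the minimal vectors.** -/
theorem tri (y : leechLattice) (hyn : sqNorm (y : GolayPt → ℤ) = 32) :
    ((∃ g ∈ crossStab, g • y = Spor.leechU) ∧ M4 (y : GolayPt → ℤ) = 512 ∧ IsEvenVec (y : GolayPt → ℤ)) ∨
    ((∃ g ∈ crossStab, g • y = oV) ∧ M4 (y : GolayPt → ℤ) = 104 ∧ IsOddVec (y : GolayPt → ℤ)) ∨
    ((∃ g ∈ crossStab, g • y = tO) ∧ M4 (y : GolayPt → ℤ) = 128 ∧ IsEvenVec (y : GolayPt → ℤ)) := by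
  rcases even_or_odd y with he | ho
  · obtain ⟨e1, e2, e3⟩ := cnt_even he (by omega)
    rw [hyn] at e2
    by_cases hc : cnt (y : GolayPt → ℤ) 4 = 2
    · left
      obtain ⟨g, hg, hgy⟩ := to_u y hyn he hc
      exact ⟨⟨g, hg, hgy⟩, by rw [← M4_inv hg, hgy, M4_u], he⟩
    · right; right
      obtain ⟨g, hg, hgy⟩ := to_octad y hyn he (by omega)
      exact ⟨⟨g, hg, hgy⟩, by rw [← M4_inv hg, hgy, M4_tO], he⟩
  · right; left
    obtain ⟨g, hg, hgy⟩ := to_odd y hyn ho
    exact ⟨⟨g, hg, hgy⟩, by rw [← M4_inv hg, hgy, M4_oV], ho⟩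

end Cfsg.Agent.MLin.Cross
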