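import Cfsg.Agent.MLin.Main
import Mathlib.FieldTheory.Finite.GaloisField

/-!
Coded model of the field with three elements (owner: helper7).
-/
set_option autoImplicit false

namespace Cfsg.Agent.MLin

open Cfsg.Agent.PermTab

/-- coded field with three elements -/
theorem cod3 : Cod 2 0x24924924 0x182400 3 (fun a => ((a : ℕ) : ZMod 3)) :=
  ⟨by decide, by decide, by decide +kernel, by decide +kernel, by decide +kernel, by norm_num, by norm_num⟩

/-- a coded field with three elements -/
theorem exists_cod3 {F : Type*} [Field F] [Fintype F] (hF : Fintype.card F = 3) :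
    ∃ f : ZMod 3 ≃+* F, Cod 2 0x24924924 0x182400 3 (fun a => f ((a : ℕ) : ZMod 3)) := by
  have h : Fintype.card (ZMod 3) = Fintype.card F := by rw [hF, ZMod.card]
  exact ⟨FiniteField.ringEquivOfCardEq h, cod3.map (FiniteField.ringEquivOfCardEq h).toRingHom⟩

end Cfsg.Agent.MLin
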