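import Cfsg.Agent.MLin.Main
import Mathlib.FieldTheory.Finite.GaloisField
import Mathlib.Algebra.QuadraticAlgebra.Basic

/-!
Coded model of the field with four elements (owner: helper7).
-/
set_option autoImplicit false

namespace Cfsg.Agent.MLin

open Cfsg.Agent.PermTab

/-- Model of the field with four elements. -/
abbrev K4 := QuadraticAlgebra (ZMod 2) 1 1

namespace K4

instance fact : Fact (∀ r : ZMod 2, r ^ 2 ≠ 1 + 1 * r) := ⟨by decide⟩

instance fint : Fintype K4 := Fintype.ofEquiv _ (QuadraticAlgebra.equivProd (1 : ZMod 2) 1).symm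

theorem card : Fintype.card K4 = 4 := by
  rw [Fintype.card_congr (QuadraticAlgebra.equivProd (1 : ZMod 2) 1), Fintype.card_prod, ZMod.card]

end K4

/-- element with number `k` -/
def dec4 (k : ℕ) : K4 := ⟨((k % 2 : ℕ) : ZMod 2), ((k / 2 : ℕ) : ZMod 2)⟩

/-- coded field with four elements -/
theorem cod4 : Cod 2 0x1b4eb1e4 0x9c78e400 4 dec4 :=
  ⟨by decide +kernel, by decide +kernel, by decide +kernel, by decide +kernel, by decide +kernel, by norm_num, by norm_num⟩

/-- a coded field with four elements -/
theorem exists_cod4 {F : Type*} [Field F] [Fintype F] (hF : Fintype.card F = 4) :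
    ∃ f : K4 ≃+* F, Cod 2 0x1b4eb1e4 0x9c78e400 4 (fun a => f (dec4 a)) := by
  have h : Fintype.card K4 = Fintype.card F := by rw [hF, K4.card]
  exact ⟨FiniteField.ringEquivOfCardEq h, cod4.map (FiniteField.ringEquivOfCardEq h).toRingHom⟩

end Cfsg.Agent.MLin
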