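import Cfsg.Agent.MLin.LatG

/-!
Frames given by codes (owner: helper7).
-/
set_option autoImplicit false

namespace Cfsg.Agent.MLin.Lat

open Cfsg Cfsg.Agent Cfsg.Agent.Leech Cfsg.Agent.PermTab Cfsg.Agent.MLin MulAction

/-- number of a coordinate -/
def cidx : GolayPt → ℕ
  | none => 23
  | some j => j.val

/-- An automorphism which fixes the vectors of a frame is trivial. -/
theorem faith_codes {A m : ℕ} {fk : List ℕ} {C : List (List ℤ)} (hm : m ≠ 0)
    (hchk : ∀ p q : GolayPt, (m : ℤ) * (e8 p : GolayPt → ℤ) q =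
      ∑ j : Fin 24, (C.getD (cidx p) []).getD j 0 * ivv (tget 96 A (fk.getD j 0)) q)
    {a : Co0} (ha : ∀ j < 24, ∃ x : leechLattice, Pt A (fk.getD j 0) x ∧ a • x = x) : a = 1 := by
  choose y hy1 hy2 using (fun j : Fin 24 => ha j j.2)
  apply eq_one_of_fix_e8
  intro p
  show e8 p ∈ fixL a
  apply fix_of_nsmul hm
  have e : m • e8 p = ∑ j : Fin 24, (C.getD (cidx p) []).getD j 0 • y j := by
    apply Subtype.ext
    funext q
    rw [AddSubgroup.coe_nsmul, AddSubgroup.val_finsetSum]
    have h1 := hchk p q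
    have h2 : ∀ j : Fin 24, (y j : GolayPt → ℤ) = ivv (tget 96 A (fk.getD j 0)) := fun j => hy1 j
    simp only [AddSubgroup.coe_zsmul, Finset.sum_apply, Pi.smul_apply, h2, smul_eq_mul, nsmul_eq_mul]
    exact h1
  rw [e]
  exact AddSubgroup.sum_mem _ fun j _ => (fixL a).zsmul_mem (hy2 j) _

/-- joint stabilisers of two points -/
noncomputable def pair_equiv {G X : Type*} [Group G] [MulAction G X] {a b a' b' : X} (g : G)
    (h1 : g • a = a') (h2 : g • b = b') :
    (stabilizer G a ⊓ stabilizer G b : Subgroup G) ≃* (stabilizer G a' ⊓ stabilizer G b' : Subgroup G) :=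
  (MulAut.conj g).subgroupMap _ |>.trans (MulEquiv.subgroupCongr (by
    rw [Subgroup.map_inf _ _ _ (MulAut.conj g).injective]
    congr 1
    · rw [← h1]; exact (stabilizer_smul_eq_stabilizer_map_conj g a).symm
    · rw [← h2]; exact (stabilizer_smul_eq_stabilizer_map_conj g b).symm))

end Cfsg.Agent.MLin.Lat
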