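import Cfsg.Agent.MulX.Multi

/-!
Groups of the same order with the same central presentation are isomorphic (owner: helper7).
-/
set_option autoImplicit false

namespace Cfsg.Agent.MLin

open Cfsg Cfsg.Agent.CosetEnum Cfsg.Agent.MulX Subgroup MulAction

universe u v

/-- **Isomorphism by a common central presentation.** -/
theorem iso_of_cp {G : Type u} {H : Type v} [Group G] [Group H] {g : ℕ → G} {h : ℕ → H} {ng : ℕ} {l : List (ℕ × ℕ)}
    {R1 : List (ℕ × List ℕ)} {R2 : List (List ℕ)} {RL : List (List ℕ × ℕ)} (C : CP g ng l R1 R2 RL)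
    (D : CP h ng l R1 R2 RL) (hex : exB l R1 RL = true) (hce : ceB l ng R2 RL = true) {n m : ℕ}
    (hn : Nat.card G = n) (hn' : Nat.card H = n) (hn0 : 0 < n) (hb : Bd (⊤ : Subgroup (QG ng l RL)) (n * m))
    (hm : m ≤ Nat.card (cenN ng l R2 RL)) : Nonempty (G ≃* H) := by
  obtain ⟨σ, s1, s2, -, -⟩ := C.cover hex hce hn hn0 hb hm
  obtain ⟨τ, t1, t2, -, -⟩ := D.cover hex hce hn' hn0 hb hm
  exact ⟨(QuotientGroup.quotientKerEquivOfSurjective σ s1.1).symm.trans
    ((QuotientGroup.quotientMulEquivOfEq (s2.trans t2.symm)).trans (QuotientGroup.quotientKerEquivOfSurjective τ t1.1))⟩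

/-- joint stabilisers of three points -/
theorem triple_equiv {G X : Type*} [Group G] [MulAction G X] {a b c a' b' c' : X} (g : G)
    (h1 : g • a = a') (h2 : g • b = b') (h3 : g • c = c') :
    Nonempty ((stabilizer G a ⊓ stabilizer G b ⊓ stabilizer G c : Subgroup G) ≃*
      (stabilizer G a' ⊓ stabilizer G b' ⊓ stabilizer G c' : Subgroup G)) :=
  ⟨(MulAut.conj g).subgroupMap _ |>.trans (MulEquiv.subgroupCongr (by
    rw [Subgroup.map_inf _ _ _ (MulAut.conj g).injective, Subgroup.map_inf _ _ _ (MulAut.conj g).injective]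
    congr 1
    · congr 1
      · rw [← h1]; exact (stabilizer_smul_eq_stabilizer_map_conj g a).symm
      · rw [← h2]; exact (stabilizer_smul_eq_stabilizer_map_conj g b).symm
    · rw [← h3]; exact (stabilizer_smul_eq_stabilizer_map_conj g c).symm))⟩

end Cfsg.Agent.MLin
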