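import Cfsg.Agent.MulX.Main

/-!
Groups of the same order with the same presentation are isomorphic (owner: helper7).
-/
set_option autoImplicit false

namespace Cfsg.Agent.MLin

open Cfsg Cfsg.Agent.CosetEnum Cfsg.Agent.MulX Subgroup

universe u v

section

variable {G : Type u} [Group G] {g : ℕ → G} {ng : ℕ} {l : List (ℕ × ℕ)}
    {R1 : List (ℕ × List ℕ)} {R2 : List (List ℕ)} {RL RE : List (List ℕ × ℕ)}

/-- letters which satisfy the exact relators -/
theorem good_exact (C : CP g ng l R1 R2 RL) (hre : relB l ng (R1 ++ R2.map fun w => (0, w)) [] RE = true) :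
    Good g ng l RE := by
  refine good_of C.inv C.one ?_ ?_ hre
  · intro q hq
    rcases List.mem_append.1 hq with h | h
    · exact C.ex q h
    · obtain ⟨w, hw, rfl⟩ := List.mem_map.1 h
      exact C.ce w hw
  · intro w hw
    exact absurd hw (List.not_mem_nil)

theorem equiv_exact (C : CP g ng l R1 R2 RL) (hre : relB l ng (R1 ++ R2.map fun w => (0, w)) [] RE = true) {n : ℕ}
    (hn : Nat.card G = n) (hb : Bd (⊤ : Subgroup (QG ng l RE)) n) (hn0 : 0 < n) : Nonempty (QG ng l RE ≃* G) := by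
  obtain ⟨φ, hφ⟩ := qg_univ (good_exact C hre)
  have hr : φ.range = ⊤ := by
    rw [range_eq_Cl φ hφ (univ_qg ng l RE).top, C.top]
  have hs : Function.Surjective φ := MonoidHom.range_eq_top.1 hr
  obtain ⟨h1, h2⟩ := hb
  have hfin : Finite (QG ng l RE) := Finite.of_equiv _ Subgroup.topEquiv.toEquiv
  have hfin' : Finite G := Nat.finite_of_card_ne_zero (by rw [hn]; omega)
  rw [Subgroup.card_top] at h2
  have hbij : Function.Bijective φ := hs.bijective_of_nat_card_le (by rw [hn]; exact h2)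
  exact ⟨MulEquiv.ofBijective φ hbij⟩

end

/-- **Isomorphism by a common presentation.** -/
theorem iso_of_exact {G : Type u} {H : Type v} [Group G] [Group H] {g : ℕ → G} {h : ℕ → H} {ng : ℕ} {l : List (ℕ × ℕ)}
    {R1 : List (ℕ × List ℕ)} {R2 : List (List ℕ)} {RL RE : List (List ℕ × ℕ)} (C : CP g ng l R1 R2 RL)
    (D : CP h ng l R1 R2 RL) (hre : relB l ng (R1 ++ R2.map fun w => (0, w)) [] RE = true) {n : ℕ}
    (hn : Nat.card G = n) (hn' : Nat.card H = n) (hb : Bd (⊤ : Subgroup (QG ng l RE)) n) (hn0 : 0 < n) :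
    Nonempty (G ≃* H) := by
  obtain ⟨a⟩ := equiv_exact C hre hn hb hn0
  obtain ⟨b⟩ := equiv_exact D hre hn' hb hn0
  exact ⟨a.symm.trans b⟩

end Cfsg.Agent.MLin
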