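import Cfsg.Agent.MLin.McLMonoT

/-! Checks of relators (generated data, owner: helper7). -/

set_option autoImplicit false
set_option maxRecDepth 1000000

namespace Cfsg.Agent.MLin.McL

theorem sh9 : shB 3 17 99 225 tm ([1, 3, 1, 3], 0) = true := by decide +kernel

theorem sh10 : shB 3 17 99 225 tm ([1, 5, 1, 5], 0) = true := by decide +kernel

theorem sh11 : shB 3 17 99 225 tm ([3, 5, 3, 5], 0) = true := by decide +kernel

theorem sh12 : shB 3 17 99 225 tm ([7, 1, 8, 2], 1) = true := by decide +kernel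

theorem sh13 : shB 3 17 99 225 tm ([7, 3, 8, 4], 2) = true := by decide +kernel

theorem sh14 : shB 3 17 99 225 tm ([5, 7, 5, 7, 5, 7, 5, 7, 5, 7], 0) = true := by decide +kernel

theorem sh15 : shB 3 17 99 225 tm ([7, 6, 7, 6, 7, 6, 7, 6, 7, 6], 0) = true := by decide +kernel

theorem sh16 : shB 3 17 99 225 tm ([9, 9], 0) = true := by decide +kernel

theorem sh17 : shB 3 17 99 225 tm ([9, 4, 8, 10, 7, 3], 0) = true := by decide +kernel

theorem sh18 : shB 3 17 99 225 tm ([9, 1, 6, 1, 4, 10, 3, 2, 5, 2], 0) = true := by decide +kernel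

theorem sh19 : shB 3 17 99 225 tm ([11, 9, 11, 9], 0) = true := by decide +kernel

end Cfsg.Agent.MLin.McL
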