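import Cfsg.Agent.MLin.McLMonoT

/-! Checks of relators (generated data, owner: helper7). -/

set_option autoImplicit false
set_option maxRecDepth 1000000

namespace Cfsg.Agent.MLin.McL

theorem sh20 : shB 3 17 99 225 tm ([11, 4, 1, 6, 1, 11, 2, 5, 2, 9, 3], 0) = true := by decide +kernel

theorem sh21 : shB 3 17 99 225 tm ([11, 4, 1, 9, 6, 8, 3, 11, 6, 9, 7, 5, 9], 2) = true := by decide +kernel

theorem sh22 : shB 3 17 99 225 tm ([8, 11, 7, 11], 0) = true := by decide +kernel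

theorem sh23 : shB 3 17 99 225 tm ([2, 3, 11, 2, 3, 11, 2, 3, 11], 0) = true := by decide +kernel

theorem sh24 : shB 3 17 99 225 tm ([2, 11, 4, 2, 11, 1, 3, 11, 4], 0) = true := by decide +kernel

theorem sh25 : shB 3 17 99 225 tm ([1, 4, 1, 5, 9, 2, 6, 4, 1, 9, 6, 2, 3, 2, 5, 10, 2, 3, 5, 1, 10, 6], 0) = true := by decide +kernel

end Cfsg.Agent.MLin.McL
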