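import Cfsg.Agent.MLin.McLMonoT

/-! Checks of relators (generated data, owner: helper7). -/

set_option autoImplicit false
set_option maxRecDepth 1000000

namespace Cfsg.Agent.MLin.McL

theorem sh26 : shB 3 17 99 225 tm ([1, 4, 1, 11, 2, 11, 2, 9, 1, 11, 1, 11, 2, 3, 2, 12, 2, 12, 2, 10, 1, 12, 1, 12], 0) = true := by decide +kernel

theorem sh27 : shB 3 17 99 225 tm ([5, 9, 2, 6, 4, 1, 9, 6, 11, 2, 11, 2, 9, 1, 11, 1, 11, 5, 10, 2, 3, 5, 1, 10, 6, 12, 2, 12, 2, 10, 1, 12, 1, 12, 4, 2], 0) = true := by decide +kernel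

end Cfsg.Agent.MLin.McL
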