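import Cfsg.Agent.MLin.McLMonoT

/-! Checks of relators (generated data, owner: helper7). -/

set_option autoImplicit false
set_option maxRecDepth 1000000

namespace Cfsg.Agent.MLin.McL

theorem sh28 : shB 3 17 99 225 tm ([5, 7, 6, 3, 11, 7, 9, 8, 12, 4, 5, 8, 6, 7, 5, 10, 6, 8], 0) = true := by decide +kernel

theorem sh29 : shB 3 17 99 225 tm ([5, 7, 6, 3, 11, 7, 6, 8, 4, 11, 9, 5, 4, 9, 7, 5, 8, 12, 4, 5, 8, 6, 10, 3, 6, 10, 12, 3], 0) = true := by decide +kernel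

theorem sh30 : shB 3 17 99 225 tm ([7, 5, 9, 6, 8, 4, 11, 9, 5, 4, 9, 7, 5, 10, 6, 8, 10, 3, 6, 10, 12, 3, 10, 8, 1, 6], 1) = true := by decide +kernel

end Cfsg.Agent.MLin.McL
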