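import Cfsg.Agent.MLin.McLMonoT

/-! Checks of relators (generated data, owner: helper7). -/

set_option autoImplicit false
set_option maxRecDepth 1000000

namespace Cfsg.Agent.MLin.McL

theorem sh31 : shB 3 17 99 225 tm ([8, 9, 5, 2, 3, 11, 6, 8, 8, 9, 5, 2, 3, 11, 6, 8, 10, 8, 1, 6], 1) = true := by decide +kernel

theorem sh32 : shB 3 17 99 225 tm ([1, 6, 9, 8, 5, 2, 7, 9, 7, 5, 8, 12, 4, 5, 8, 6, 7, 5, 12, 4, 1, 6, 10, 7], 0) = true := by decide +kernel

end Cfsg.Agent.MLin.McL
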