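import Cfsg.Agent.MLin.McLMonoC0
import Cfsg.Agent.MLin.McLMonoC1
import Cfsg.Agent.MLin.McLMonoC2
import Cfsg.Agent.MLin.McLMonoC3
import Cfsg.Agent.MLin.McLMonoC4
import Cfsg.Agent.MLin.McLMonoC5
import Cfsg.Agent.MLin.McLRel

/-! Checks of relators (generated data, owner: helper7). -/

set_option autoImplicit false
set_option maxRecDepth 1000000

namespace Cfsg.Agent.MLin.McL

open Cfsg.Agent.MulX Cfsg.Agent.CosetEnum

theorem mt_ok : mtB 3 17 99 225 12 iv tm = true := by decide +kernel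

theorem mono1 : ∀ q ∈ R1, shB 3 17 99 225 tm (q.2, 0) = true := fun q hq => by
  simp only [R1, List.mem_cons, List.not_mem_nil, or_false] at hq
  rcases hq with rfl | rfl | rfl | rfl | rfl | rfl
  · exact sh0
  · exact sh1
  · exact sh2
  · exact sh3
  · exact sh4
  · exact sh5

theorem mono2 : ∀ q ∈ R2, ∃ z < 3, shB 3 17 99 225 tm (q, z) = true := fun q hq => by
  simp only [R2, List.mem_cons, List.not_mem_nil, or_false] at hq
  rcases hq with rfl | rfl | rfl | rfl | rfl | rfl | rfl | rfl | rfl | rfl | rfl | rfl | rfl | rfl | rfl | rfl | rfl | rfl | rfl | rfl | rfl | rfl | rfl | rfl | rfl | rfl | rfl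
  · exact ⟨0, by norm_num, sh6⟩
  · exact ⟨0, by norm_num, sh7⟩
  · exact ⟨0, by norm_num, sh8⟩
  · exact ⟨0, by norm_num, sh9⟩
  · exact ⟨0, by norm_num, sh10⟩
  · exact ⟨0, by norm_num, sh11⟩
  · exact ⟨1, by norm_num, sh12⟩
  · exact ⟨2, by norm_num, sh13⟩
  · exact ⟨0, by norm_num, sh14⟩
  · exact ⟨0, by norm_num, sh15⟩
  · exact ⟨0, by norm_num, sh16⟩
  · exact ⟨0, by norm_num, sh17⟩
  · exact ⟨0, by norm_num, sh18⟩
  · exact ⟨0, by norm_num, sh19⟩
  · exact ⟨0, by norm_num, sh20⟩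
  · exact ⟨2, by norm_num, sh21⟩
  · exact ⟨0, by norm_num, sh22⟩
  · exact ⟨0, by norm_num, sh23⟩
  · exact ⟨0, by norm_num, sh24⟩
  · exact ⟨0, by norm_num, sh25⟩
  · exact ⟨0, by norm_num, sh26⟩
  · exact ⟨0, by norm_num, sh27⟩
  · exact ⟨0, by norm_num, sh28⟩
  · exact ⟨0, by norm_num, sh29⟩
  · exact ⟨1, by norm_num, sh30⟩
  · exact ⟨1, by norm_num, sh31⟩
  · exact ⟨0, by norm_num, sh32⟩

theorem mono3 : shB 3 17 99 225 tm ([7, 1, 8, 2], 1) = true := sh12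

end Cfsg.Agent.MLin.McL
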