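import Cfsg.Agent.MLin.LatG
import Cfsg.Agent.MLin.McLData
import Cfsg.Agent.MLin.McLRel
import Cfsg.Agent.CosetEnum.MMcL.Certs
import Cfsg.Agent.H90.CoTrans
import Cfsg.Agent.MLin.McLMono
import Cfsg.Agent.LeechSimple.McL

/-!
The Schur multiplier of the McLaughlin group (owner: helper7).
-/
set_option autoImplicit false
set_option maxRecDepth 1000000

namespace Cfsg.Agent.MLin.McL

open Cfsg Cfsg.Agent Cfsg.Agent.Leech Cfsg.Agent.PermTab Cfsg.Agent.CosetEnum Cfsg.Agent.MulX Cfsg.Agent.MLin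
  Cfsg.Agent.MLin.Lat MulAction

theorem codeV : ∀ p, (Spor.leechV : GolayPt → ℤ) p = ivv (tget 96 cd 275) p := by decide +kernel

theorem codeU : ∀ p, (Spor.leechU : GolayPt → ℤ) p = ivv (tget 96 cd 276) p := by decide +kernel

/-- the group -/
abbrev S : Subgroup Co0 := stabilizer Co0 Spor.leechV ⊓ stabilizer Co0 Spor.leechU

theorem card_S : Nat.card S = 898128000 := LeechSimple.card_mcl

theorem frame_none : ∀ p : GolayPt, 9 * (e8 none : GolayPt → ℤ) p =
    4 * (Spor.leechV : GolayPt → ℤ) p + (Spor.leechU : GolayPt → ℤ) p - ∑ i : Fin 22, ivv (tget 96 cd (fr.getD i 0)) p := by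
  decide +kernel

theorem frame_zero : ∀ p : GolayPt, (e8 (some 0) : GolayPt → ℤ) p =
    2 * (Spor.leechU : GolayPt → ℤ) p - (e8 none : GolayPt → ℤ) p := by decide +kernel

theorem frame_some : ∀ j : ZMod 23, j ≠ 0 → ∀ p : GolayPt, (e8 (some j) : GolayPt → ℤ) p =
    -2 * ivv (tget 96 cd (fr.getD (j.val - 1) 0)) p - (e8 none : GolayPt → ℤ) p := by decide +kernel

theorem fr_lt : ∀ i < 22, fr.getD i 0 < 275 ∧ fr.getD i 0 ∈ fr := by decide +kernel

section

variable {pt : Fin 275 → leechLattice} (hpt : ∀ i : Fin 275, Pt cd i (pt i))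

include hpt

theorem faith (a : S) (h : ∀ i : Fin 275, (i : ℕ) ∈ fr → a • pt i = pt i) : a = 1 := by
  apply Subtype.ext
  have hV : Spor.leechV ∈ fixL (a : Co0) := a.2.1
  have hU : Spor.leechU ∈ fixL (a : Co0) := a.2.2
  have hx : ∀ i : ℕ, ∀ hi : i < 22, pt ⟨fr.getD i 0, (fr_lt i hi).1⟩ ∈ fixL (a : Co0) :=
    fun i hi => h _ (fr_lt i hi).2
  have h0 : e8 none ∈ fixL (a : Co0) := by
    apply fix_of_nsmul (m := 9) (by norm_num)
    have e : (9 : ℕ) • e8 none = (4 : ℕ) • Spor.leechV + Spor.leechU -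
        ∑ i : Fin 22, pt ⟨fr.getD i 0, (fr_lt i i.2).1⟩ := by
      apply Subtype.ext
      funext p
      rw [AddSubgroup.coe_nsmul, AddSubgroup.coe_sub, AddSubgroup.coe_add, AddSubgroup.coe_nsmul,
        AddSubgroup.val_finsetSum]
      have h1 := frame_none p
      have h2 : ∀ i : Fin 22, (pt ⟨fr.getD i 0, (fr_lt i i.2).1⟩ : GolayPt → ℤ) = ivv (tget 96 cd (fr.getD i 0)) :=
        fun i => hpt _
      simp only [h2, Pi.smul_apply, Pi.sub_apply, Pi.add_apply, Finset.sum_apply, nsmul_eq_mul, Nat.cast_ofNat] at h1 ⊢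
      exact h1
    rw [e]
    exact (fixL (a : Co0)).sub_mem ((fixL (a : Co0)).add_mem ((fixL (a : Co0)).nsmul_mem hV 4) hU)
      (AddSubgroup.sum_mem _ fun i _ => hx i i.2)
  apply eq_one_of_fix_e8
  intro i
  match i with
  | none => exact h0
  | some j =>
    by_cases hj0 : j = 0
    · subst hj0
      have e : e8 (some 0) = (2 : ℕ) • Spor.leechU - e8 none := by
        apply Subtype.ext
        funext p
        rw [AddSubgroup.coe_sub, AddSubgroup.coe_nsmul]
        have h1 := frame_zero p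
        simp only [Pi.smul_apply, Pi.sub_apply, nsmul_eq_mul, Nat.cast_ofNat]
        rw [h1]
        have h3 : (2 * (Spor.leechU : GolayPt → ℤ) : GolayPt → ℤ) p = 2 * (Spor.leechU : GolayPt → ℤ) p := rfl
        rw [h3]
      have h3 : e8 (some 0) ∈ fixL (a : Co0) := by
        rw [e]
        exact (fixL (a : Co0)).sub_mem ((fixL (a : Co0)).nsmul_mem hU 2) h0
      exact h3
    · have hj : j.val < 23 := ZMod.val_lt j
      have hj1 : j.val ≠ 0 := fun h => hj0 ((ZMod.val_eq_zero j).1 h)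
      have hj2 : j.val - 1 < 22 := by omega
      have e : e8 (some j) = -((2 : ℕ) • pt ⟨fr.getD (j.val - 1) 0, (fr_lt _ hj2).1⟩) - e8 none := by
        apply Subtype.ext
        funext p
        rw [AddSubgroup.coe_sub, AddSubgroup.coe_neg, AddSubgroup.coe_nsmul]
        have h1 := frame_some j hj0 p
        have h2 : (pt ⟨fr.getD (j.val - 1) 0, (fr_lt _ hj2).1⟩ : GolayPt → ℤ) = ivv (tget 96 cd (fr.getD (j.val - 1) 0)) :=
          hpt _
        simp only [h2, Pi.smul_apply, Pi.sub_apply, Pi.neg_apply, nsmul_eq_mul, Nat.cast_ofNat]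
        rw [h1]
        have h3 : (2 * ivv (tget 96 cd (fr.getD (j.val - 1) 0)) : GolayPt → ℤ) p =
          2 * ivv (tget 96 cd (fr.getD (j.val - 1) 0)) p := rfl
        rw [h3]
        ring
      have h3 : e8 (some j) ∈ fixL (a : Co0) := by
        rw [e]
        exact (fixL (a : Co0)).sub_mem ((fixL (a : Co0)).neg_mem ((fixL (a : Co0)).nsmul_mem (hx _ hj2) 2)) h0
      exact h3

end

theorem stab_of_maps (g : Co0) (h : ∀ j < 2, Maps g (tget 96 cd (275 + j)) (tget 96 cd (275 + j))) : g ∈ S := by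
  have h2 : (Spor.leechV : GolayPt → ℤ) = ivv (tget 96 cd (275 + 0)) := funext codeV
  have h3 := h 0 (by norm_num) Spor.leechV h2
  have h4 : (Spor.leechU : GolayPt → ℤ) = ivv (tget 96 cd (275 + 1)) := funext codeU
  have h5 := h 1 (by norm_num) Spor.leechU h4
  refine ⟨?_, ?_⟩
  · show g • Spor.leechV = Spor.leechV
    apply Subtype.ext
    rw [h3]
    exact h2.symm
  · show g • Spor.leechU = Spor.leechU
    apply Subtype.ext
    rw [h5]
    exact h4.symm

/-- steps of the letters -/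
def stL : ℕ → List ((ℕ × ℕ) × ℕ)
  | 0 => st0
  | 1 => st1
  | 2 => st2
  | 3 => st3
  | 4 => st4
  | 5 => st5
  | _ => []

theorem letters_ok : ∀ i < 6, letB' 9 275 2 (gt i) cd (stL i) = true := by
  intro i hi
  match i, hi with
  | 0, _ => exact act0
  | 1, _ => exact act1
  | 2, _ => exact act2
  | 3, _ => exact act3
  | 4, _ => exact act4
  | 5, _ => exact act5
  | m + 6, h => exact absurd h (by omega)

theorem rel_ok : letB 12 iv = true ∧ pairB 6 iv = true ∧ triB 12 iv R1 = true ∧ relB iv 12 R1 R2 RL = true ∧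
    (List.range (12 + 1)).all (fun x => !isLet 12 x || (R1.any fun q => q.1 == x || ivL iv q.1 == x)) = true ∧
    exB iv R1 RL = true ∧ ceB iv 12 R2 RL = true := by
  decide +kernel

theorem fr_words : frB 9 (tfm gt gi idt 6) fr (R1.map Prod.snd) = true ∧ frB 9 (tfm gt gi idt 6) fr R2 = true := by
  decide +kernel

theorem exists_cp : ∃ h : ℕ → S, CP (fam h 6) 12 iv R1 R2 RL := by
  obtain ⟨pt, hpt⟩ := exists_pt pts_ok
  obtain ⟨h, hh⟩ := exists_letters (k := 6) stab_of_maps letters_ok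
  obtain ⟨h1, h2, h3, h4, h5, -, -⟩ := rel_ok
  obtain ⟨h6, h7⟩ := fr_words
  have hfin : Finite S := Nat.finite_of_card_ne_zero (by rw [card_S]; norm_num)
  exact ⟨h, cp_lat (by norm_num) hid gens_ok hpt (pt_inj hpt (by norm_num) inc_ok) hh (faith hpt) h1 h2 h3 h4 h5 h6 h7
    chain_ok (by rw [card_ok, card_S])⟩

/-! ### the order of the covering group -/

/-- words -/
def t0 : List ℕ := [1, 4, 1]
/-- words -/
def s0 : List ℕ := [1, 3]
/-- words -/
def t2 : List ℕ := [1, 6, 9, 8]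
/-- words -/
def s2 : List ℕ := [5, 2, 7, 9]
/-- words -/
def e2 : List ℕ := [8, 9, 5, 2, 3, 11, 6, 8]
/-- words -/
def i2 : List ℕ := [5, 7, 6, 3, 11, 7, 6, 8]

theorem lem_ok : cmB iv R2 t0 [5, 9, 2, 6, 4, 1, 9, 6] [11, 2, 11, 2, 9, 1, 11, 1, 11] s0 = true ∧
    cmB iv R2 i2 [7, 5, 9, 6, 8] [4, 11, 9, 5, 4, 9] s2 = true ∧
    R2.contains (red iv ((List.replicate 2 e2).flatten ++ invW iv s2)) = true ∧
    R2.contains (red iv (t2 ++ ((List.replicate 1 s2).flatten ++ (invW iv i2 ++ invW iv e2)))) = true := by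
  decide +kernel

/-- exact relators -/
def E : List (List ℕ) := [cmWd iv t0 s0, cmWd iv t2 s2]

theorem exact_E : ∀ w ∈ E, (w.map (qg 12 iv RL)).prod = 1 := by
  obtain ⟨h1, -, -, -, -, -, h6⟩ := rel_ok
  have hinv := (qg_good 12 iv RL).inv
  have hcen : ∀ w ∈ R2, ∀ y, wd (qg 12 iv RL) w * y = y * wd (qg 12 iv RL) w := qg_ce h1 h6
  obtain ⟨l0, l2, l3, l4⟩ := lem_ok
  have c0 := comm_words hinv hcen l0
  have c2 := comm_prod hinv hcen (comm_root hinv hcen l3) (comm_words hinv hcen l2) l4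
  intro w hw
  unfold E at hw
  simp only [List.mem_cons, List.not_mem_nil, or_false] at hw
  rcases hw with rfl | rfl
  · exact cm_eq_one hinv c0
  · exact cm_eq_one hinv c2

theorem bd : Bd (⊤ : Subgroup (QG 12 iv RL)) (898128000 * 3) := by
  have U := univ_qg 12 iv RL
  have g := good_ext U.good exact_E
  rw [← U.top]
  have h1 := (Bd.zero (qg 12 iv RL)).cl (M := 60) MMcLA.cert g (by decide +kernel) (by decide +kernel)
    (by norm_num) rfl
  have h2 := h1.cl (M := 7560) MMcLB.cert g (by decide +kernel) (by decide +kernel) (by norm_num) rfl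
  have h3 := h2.cl (M := 1330560) MMcLC.cert g (by decide +kernel) (by decide +kernel) (by norm_num) rfl
  exact h3.cl (M := 898128000 * 3) MMcLD.cert g (by decide +kernel) (by decide +kernel) (by norm_num) rfl

theorem words_ok : R1.all (fun q => q.2.all (isLet 12)) = true ∧ R2.all (fun w => w.all (isLet 12)) = true ∧
    R2.contains [7, 1, 8, 2] = true := by
  decide +kernel

theorem ord : 3 ∣ orderOf (((([[7, 1, 8, 2]] : List (List ℕ)).flatten).map (qg 12 iv RL)).prod) := by
  obtain ⟨h1, -, -, h4, -, -, -⟩ := rel_ok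
  obtain ⟨w1, w2, w3⟩ := words_ok
  rw [List.contains_iff_mem] at w3
  exact dvd_of_mono (m := 3) (zs := []) (by norm_num) mt_ok h1 h4 mono1 mono2 w1 w2 w3 mono3 (by norm_num)

theorem mult_S : HasCyclicSchurMultiplier S 3 := by
  obtain ⟨h, C⟩ := exists_cp
  obtain ⟨-, -, -, -, -, h5, h6⟩ := rel_ok
  obtain ⟨-, -, w3⟩ := words_ok
  rw [List.contains_iff_mem] at w3
  exact C.cyclic h5 h6 card_S (by norm_num) (by norm_num) bd (ws := [[7, 1, 8, 2]])
    (fun w hw => by rw [List.mem_singleton.1 hw]; exact w3) ord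

theorem mult : HasCyclicSchurMultiplier Spor.McL 3 :=
  SchurMult.hasSchurMultiplier_of_equiv H90.Co.isoMcL mult_S

end Cfsg.Agent.MLin.McL
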