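import Cfsg.Agent.MLin.McLMonoT

/-! Checks of relators (generated data, owner: helper7). -/

set_option autoImplicit false
set_option maxRecDepth 1000000

namespace Cfsg.Agent.MLin.McL

theorem sh0 : shB 3 17 99 225 tm ([1, 1, 3, 6, 3, 2, 4, 5, 4], 0) = true := by decide +kernel

theorem sh1 : shB 3 17 99 225 tm ([3, 3, 1, 6, 1, 4, 2, 5, 2], 0) = true := by decide +kernel

theorem sh2 : shB 3 17 99 225 tm ([5, 5, 1, 4, 1, 6, 2, 3, 2], 0) = true := by decide +kernel

theorem sh3 : shB 3 17 99 225 tm ([7, 7, 5, 7, 6, 8, 5, 8, 6, 7, 5, 8, 6], 0) = true := by decide +kernel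

theorem sh4 : shB 3 17 99 225 tm ([9, 4, 10, 4, 9, 4], 0) = true := by decide +kernel

theorem sh5 : shB 3 17 99 225 tm ([4, 11, 4, 12, 4, 11], 0) = true := by decide +kernel

theorem sh6 : shB 3 17 99 225 tm ([1, 1, 1], 0) = true := by decide +kernel

theorem sh7 : shB 3 17 99 225 tm ([5, 5, 5], 0) = true := by decide +kernel

theorem sh8 : shB 3 17 99 225 tm ([7, 7, 7], 0) = true := by decide +kernel

end Cfsg.Agent.MLin.McL
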