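import Cfsg.Agent.MLin.ExactW

/-!
Monomial permutation representations of covering groups (owner: helper7).

`n` points with phases in `ZMod m`; the table `tb x` of a letter has entries `m * σ i + phase i` of `v` bits.
-/
set_option autoImplicit false

namespace Cfsg.Agent.MLin

open Cfsg.Agent.CosetEnum Cfsg.Agent.PermTab Cfsg.Agent.MulX Subgroup

/-- entry of a table by rows of `b` entries -/
noncomputable def mget (v b T i : ℕ) : ℕ :=
  fc (Nat.div i b) fun r => tget v (tget (Nat.mul v b) T r) (Nat.mod i b)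

theorem mget_eq {v b : ℕ} (hb : 0 < b) (T i : ℕ) : mget v b T i = tget v T i := by
  unfold mget
  rw [fc_eq, tget_eq, tget_eq, tget_eq]
  show T / 2 ^ (v * b * (i / b)) % 2 ^ (v * b) / 2 ^ (v * (i % b)) % 2 ^ v = T / 2 ^ (v * i) % 2 ^ v
  have h1 : v * i = v * b * (i / b) + v * (i % b) := by
    rw [mul_assoc, ← mul_add, Nat.div_add_mod]
  have h2 : i % b < b := Nat.mod_lt _ hb
  have h3 : v * (i % b) + v ≤ v * b := by
    calc v * (i % b) + v = v * (i % b + 1) := by ring
      _ ≤ v * b := Nat.mul_le_mul_left _ h2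
  rw [h1, pow_add, ← Nat.div_div_eq_div_mul]
  generalize T / 2 ^ (v * b * (i / b)) = X
  apply Nat.eq_of_testBit_eq
  intro j
  rw [Nat.testBit_mod_two_pow, Nat.testBit_mod_two_pow, ← Nat.shiftRight_eq_div_pow, ← Nat.shiftRight_eq_div_pow,
    Nat.testBit_shiftRight, Nat.testBit_shiftRight, Nat.testBit_mod_two_pow]
  by_cases hj : j < v
  · have h4 : v * (i % b) + j < v * b := by omega
    simp [hj, h4]
  · simp [hj]

/-- action of a table on the state `m * i + c` -/
noncomputable def mact (m v b T s : ℕ) : ℕ :=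
  fc (mget v b T (Nat.div s m)) fun e => Nat.add (Nat.mul m (Nat.div e m)) (Nat.mod (Nat.add e s) m)

/-- action of a word -/
noncomputable def mwd (m v b : ℕ) (tb : ℕ → ℕ) (u : List ℕ) (s : ℕ) : ℕ :=
  @List.rec ℕ (fun _ => ℕ) s (fun x _ ih => fc ih fun t => mact m v b (tb x) t) u

theorem mwd_nil (m v b : ℕ) (tb : ℕ → ℕ) (s : ℕ) : mwd m v b tb [] s = s := rfl

theorem mwd_cons (m v b : ℕ) (tb : ℕ → ℕ) (x : ℕ) (u : List ℕ) (s : ℕ) :
    mwd m v b tb (x :: u) s = mact m v b (tb x) (mwd m v b tb u s) := by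
  have h : mwd m v b tb (x :: u) s = fc (mwd m v b tb u s) (fun t => mact m v b (tb x) t) := rfl
  rw [h, fc_eq]

/-- two nested loops -/
noncomputable def nall2 (a b : ℕ) (f : ℕ → Bool) : Bool := nall (fun i => nall (fun j => fc (Nat.add (Nat.mul i b) j) f) b) a

theorem nall2_spec {a b : ℕ} {f : ℕ → Bool} (h : nall2 a b f = true) (i : ℕ) (hi : i < a * b) : f i = true := by
  have hb : 0 < b := by
    rcases Nat.eq_zero_or_pos b with h0 | h0
    · rw [h0] at hi; omega
    · exact h0
  have h1 := (nall_iff _ _).1 ((nall_iff _ _).1 h (i / b) (Nat.div_lt_of_lt_mul (by rwa [mul_comm] at hi))) (i % b)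
    (Nat.mod_lt _ hb)
  rw [fc_eq] at h1
  have h2 : Nat.add (Nat.mul (i / b) b) (i % b) = i := by
    show i / b * b + i % b = i
    rw [mul_comm]; exact Nat.div_add_mod i b
  rwa [h2] at h1

/-- the word acts as the shift by `z` -/
noncomputable def shB (m v a b : ℕ) (tb : ℕ → ℕ) (p : List ℕ × ℕ) : Bool :=
  nall2 a b (fun i => Nat.beq (mwd m v b tb p.1 (Nat.mul m i)) (Nat.add (Nat.mul m i) p.2))

/-- tables of the letters: bounds and inverses -/
noncomputable def mtB (m v a b ng : ℕ) (iv : List (ℕ × ℕ)) (tb : ℕ → ℕ) : Bool :=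
  nall (fun x => nall2 a b (fun i => Bool.and (Nat.blt (mget v b (tb (Nat.succ x)) i) (Nat.mul m (Nat.mul a b)))
    (Nat.beq (mwd m v b tb [ivL iv (Nat.succ x), Nat.succ x] (Nat.mul m i)) (Nat.mul m i)))) ng

section

variable {m v n : ℕ} [NeZero m]

theorem mact_eq {b : ℕ} (hb : 0 < b) {T i c : ℕ} (hc : c < m) : mact m v b T (m * i + c) = m * (tget v T i / m) + (tget v T i + c) % m := by
  have hm : 0 < m := Nat.pos_of_ne_zero (NeZero.ne m)
  unfold mact
  rw [fc_eq, mget_eq hb]
  have h1 : Nat.div (m * i + c) m = i := by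
    show (m * i + c) / m = i
    rw [Nat.mul_add_div hm, Nat.div_eq_of_lt hc, add_zero]
  rw [h1]
  show m * (tget v T i / m) + (tget v T i + (m * i + c)) % m = _
  congr 1
  rw [show tget v T i + (m * i + c) = (tget v T i + c) + m * i by ring, Nat.add_mul_mod_self_left]

/-- the permutation of points and phases -/
def mfun (v : ℕ) (T : ℕ) (hT : ∀ i < n, tget v T i < m * n) (p : Fin n × ZMod m) : Fin n × ZMod m :=
  (⟨tget v T p.1 / m, Nat.div_lt_of_lt_mul (hT _ p.1.2)⟩, p.2 + (tget v T p.1 : ZMod m))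

/-- code of a state -/
def enc (p : Fin n × ZMod m) : ℕ := m * p.1 + p.2.val

theorem enc_lt (p : Fin n × ZMod m) : p.2.val < m := ZMod.val_lt _

theorem enc_inj {p q : Fin n × ZMod m} (h : enc p = enc q) : p = q := by
  have hm : 0 < m := Nat.pos_of_ne_zero (NeZero.ne m)
  have h1 : (p.1 : ℕ) = q.1 := by
    have e1 : enc p / m = p.1 := by unfold enc; rw [Nat.mul_add_div hm, Nat.div_eq_of_lt (enc_lt p), add_zero]
    have e2 : enc q / m = q.1 := by unfold enc; rw [Nat.mul_add_div hm, Nat.div_eq_of_lt (enc_lt q), add_zero]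
    rw [← e1, ← e2, h]
  have h2 : p.2.val = q.2.val := by
    unfold enc at h
    rw [h1] at h
    omega
  exact Prod.ext (Fin.ext h1) (ZMod.val_injective m h2)

theorem mact_enc {b : ℕ} (hb : 0 < b) {T : ℕ} (hT : ∀ i < n, tget v T i < m * n) (p : Fin n × ZMod m) :
    mact m v b T (enc p) = enc (mfun v T hT p) := by
  unfold enc
  rw [mact_eq hb (enc_lt p)]
  show _ = m * (tget v T p.1 / m) + (p.2 + (tget v T p.1 : ZMod m)).val
  congr 1
  rw [ZMod.val_add, ZMod.val_natCast, Nat.add_mod_mod, add_comm]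

/-- shift of the phases -/
def shift (n : ℕ) (z : ZMod m) : Equiv.Perm (Fin n × ZMod m) where
  toFun p := (p.1, p.2 + z)
  invFun p := (p.1, p.2 - z)
  left_inv p := by simp
  right_inv p := by simp

theorem mfun_shift {T : ℕ} (hT : ∀ i < n, tget v T i < m * n) (z : ZMod m) (p : Fin n × ZMod m) :
    mfun v T hT (shift n z p) = shift n z (mfun v T hT p) := by
  apply Prod.ext
  · rfl
  · show p.2 + z + (tget v T p.1 : ZMod m) = p.2 + (tget v T p.1 : ZMod m) + z
    ring

variable {a b ng : ℕ} {iv : List (ℕ × ℕ)} {tb : ℕ → ℕ}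

/-- **Monomial representations.** -/
theorem exists_mono (hb0 : 0 < b) (hn : a * b = n) (h : mtB m v a b ng iv tb = true) (hlet : letB ng iv = true) :
    ∃ P : ℕ → Equiv.Perm (Fin n × ZMod m), (∀ x, P (ivL iv x) = (P x)⁻¹) ∧ (∀ x, isLet ng x = false → P x = 1) ∧
      (∀ x z, P x * shift n z = shift n z * P x) ∧
      ∀ u : List ℕ, u.all (isLet ng) = true → ∀ p, mwd m v b tb u (enc p) = enc ((u.map P).prod p) := by
  subst hn
  have hT : ∀ x, isLet ng x = true → ∀ i < a * b, tget v (tb x) i < m * (a * b) ∧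
      mwd m v b tb [ivL iv x, x] (m * i) = m * i := by
    intro x hx i hi
    obtain ⟨h1, h2⟩ := isLet_iff.1 hx
    have h3 := nall2_spec ((nall_iff _ _).1 h (x - 1) (by omega)) i hi
    rw [show Nat.succ (x - 1) = x by omega, Bool.and_eq_true, mget_eq hb0] at h3
    exact ⟨Nat.lt_of_succ_le (Nat.le_of_ble_eq_true h3.1), Nat.eq_of_beq_eq_true h3.2⟩
  have hb : ∀ x, isLet ng x = true → ∀ i < a * b, tget v (tb x) i < m * (a * b) := fun x hx i hi => (hT x hx i hi).1
  have hl : ∀ x, isLet ng x = true → isLet ng (ivL iv x) = true := fun x hx => (letB_let hlet hx).1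
  have key : ∀ x (hx : isLet ng x = true) (p : Fin (a * b) × ZMod m),
      mfun v (tb (ivL iv x)) (hb _ (hl x hx)) (mfun v (tb x) (hb x hx) p) = p := by
    intro x hx p
    have h0 : ∀ i : Fin (a * b), mfun v (tb (ivL iv x)) (hb _ (hl x hx)) (mfun v (tb x) (hb x hx) (i, 0)) = (i, 0) := by
      intro i
      apply enc_inj
      rw [← mact_enc hb0, ← mact_enc hb0]
      have h1 := (hT x hx i i.2).2
      rw [mwd_cons, mwd_cons, mwd_nil] at h1
      have h2 : enc ((i, 0) : Fin (a * b) × ZMod m) = m * i := by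
        unfold enc
        simp
      rw [h2]
      exact h1
    have h1 : p = shift (a * b) p.2 (p.1, 0) := by
      apply Prod.ext
      · rfl
      · show p.2 = 0 + p.2
        rw [zero_add]
    rw [h1, mfun_shift, mfun_shift, h0]
  let P : ℕ → Equiv.Perm (Fin (a * b) × ZMod m) := fun x =>
    if hx : isLet ng x = true then
      { toFun := mfun v (tb x) (hb x hx)
        invFun := mfun v (tb (ivL iv x)) (hb _ (hl x hx))
        left_inv := key x hx
        right_inv := by
          have h1 := key (ivL iv x) (hl x hx)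
          have h2 : ivL iv (ivL iv x) = x := letB_iv hlet x
          intro p
          have h3 := h1 p
          simp only [h2] at h3
          exact h3 }
    else 1
  have hP : ∀ x (hx : isLet ng x = true) p, P x p = mfun v (tb x) (hb x hx) p := by
    intro x hx p
    show (if hx : isLet ng x = true then _ else _ : Equiv.Perm (Fin (a * b) × ZMod m)) p = _
    rw [dif_pos hx]
    rfl
  have hP1 : ∀ x, isLet ng x = false → P x = 1 := by
    intro x hx
    show (if hx : isLet ng x = true then _ else _ : Equiv.Perm (Fin (a * b) × ZMod m)) = _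
    rw [dif_neg (by rw [hx]; decide)]
  refine ⟨P, ?_, hP1, ?_, ?_⟩
  · intro x
    by_cases hx : isLet ng x = true
    · rw [eq_inv_iff_mul_eq_one]
      ext1 p
      rw [Equiv.Perm.mul_apply, hP x hx, hP _ (hl x hx), key x hx]
      rfl
    · rw [Bool.not_eq_true] at hx
      rw [hP1 _ (letB_out hlet hx), hP1 x hx, inv_one]
  · intro x z
    by_cases hx : isLet ng x = true
    · ext1 p
      rw [Equiv.Perm.mul_apply, Equiv.Perm.mul_apply, hP x hx, hP x hx, mfun_shift]
    · rw [Bool.not_eq_true] at hx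
      rw [hP1 x hx, one_mul, mul_one]
  · intro u hu p
    induction u with
    | nil => rfl
    | cons x u ih =>
      rw [List.all_cons, Bool.and_eq_true] at hu
      rw [mwd_cons, ih hu.2, List.map_cons, List.prod_cons, Equiv.Perm.mul_apply, hP x hu.1, mact_enc hb0]

/-- words acting as shifts -/
theorem shift_of (hn : a * b = n) {P : ℕ → Equiv.Perm (Fin n × ZMod m)}
    (hs : ∀ x z, P x * shift n z = shift n z * P x)
    (hw : ∀ u : List ℕ, u.all (isLet ng) = true → ∀ p, mwd m v b tb u (enc p) = enc ((u.map P).prod p))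
    {q : List ℕ × ℕ} (hq : q.1.all (isLet ng) = true) (hz : q.2 < m) (h : shB m v a b tb q = true) :
    (q.1.map P).prod = shift n (q.2 : ZMod m) := by
  subst hn
  have hc : ∀ (u : List ℕ) (z : ZMod m), (u.map P).prod * shift (a * b) z = shift (a * b) z * (u.map P).prod := by
    intro u z
    induction u with
    | nil => simp
    | cons x u ih => rw [List.map_cons, List.prod_cons, mul_assoc, ih, ← mul_assoc, hs, mul_assoc]
  have h0 : ∀ i : Fin (a * b), (q.1.map P).prod (i, 0) = (i, (q.2 : ZMod m)) := by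
    intro i
    apply enc_inj
    rw [← hw _ hq]
    have h1 := nall2_spec h i i.2
    have h2 : mwd m v b tb q.1 (m * i) = m * i + q.2 := Nat.eq_of_beq_eq_true h1
    have h3 : enc ((i, 0) : Fin (a * b) × ZMod m) = m * i := by
      unfold enc
      simp
    have h4 : enc ((i, (q.2 : ZMod m)) : Fin (a * b) × ZMod m) = m * i + q.2 := by
      unfold enc
      simp only [ZMod.val_natCast, Nat.mod_eq_of_lt hz]
    rw [h3, h2, h4]
  ext1 p
  have h1 : p = shift (a * b) p.2 (p.1, 0) := by
    apply Prod.ext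
    · rfl
    · show p.2 = 0 + p.2
      rw [zero_add]
  conv_lhs => rw [h1]
  rw [← Equiv.Perm.mul_apply, hc, Equiv.Perm.mul_apply, h0]
  apply Prod.ext
  · rfl
  · show (q.2 : ZMod m) + p.2 = p.2 + (q.2 : ZMod m)
    ring

/-- the phases are faithful -/
theorem shift_pow (z : ZMod m) (k : ℕ) : (shift n z) ^ k = shift n ((k : ZMod m) * z) := by
  induction k with
  | zero =>
    ext1 p
    apply Prod.ext
    · rfl
    · show p.2 = p.2 + ((0 : ℕ) : ZMod m) * z
      simp
  | succ k ih =>
    rw [pow_succ, ih]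
    ext1 p
    apply Prod.ext
    · rfl
    · show p.2 + z + (k : ZMod m) * z = p.2 + ((k + 1 : ℕ) : ZMod m) * z
      push_cast
      ring

theorem shift_eq_one (hn : 0 < n) {z : ZMod m} (h : shift n z = 1) : z = 0 := by
  have h1 := congrArg (fun σ : Equiv.Perm (Fin n × ZMod m) => (σ (⟨0, hn⟩, 0)).2) h
  have h2 : (0 : ZMod m) + z = 0 := h1
  rwa [zero_add] at h2

end

/-- **Lower bound**: the central word `w` of the covering group has order divisible by `m`. -/
theorem dvd_of_mono {m v a b ng : ℕ} [NeZero m] {iv : List (ℕ × ℕ)} {tb : ℕ → ℕ} {R1 : List (ℕ × List ℕ)}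
    {R2 : List (List ℕ)} {RL : List (List ℕ × ℕ)} {zs : List ℕ}
    (hpos : 0 < a * b) (h : mtB m v a b ng iv tb = true) (hlet : letB ng iv = true) (hrel : relB iv ng R1 R2 RL = true)
    (h1 : ∀ q ∈ R1, shB m v a b tb (q.2, 0) = true) (h2 : ∀ w ∈ R2, ∃ z < m, shB m v a b tb (w, z) = true)
    (hl1 : R1.all (fun q => q.2.all (isLet ng)) = true) (hl2 : R2.all (fun w => w.all (isLet ng)) = true)
    {w : List ℕ} (hw : w ∈ R2) (hw1 : shB m v a b tb (w, 1) = true) (hm : 1 < m) :
    m ∣ orderOf ((w.map (qg ng iv RL)).prod) := by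
  obtain ⟨P, p1, p2, p3, p4⟩ := exists_mono (m := m) (Nat.pos_of_mul_pos_left hpos) rfl h hlet
  rw [List.all_eq_true] at hl1 hl2
  have hg : Good P ng iv RL := by
    refine good_of p1 p2 ?_ ?_ hrel
    · intro q hq
      have := shift_of rfl p3 p4 (q := (q.2, 0)) (hl1 q hq) (by show 0 < m; omega) (h1 q hq)
      rw [this]
      ext1 p
      apply Prod.ext
      · rfl
      · show p.2 + ((0 : ℕ) : ZMod m) = p.2
        simp
    · intro u hu x
      obtain ⟨z, hz, hz'⟩ := h2 u hu
      have := shift_of rfl p3 p4 (q := (u, z)) (hl2 u hu) hz hz'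
      rw [this]
      exact (p3 x _).symm
  obtain ⟨φ, hφ⟩ := qg_univ hg
  have h3 : φ ((w.map (qg ng iv RL)).prod) = shift (a * b) ((1 : ℕ) : ZMod m) := by
    rw [map_list_prod, List.map_map]
    have e : (φ ∘ qg ng iv RL) = P := funext hφ
    rw [e]
    exact shift_of rfl p3 p4 (q := (w, 1)) (hl2 w hw) hm hw1
  have h4 := congrArg φ (pow_orderOf_eq_one ((w.map (qg ng iv RL)).prod))
  rw [map_pow, h3, map_one, shift_pow] at h4
  have h5 := shift_eq_one hpos h4
  rw [Nat.cast_one, mul_one] at h5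
  exact (ZMod.natCast_eq_zero_iff _ _).1 h5

end Cfsg.Agent.MLin
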