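import Cfsg.Agent.MLin.Main

/-! Inverse matrices (generated data, owner: helper7). -/

set_option autoImplicit false

namespace Cfsg.Agent.MLin.O7

/-- matrices -/
def Mi : ℕ → ℕ
  | 0 => 0x2041214810061884620012861
  | 1 => 0x2041aa4010042066a06590920
  | 2 => 0x2041100164442055545520504
  | 3 => 0x2041566a0650898010464a080
  | 4 => 0x1455a048555421a4220012865
  | 5 => 0x20002001509a61a9265815608
  | 6 => 0x200004802000200a002860002
  | _ => 0

/-- matrices -/
def Kt : ℕ → ℕ
  | 0 => 0x10024800001400
  | 1 => 0x400200058016800000910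
  | 2 => 0x800200068000009500508
  | 3 => 0x200040011008800264
  | 4 => 0x800000010024001000064
  | 5 => 0xa402908
  | 6 => 0xa000000000
  | _ => 0

end Cfsg.Agent.MLin.O7
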