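import Cfsg.Agent.MLin.Vec
import Cfsg.Agent.MLin.Fields3
import Cfsg.Agent.MLin.O7Data
import Cfsg.Agent.MLin.O7Rel
import Cfsg.Agent.MLin.O7Orth
import Cfsg.Agent.CosetEnum.MO7.Certs
import Cfsg.Agent.MulX.Multi
import Cfsg.Agent.S0292

/-!
The Schur multiplier of `Ω₇(3)` (owner: helper7).
-/
set_option autoImplicit false
set_option maxRecDepth 1000000

namespace Cfsg.Agent.MLin.O7

open Cfsg.Agent.CosetEnum Cfsg.Agent.PermTab Cfsg.Agent.MulX Cfsg.Agent.MLin Matrix Cfsg Subgroup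

/-- index type -/
abbrev J : Type := Unit ⊕ (Fin 3 ⊕ Fin 3)

/-- numbering of the basis -/
def e : J ≃ Fin 7 :=
  (Equiv.sumCongr (Equiv.ofUnique Unit (Fin 1)) (finSumFinEquiv (m := 3) (n := 3))).trans (finSumFinEquiv (m := 1) (n := 6))

/-- decoding over the prime field -/
abbrev dec0 : ℕ → ZMod 3 := fun a => ((a : ℕ) : ZMod 3)

/-- matrix of the quadratic form -/
def U0 (K : Type*) [Field K] : Matrix J J K := Matrix.fromBlocks 1 0 0 (Matrix.fromBlocks 0 1 0 0)

theorem orth0 : ∀ i < 7, (mc 2 dec0 e (Mt i))ᵀ * U0 (ZMod 3) * (mc 2 dec0 e (Mt i)) =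
    U0 (ZMod 3) + (mc 2 dec0 e (Kt i) - (mc 2 dec0 e (Kt i))ᵀ) := by
  decide +kernel

theorem inv_ok : ∀ i < 7, mulB 2 At Ml 7 (Mt i) (Mi i) Id = true ∧ mulB 2 At Ml 7 (Mi i) (Mt i) Id = true := by
  decide +kernel

theorem id_ok : idB 2 7 Id = true := by decide +kernel

theorem qf_eq {K : Type*} [Field K] (v : J → K) : quadFormOdd 3 K v = v ⬝ᵥ (U0 K *ᵥ v) := by
  unfold quadFormOdd U0
  rw [Matrix.fromBlocks_mulVec, Matrix.fromBlocks_mulVec]
  simp [dotProduct, Fintype.sum_sum_type, sq]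

theorem rel_ok : letB 14 MO7D.iv = true ∧ pairB 7 MO7D.iv = true ∧ triB 14 MO7D.iv R1 = true ∧
    relB MO7D.iv 14 R1 R2 MO7D.RL = true ∧
    (List.range (14 + 1)).all (fun x => !isLet 14 x || (R1.any fun q => q.1 == x || ivL MO7D.iv q.1 == x)) = true ∧
    exB MO7D.iv R1 MO7D.RL = true ∧ ceB MO7D.iv 14 R2 MO7D.RL = true := by
  decide +kernel

theorem fr_words : frB 9 (tfm gt gi idt 7) fr (R1.map Prod.snd) = true ∧ frB 9 (tfm gt gi idt 7) fr R2 = true := by
  decide +kernel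

theorem vec_words : wvB 2 At Ml 7 7 (mfm Mt Mi) (R1.map Prod.snd) 1 = true := by
  decide +kernel

section

variable {F : Type*} [Field F] [Fintype F] (f : ZMod 3 ≃+* F) (C : Cod 2 At Ml 3 (fun a => f (dec0 a)))

/-- elements of the isometry group -/
noncomputable def hI (i : ℕ) : isometryGroup F (quadFormOdd 3 F) :=
  if hi : i < 7 then ⟨mkGL C e (inv_ok i hi).1 (inv_ok i hi).2 id_ok, by
    intro u _
    show quadFormOdd 3 F ((mc 2 (fun a => f (dec0 a)) e (Mt i)) *ᵥ u) = quadFormOdd 3 F u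
    refine qf_of_mat (U := U0 F) qf_eq (K := (mc 2 dec0 e (Kt i)).map f) ?_ u
    have h1 := congrArg (fun M : Matrix J J (ZMod 3) => M.map f) (orth0 i hi)
    have hU : (U0 (ZMod 3)).map f = U0 F := by
      unfold U0
      rw [Matrix.fromBlocks_map, Matrix.fromBlocks_map]
      congr 1
      · ext a b; simp
      · ext a b; simp
      · ext a b; simp
      · congr 1
        · ext a b; simp
        · ext a b; simp [Matrix.one_apply]
        · ext a b; simp
        · ext a b; simp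
    have hf : ∀ M : Matrix J J (ZMod 3), M.map f = f.toRingHom.mapMatrix M := fun _ => rfl
    have hM : (mc 2 (fun a => f (dec0 a)) e (Mt i)) = (mc 2 dec0 e (Mt i)).map f := rfl
    rw [hM]
    rw [← hU]
    simp only [hf, map_mul, map_add, map_sub] at h1 ⊢
    exact h1⟩
  else 1

theorem isM_h (i : ℕ) (hi : i < 7) : isM (quadFormOdd 3 F) (hI f C i) = mc 2 (fun a => f (dec0 a)) e (Mt i) := by
  unfold hI
  rw [dif_pos hi]
  rfl

theorem h_mem (i : ℕ) (hi : i < 7) : hI f C i ∈ Omega F (quadFormOdd 3 F) := by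
  obtain ⟨h1, h2, h3, h4, h5, -, -⟩ := rel_ok
  obtain ⟨h6, h7⟩ := fr_words
  obtain ⟨f1, f2, f3⟩ := fr_ok
  have key := mem_commutator_of_tri (g := fam (hI f C) 7) h3 h5 h1 (fam_inv _ h1 h2)
    (fun q hq => exact_words_vec C (by norm_num) e (isM_inj _) (isM_h f C) (by norm_num) hid gens_ok act_ok frame_ok f3 f1 f2 h6
      (fun i hi => (inv_ok i hi).2) id_ok vec_words (j := 0) (by norm_num) (by decide +kernel)
      q.2 (List.mem_map.2 ⟨q, hq, rfl⟩)) (fun y hy => fam_one _ hy) (2 * i + 1)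
  have h8 : fam (hI f C) 7 (2 * i + 1) = hI f C i := by
    unfold fam
    rw [if_pos (isLet_iff.2 ⟨by omega, by omega⟩), if_pos (by omega)]
    congr 1
    omega
  rw [h8] at key
  exact key

/-- generators -/
noncomputable def h (i : ℕ) : Omega F (quadFormOdd 3 F) :=
  if hi : i < 7 then ⟨hI f C i, h_mem f C i hi⟩ else 1

theorem card (hF : Fintype.card F = 3) : Nat.card (POmega F (quadFormOdd 3 F)) = 4585351680 := by
  have h := Cfsg.Agent.S0292.result (F := F) hF (by decide) 3 (by norm_num)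
  have e2 : 3 ^ (3 ^ 2) * ∏ i ∈ Finset.range 3, (3 ^ (2 * (i + 1)) - 1) = 2 * 4585351680 := by decide
  rw [e2] at h
  exact Nat.eq_of_mul_eq_mul_left (by norm_num) h

theorem cp (hF : Fintype.card F = 3) :
    CP (fun x => (QuotientGroup.mk' (center (Omega F (quadFormOdd 3 F)))) (fam (h f C) 7 x)) 14 MO7D.iv R1 R2
      MO7D.RL := by
  obtain ⟨h1, h2, h3, h4, h5, -, -⟩ := rel_ok
  obtain ⟨h6, h7⟩ := fr_words
  obtain ⟨c1, c2⟩ := card_ok
  obtain ⟨f1, f2, f3⟩ := fr_ok
  have hfin : Finite (POmega F (quadFormOdd 3 F)) := Nat.finite_of_card_ne_zero (by rw [card hF]; norm_num)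
  refine cp_proj C (by norm_num) e (μ := omM (quadFormOdd 3 F)) (omM_inj _)
    (h := h f C) (Mt := Mt) ?_ (by norm_num) (by norm_num) hid gens_ok act_ok pts_ok frame_ok f3 f1 f2 mv_ok chain_ok c2
    h1 h2 h3 h4 h5 h6 h7 ?_
  · intro i hi
    unfold h
    rw [dif_pos hi]
    exact isM_h f C i hi
  · rw [c1]
    exact (card hF).le

theorem bd : Bd (⊤ : Subgroup (QG 14 MO7D.iv MO7D.RL)) (4585351680 * 6) := by
  have U := univ_qg 14 MO7D.iv MO7D.RL
  have g := U.good
  rw [← U.top]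
  have h1 := (Bd.zero (qg 14 MO7D.iv MO7D.RL)).cl (M := 120) MO7A.cert g (by decide +kernel) (by decide +kernel)
    (by norm_num) rfl
  have h2 := h1.cl (M := 40320) MO7B.cert g (by decide +kernel) (by decide +kernel) (by norm_num) rfl
  have h3 := h2.cl (M := 2903040) MO7C.cert g (by decide +kernel) (by decide +kernel) (by norm_num) rfl
  exact h3.cl (M := 4585351680 * 6) MO7D.cert g (by decide +kernel) (by decide +kernel) (by norm_num) rfl

/-- word of the generator of the kernel -/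
def cw : List ℕ :=
  [7, 13, 9, 11, 7, 13, 9, 11, 7, 13, 9, 11, 7, 13, 9, 11, 7, 13, 9, 11, 7, 13, 9, 11, 7, 13, 9, 11]

theorem ord : 6 ∣ orderOf ((([cw] : List (List ℕ)).flatten.map (qg 14 MO7D.iv MO7D.RL)).prod) := by
  have h2 : 2 ∣ orderOf ((cw.map (qg 14 MO7D.iv MO7D.RL)).prod) :=
    dvd_orderOf MO7T2.tabOK (c := cw) (by decide) (by norm_num) (i := 0) (by decide +kernel) (by decide +kernel)
  have h3 : 3 ∣ orderOf ((cw.map (qg 14 MO7D.iv MO7D.RL)).prod) :=
    dvd_orderOf MO7T3.tabOK (c := cw) (by decide) (by norm_num) (i := 0) (by decide +kernel) (by decide +kernel)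
  have h6 : 2 * 3 ∣ orderOf ((cw.map (qg 14 MO7D.iv MO7D.RL)).prod) :=
    Nat.Coprime.mul_dvd_of_dvd_of_dvd (by norm_num) h2 h3
  exact h6

theorem mult (hF : Fintype.card F = 3) : HasCyclicSchurMultiplier (POmega F (quadFormOdd 3 F)) 6 := by
  obtain ⟨-, -, -, -, -, h5, h6⟩ := rel_ok
  obtain ⟨f, C⟩ := exists_cod3 hF
  exact (cp f C hF).cyclic h5 h6 (card hF) (by norm_num) (by norm_num) bd (ws := [cw]) (by decide) ord

end

end Cfsg.Agent.MLin.O7
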