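import Cfsg.Agent.MLin.Main

/-! Inverse matrices (generated data, owner: helper7). -/

set_option autoImplicit false

namespace Cfsg.Agent.MLin.O8

/-- matrices -/
def Mi : ℕ → ℕ
  | 0 => 0x8006021008426601
  | 1 => 0x7dbdffedf5f920fc
  | 2 => 0x2940abb9a1042001
  | 3 => 0x8034761008702075
  | 4 => 0x3f049fafb7ffbdbe
  | 5 => 0x867073780042501
  | 6 => 0x81c2010dc58025d
  | _ => 0

/-- matrices -/
def Kt : ℕ → ℕ
  | 0 => 0x400000402000
  | 1 => 0xd0d02cd2
  | 2 => 0x80002882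
  | 3 => 0x502400
  | 4 => 0x804040b040b0b0
  | 5 => 0x80202020
  | 6 => 0x80008080500000
  | _ => 0

end Cfsg.Agent.MLin.O8
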