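import Cfsg.Agent.MLin.Orth
import Cfsg.Agent.MLin.O8Data
import Cfsg.Agent.MLin.O8Rel
import Cfsg.Agent.MLin.O8Orth
import Cfsg.Agent.CosetEnum.MO8.Certs
import Cfsg.Agent.MulX.Multi
import Cfsg.Agent.S0293

/-!
The Schur multiplier of `Ω₈⁺(2)` (owner: helper7).
-/
set_option autoImplicit false
set_option maxRecDepth 1000000

namespace Cfsg.Agent.MLin.O8

open Cfsg.Agent.CosetEnum Cfsg.Agent.PermTab Cfsg.Agent.MulX Cfsg.Agent.MLin Matrix Cfsg Subgroup

/-- numbering of the basis -/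
def e : (Fin 4 ⊕ Fin 4) ≃ Fin 8 := finSumFinEquiv

/-- decoding over the prime field -/
abbrev dec0 : ℕ → ZMod 2 := fun a => ((a : ℕ) : ZMod 2)

/-- matrix of the quadratic form -/
def U0 (K : Type*) [Field K] : Matrix (Fin 4 ⊕ Fin 4) (Fin 4 ⊕ Fin 4) K := Matrix.fromBlocks 0 1 0 0

/-- upper part -/
def upp (W : Matrix (Fin 4 ⊕ Fin 4) (Fin 4 ⊕ Fin 4) (ZMod 2)) : Matrix (Fin 4 ⊕ Fin 4) (Fin 4 ⊕ Fin 4) (ZMod 2) :=
  fun i j => if e i < e j then W i j else 0

theorem orth0 : ∀ i < 7, (mc 1 dec0 e (Mt i))ᵀ * U0 (ZMod 2) * (mc 1 dec0 e (Mt i)) =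
    U0 (ZMod 2) + (mc 1 dec0 e (Kt i) - (mc 1 dec0 e (Kt i))ᵀ) := by
  decide +kernel

theorem inv_ok : ∀ i < 7, mulB 1 At Ml 8 (Mt i) (Mi i) Id = true ∧ mulB 1 At Ml 8 (Mi i) (Mt i) Id = true := by
  decide +kernel

theorem id_ok : idB 1 8 Id = true := by decide +kernel

theorem qf_eq {K : Type*} [Field K] (v : Fin 4 ⊕ Fin 4 → K) : quadFormPlus 4 K v = v ⬝ᵥ (U0 K *ᵥ v) := by
  unfold quadFormPlus U0
  rw [Matrix.fromBlocks_mulVec]
  simp [dotProduct, Fintype.sum_sum_type]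

theorem rel_ok : letB 14 MO8D.iv = true ∧ pairB 7 MO8D.iv = true ∧ triB 14 MO8D.iv R1 = true ∧
    relB MO8D.iv 14 R1 R2 MO8D.RL = true ∧
    (List.range (14 + 1)).all (fun x => !isLet 14 x || (R1.any fun q => q.1 == x || ivL MO8D.iv q.1 == x)) = true ∧
    exB MO8D.iv R1 MO8D.RL = true ∧ ceB MO8D.iv 14 R2 MO8D.RL = true := by
  decide +kernel

theorem fr_words : frB 7 (tfm gt gi idt 7) fr (R1.map Prod.snd) = true ∧ frB 7 (tfm gt gi idt 7) fr R2 = true := by
  decide +kernel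

section

variable {F : Type*} [Field F] [Fintype F] (f : ZMod 2 ≃+* F) (C : Cod 1 6 8 2 (fun a => f (dec0 a)))

/-- elements of the isometry group -/
noncomputable def hI (i : ℕ) : isometryGroup F (quadFormPlus 4 F) :=
  if hi : i < 7 then ⟨mkGL C e (inv_ok i hi).1 (inv_ok i hi).2 id_ok, by
    intro u _
    show quadFormPlus 4 F ((mc 1 (fun a => f (dec0 a)) e (Mt i)) *ᵥ u) = quadFormPlus 4 F u
    refine qf_of_mat (U := U0 F) qf_eq (K := (mc 1 dec0 e (Kt i)).map f) ?_ u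
    have h1 := congrArg (fun M : Matrix (Fin 4 ⊕ Fin 4) (Fin 4 ⊕ Fin 4) (ZMod 2) => M.map f) (orth0 i hi)
    have hU : (U0 (ZMod 2)).map f = U0 F := by
      unfold U0
      rw [Matrix.fromBlocks_map]
      congr 1
      · ext a b; simp
      · ext a b; simp [Matrix.one_apply]
      · ext a b; simp
      · ext a b; simp
    have hf : ∀ M : Matrix (Fin 4 ⊕ Fin 4) (Fin 4 ⊕ Fin 4) (ZMod 2), M.map f = f.toRingHom.mapMatrix M := fun _ => rfl
    have hM : (mc 1 (fun a => f (dec0 a)) e (Mt i)) = (mc 1 dec0 e (Mt i)).map f := rfl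
    rw [hM]
    rw [← hU]
    simp only [hf, map_mul, map_add, map_sub] at h1 ⊢
    exact h1⟩
  else 1

theorem two (hF : Fintype.card F = 2) (c : F) (hc : c ≠ 0) : c = 1 := by
  have h := FiniteField.pow_card_sub_one_eq_one c hc
  rw [hF] at h
  simpa using h

theorem isM_h (i : ℕ) (hi : i < 7) : isM (quadFormPlus 4 F) (hI f C i) = mc 1 (fun a => f (dec0 a)) e (Mt i) := by
  unfold hI
  rw [dif_pos hi]
  rfl

theorem h_mem (hF : Fintype.card F = 2) (i : ℕ) (hi : i < 7) : hI f C i ∈ Omega F (quadFormPlus 4 F) := by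
  obtain ⟨h1, h2, h3, h4, h5, -, -⟩ := rel_ok
  obtain ⟨h6, h7⟩ := fr_words
  obtain ⟨f1, f2, f3⟩ := fr_ok
  have key := mem_commutator_of_tri (g := fam (hI f C) 7) h3 h5 h1 (fam_inv _ h1 h2)
    (fun q hq => exact_words C (by norm_num) e (isM_inj _) (isM_h f C) (by norm_num) hid gens_ok act_ok frame_ok f3 f1 f2 h6
      (fun a _ hc _ => by
        obtain ⟨c, hc⟩ := hc
        apply isM_inj
        rw [map_one, hc]
        by_cases h0 : c = 0
        · exfalso
          rw [h0, zero_smul] at hc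
          have h8 : isM (quadFormPlus 4 F) a * isM (quadFormPlus 4 F) a⁻¹ = 1 := by rw [← map_mul, mul_inv_cancel, map_one]
          rw [hc, zero_mul] at h8
          exact zero_ne_one h8
        · rw [two hF c h0, one_smul]) q.2 (List.mem_map.2 ⟨q, hq, rfl⟩)) (fun y hy => fam_one _ hy) (2 * i + 1)
  have h8 : fam (hI f C) 7 (2 * i + 1) = hI f C i := by
    unfold fam
    rw [if_pos (isLet_iff.2 ⟨by omega, by omega⟩), if_pos (by omega)]
    congr 1
    omega
  rw [h8] at key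
  exact key

/-- generators -/
noncomputable def h (hF : Fintype.card F = 2) (i : ℕ) : Omega F (quadFormPlus 4 F) :=
  if hi : i < 7 then ⟨hI f C i, h_mem f C hF i hi⟩ else 1

theorem card (hF : Fintype.card F = 2) : Nat.card (POmega F (quadFormPlus 4 F)) = 174182400 := by
  have h := Cfsg.Agent.S0293.result (F := F) hF 4 (by norm_num)
  have e1 : Nat.gcd 4 (2 ^ 4 - 1) = 1 := by decide
  have e2 : 2 ^ (4 * (4 - 1)) * (2 ^ 4 - 1) * ∏ i ∈ Finset.range (4 - 1), (2 ^ (2 * (i + 1)) - 1) = 174182400 := by decide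
  rw [e1, one_mul] at h
  exact h.trans e2

theorem cp (hF : Fintype.card F = 2) :
    CP (fun x => (QuotientGroup.mk' (center (Omega F (quadFormPlus 4 F)))) (fam (h f C hF) 7 x)) 14 MO8D.iv R1 R2
      MO8D.RL := by
  obtain ⟨h1, h2, h3, h4, h5, -, -⟩ := rel_ok
  obtain ⟨h6, h7⟩ := fr_words
  obtain ⟨c1, c2⟩ := card_ok
  obtain ⟨f1, f2, f3⟩ := fr_ok
  have hfin : Finite (POmega F (quadFormPlus 4 F)) := Nat.finite_of_card_ne_zero (by rw [card hF]; norm_num)
  refine cp_proj C (by norm_num) e (μ := omM (quadFormPlus 4 F)) (omM_inj _)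
    (h := h f C hF) (Mt := Mt) ?_ (by norm_num) (by norm_num) hid gens_ok act_ok pts_ok frame_ok f3 f1 f2 mv_ok chain_ok c2
    h1 h2 h3 h4 h5 h6 h7 ?_
  · intro i hi
    unfold h
    rw [dif_pos hi]
    exact isM_h f C i hi
  · rw [c1]
    exact (card hF).le

theorem bd : Bd (⊤ : Subgroup (QG 14 MO8D.iv MO8D.RL)) (174182400 * ∏ i : Fin 2, (![2, 2] : Fin 2 → ℕ) i) := by
  have e : 174182400 * ∏ i : Fin 2, (![2, 2] : Fin 2 → ℕ) i = 696729600 := by decide
  rw [e]
  have U := univ_qg 14 MO8D.iv MO8D.RL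
  have g := U.good
  rw [← U.top]
  have h1 := (Bd.zero (qg 14 MO8D.iv MO8D.RL)).cl (M := 120) MO8A.cert g (by decide +kernel) (by decide +kernel)
    (by norm_num) rfl
  have h2 := h1.cl (M := 40320) MO8B.cert g (by decide +kernel) (by decide +kernel) (by norm_num) rfl
  have h3 := h2.cl (M := 2903040) MO8C.cert g (by decide +kernel) (by decide +kernel) (by norm_num) rfl
  exact h3.cl (M := 696729600) MO8D.cert g (by decide +kernel) (by decide +kernel) (by norm_num) rfl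

/-- words of the generators of the kernel -/
def cws : Fin 2 → List (List ℕ) := ![[[1, 3, 1, 3]], [[13, 10, 11, 13, 10, 11, 13, 10, 11, 13, 10, 11, 13, 10, 11]]]

/-- reordering the factors -/
def prodE : (∀ i : Fin 2, ZMod ((![2, 2] : Fin 2 → ℕ) i)) ≃+ ZMod 2 × ZMod 2 where
  toFun f := (f 0, f 1)
  invFun p := Fin.cons p.1 (Fin.cons p.2 finZeroElim)
  left_inv f := by
    funext i
    fin_cases i <;> rfl
  right_inv p := rfl
  map_add' f g := rfl

theorem mult (hF : Fintype.card F = 2) : HasSchurMultiplier (POmega F (quadFormPlus 4 F)) (Multiplicative (ZMod 2 × ZMod 2)) := by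
  obtain ⟨-, -, -, -, -, h5, h6⟩ := rel_ok
  obtain ⟨f, C⟩ := exists_cod2 hF
  obtain ⟨S1, a1, b1⟩ := exists_stab MO8T1.tabOK (i := 0) (by decide +kernel)
  obtain ⟨S2, a2, b2⟩ := exists_stab MO8T2.tabOK (i := 0) (by decide +kernel)
  obtain ⟨σ, g1, -, g3, -, ⟨g5⟩⟩ := (cp f C hF).multi h5 h6 (card hF) (by norm_num) (by decide) bd (ws := cws) (by decide)
    (S := ![S1, S2]) (by
      intro i j hij
      fin_cases i <;> fin_cases j <;> first | exact absurd rfl hij | skip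
      · exact a1 _ (by decide +kernel) (by decide +kernel)
      · exact a2 _ (by decide +kernel) (by decide +kernel)) (by
      intro i
      fin_cases i
      · exact b1 _ 2 (by decide +kernel) (by norm_num) (by decide +kernel)
      · exact b2 _ 2 (by decide +kernel) (by norm_num) (by decide +kernel))
  exact hasSchur_of_cover (cp f C hF) (card hF) (by norm_num) bd g1 g3 ⟨g5.trans (AddEquiv.toMultiplicative prodE)⟩

end

end Cfsg.Agent.MLin.O8
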