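import Cfsg.Agent.MLin.LatG
import Cfsg.Agent.Leech.Rank

/-!
Breadth first search certificates for orbits of monomial groups on the lattice (owner: helper7).
-/
set_option autoImplicit false

namespace Cfsg.Agent.MLin.Lat

open Cfsg Cfsg.Agent Cfsg.Agent.Leech Cfsg.Agent.PermTab Cfsg.Agent.CosetEnum Cfsg.Agent.MulX Cfsg.Agent.MLin MulAction

theorem permElt_mem {σ : Equiv.Perm GolayPt} (hσ : σ ∈ M24) : permElt σ hσ ∈ crossStab := by
  have h := mono_mem_crossStab 0 golayCode.zero_mem σ hσ
  have e : flipElt 0 golayCode.zero_mem * permElt σ hσ = permElt σ hσ := by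
    apply co0_ext
    intro x
    apply Subtype.ext
    funext j
    rw [mono_smul, lift_zero, permElt_apply]
    ring
  rwa [e] at h

theorem flipElt_mem {c : GolayPt → ZMod 2} (hc : c ∈ golayCode) : flipElt c hc ∈ crossStab := by
  have h := mono_mem_crossStab c hc 1 (one_mem _)
  have e : flipElt c hc * permElt 1 (one_mem _) = flipElt c hc := by
    apply co0_ext
    intro x
    apply Subtype.ext
    funext j
    rw [mono_smul, flipElt_apply]
    rfl
  rwa [e] at h

/-- monomial steps -/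
theorem exists_mono_step {k t : ℕ} (hk : k < 2) (h : okB k t = true) : ∃ g ∈ crossStab, IsSt k t g := by
  unfold okB at h
  match k, hk, h with
  | 0, _, h =>
    obtain ⟨σ, hσ, hT⟩ := Golay.exists_mem_M24 h
    refine ⟨permElt σ hσ, permElt_mem hσ, fun c c' h x hx => ?_⟩
    funext p
    have hj : Golay.idx (σ.symm p) < 24 := Golay.idx_lt _
    have h1 := (nall_iff _ _).1 h _ hj
    have h2 : tget 4 c' (Golay.papp t (Golay.idx (σ.symm p))) = tget 4 c (Golay.idx (σ.symm p)) :=
      Nat.eq_of_beq_eq_true h1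
    rw [← hT, Equiv.apply_symm_apply] at h2
    rw [permElt_apply, hx]
    show (tget 4 c (Golay.idx (σ.symm p)) : ℤ) - 8 = (tget 4 c' (Golay.idx p) : ℤ) - 8
    rw [h2]
  | 1, _, h =>
    have h1 := Golay.ofMask_mem_supports h
    rw [supports_mem_iff] at h1
    refine ⟨flipElt _ h1, flipElt_mem h1, fun c c' h x hx => ?_⟩
    funext p
    have hj : Golay.idx p < 24 := Golay.idx_lt p
    have h2 : flB t c c' (Golay.idx p) = true := (nall_iff _ _).1 h _ hj
    rw [flipElt_apply, hx]
    have hb : t.testBit (Golay.idx p) = Nat.beq (Nat.mod (Nat.shiftRight t (Golay.idx p)) 2) 1 := by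
      have e : Nat.mod (Nat.shiftRight t (Golay.idx p)) 2 = (t >>> Golay.idx p) % 2 := rfl
      rw [e, ← Nat.and_one_is_mod]
      have h3 : t.testBit (Golay.idx p) = (t >>> Golay.idx p).testBit 0 := by simp [Nat.testBit_shiftRight]
      rw [h3, Nat.testBit_zero, Nat.and_one_is_mod]
      rcases Nat.mod_two_eq_zero_or_one (t >>> Golay.idx p) with h | h <;> rw [h] <;> rfl
    unfold flB at h2
    rw [← hb] at h2
    show _ = (tget 4 c' (Golay.idx p) : ℤ) - 8
    by_cases ht : t.testBit (Golay.idx p) = true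
    · rw [ht] at h2
      have h3 : tget 4 c' (Golay.idx p) + tget 4 c (Golay.idx p) = 16 := Nat.eq_of_beq_eq_true h2
      have h4 : lift (fun i => if i ∈ Golay.ofMask t then (1 : ZMod 2) else 0) p = 1 := by
        rw [lift_eq_one_iff]
        show (if p ∈ Golay.ofMask t then (1 : ZMod 2) else 0) ≠ 0
        rw [if_pos (Golay.mem_ofMask.2 ht)]
        decide
      rw [h4]
      show (1 - 2 * 1) * ((tget 4 c (Golay.idx p) : ℤ) - 8) = _
      omega
    · rw [Bool.not_eq_true] at ht
      rw [ht] at h2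
      have h3 : tget 4 c' (Golay.idx p) = tget 4 c (Golay.idx p) := Nat.eq_of_beq_eq_true h2
      have h4 : lift (fun i => if i ∈ Golay.ofMask t then (1 : ZMod 2) else 0) p = 0 := by
        rw [lift_eq_zero_iff]
        show (if p ∈ Golay.ofMask t then (1 : ZMod 2) else 0) = 0
        rw [if_neg]
        rw [Golay.mem_ofMask, ht]
        decide
      rw [h4]
      show (1 - 2 * 0) * ((tget 4 c (Golay.idx p) : ℤ) - 8) = _
      omega

/-- check of generators which fix the vectors of a list -/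
noncomputable def fxB (fx : List ℕ) (gens : List (ℕ × ℕ)) : Bool :=
  gens.all fun s => Nat.blt s.1 2 && okB s.1 s.2 && fx.all fun f => stB s.1 s.2 f f

theorem fx_spec {fx : List ℕ} {gens : List (ℕ × ℕ)} (h : fxB fx gens = true) : ∀ s ∈ gens, ∃ g ∈ crossStab,
    IsSt s.1 s.2 g ∧ ∀ f ∈ fx, Maps g f f := by
  intro s hs
  unfold fxB at h
  have h1 := List.all_eq_true.1 h s hs
  simp only [Bool.and_eq_true] at h1
  obtain ⟨⟨h2, h3⟩, h4⟩ := h1
  obtain ⟨g, hg, hst⟩ := exists_mono_step (Nat.le_of_ble_eq_true h2) h3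
  exact ⟨g, hg, hst, fun f hf => hst _ _ (List.all_eq_true.1 h4 f hf)⟩

/-- check of the record `i` -/
noncomputable def orB (gens : List (ℕ × ℕ)) (A M N c0 i : ℕ) : Bool :=
  fc (tget 96 A i) fun c => fc (tget 24 M i) fun m => fc (Nat.div m 131072) fun d =>
    cond (Nat.beq d 0) (Nat.beq c c0) (fc (Nat.mod m 8192) fun p => fc (Nat.mod (Nat.div m 8192) 16) fun g =>
      Bool.and (Nat.blt p N) (Bool.and (Nat.blt (Nat.div (tget 24 M p) 131072) d) (Bool.and (Nat.blt g gens.length)
        (fc (tget 96 A p) fun a => stB (gens.getD g (0, 0)).1 (gens.getD g (0, 0)).2 a c))))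

/-- check of an orbit -/
noncomputable def orbB (gens : List (ℕ × ℕ)) (A M N c0 : ℕ) : Bool := nall (orB gens A M N c0) N

theorem reachS {gens : List (ℕ × ℕ)} {A M N c0 : ℕ} {S : Subgroup Co0} {x0 : leechLattice}
    (hx0 : (x0 : GolayPt → ℤ) = ivv c0) (hg : ∀ s ∈ gens, ∃ g ∈ S, IsSt s.1 s.2 g)
    (h : orbB gens A M N c0 = true) (D : ℕ) : ∀ j < N, tget 24 M j / 131072 ≤ D →
    ∃ g ∈ S, ((g • x0 : leechLattice) : GolayPt → ℤ) = ivv (tget 96 A j) := by
  have hone := (nall_iff _ _).1 h
  have base : ∀ j < N, tget 24 M j / 131072 = 0 → ∃ g ∈ S, ((g • x0 : leechLattice) : GolayPt → ℤ) = ivv (tget 96 A j) := by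
    intro j hj h0
    have h1 := hone j hj
    unfold orB at h1
    rw [fc_eq, fc_eq, fc_eq] at h1
    have h0' : Nat.div (tget 24 M j) 131072 = 0 := h0
    rw [h0'] at h1
    have h2 : tget 96 A j = c0 := Nat.eq_of_beq_eq_true h1
    exact ⟨1, S.one_mem, by rw [one_smul, h2, hx0]⟩
  induction D with
  | zero => intro j hj h0; exact base j hj (by omega)
  | succ D ih =>
    intro j hj hD
    by_cases h0 : tget 24 M j / 131072 = 0
    · exact base j hj h0
    · have h1 := hone j hj
      unfold orB at h1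
      rw [fc_eq, fc_eq, fc_eq] at h1
      have h2 : Nat.beq (Nat.div (tget 24 M j) 131072) 0 = false := by
        cases h3 : Nat.beq (Nat.div (tget 24 M j) 131072) 0 with
        | false => rfl
        | true => exact absurd (Nat.eq_of_beq_eq_true h3) h0
      rw [h2, cond_false, fc_eq, fc_eq, fc_eq] at h1
      have h1' : (Nat.blt (tget 24 M j % 8192) N && (Nat.blt (tget 24 M (tget 24 M j % 8192) / 131072)
        (tget 24 M j / 131072) && (Nat.blt (tget 24 M j / 8192 % 16) gens.length &&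
        stB (gens.getD (tget 24 M j / 8192 % 16) (0, 0)).1 (gens.getD (tget 24 M j / 8192 % 16) (0, 0)).2
          (tget 96 A (tget 24 M j % 8192)) (tget 96 A j)))) = true := h1
      simp only [Bool.and_eq_true, Nat.blt_eq] at h1'
      obtain ⟨h4, h5, h6, h7⟩ := h1'
      obtain ⟨g, hgS, hgx⟩ := ih _ h4 (by omega)
      have hmem : gens.getD (tget 24 M j / 8192 % 16) (0, 0) ∈ gens := by
        rw [List.getD_eq_getElem _ _ h6]
        exact List.getElem_mem _
      obtain ⟨γ, hγ, hγ'⟩ := hg _ hmem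
      refine ⟨γ * g, S.mul_mem hγ hgS, ?_⟩
      rw [mul_smul]
      exact hγ' _ _ h7 (g • x0) hgx

/-- The certificate gives `N` elements of the orbit. -/
theorem orbit_geS {gens : List (ℕ × ℕ)} {A M N c0 m : ℕ} {S : Subgroup Co0} {x0 : leechLattice}
    (hx0 : (x0 : GolayPt → ℤ) = ivv c0) (hg : ∀ s ∈ gens, ∃ g ∈ S, IsSt s.1 s.2 g)
    (h : orbB gens A M N c0 = true) (hm : N ≤ m + 1)
    (hinc : nall (fun i => Nat.blt (tget 96 A i) (tget 96 A (Nat.succ i))) m = true)
    (hfin : (orbit S x0).Finite) : N ≤ (orbit S x0).ncard := by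
  have hr := fun j hj => reachS hx0 hg h _ j hj le_rfl
  choose f hf1 hf2 using hr
  have hinj : Function.Injective (fun j : Fin N => (f j.1 j.2 • x0 : leechLattice)) := by
    intro i j hij
    have h1 := hf2 i.1 i.2
    have h2 := hf2 j.1 j.2
    have h3 : (f i.1 i.2 • x0 : leechLattice) = f j.1 j.2 • x0 := hij
    rw [h3, h2] at h1
    have h4 := ivv_inj (tget_lt _ _ _) (tget_lt _ _ _) h1
    apply Fin.ext
    rcases Nat.lt_trichotomy i.1 j.1 with h5 | h5 | h5
    · have := inc_lt hinc _ _ h5 (by have := j.2; omega); omega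
    · exact h5
    · have := inc_lt hinc _ _ h5 (by have := i.2; omega); omega
  have h1 : Set.range (fun j : Fin N => (f j.1 j.2 • x0 : leechLattice)) ⊆ orbit S x0 := by
    rintro y ⟨j, rfl⟩
    exact ⟨⟨f j.1 j.2, hf1 j.1 j.2⟩, rfl⟩
  have h2 := Set.ncard_le_ncard h1 hfin
  rwa [Set.ncard_range_of_injective hinj, Nat.card_fin] at h2

end Cfsg.Agent.MLin.Lat
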