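import Cfsg.Agent.MLin.RkData

/-!
The graph on 275 vectors: the adjacency table (owner: helper7).
-/
set_option autoImplicit false
set_option maxRecDepth 1000000

namespace Cfsg.Agent.MLin.Rk

open Cfsg Cfsg.Agent Cfsg.Agent.Leech Cfsg.Agent.PermTab Cfsg.Agent.CosetEnum Cfsg.Agent.MulX Cfsg.Agent.MLin
  Cfsg.Agent.MLin.Lat Cfsg.Agent.MLin.U43St Cfsg.Agent.LeechSimple MulAction

/-- spread code -/
def spr (c n : ℕ) : ℕ := Nat.rec (motive := fun _ => ℕ) 0 (fun p ih => Nat.add ih (Nat.mul (tget 4 c p) (Nat.pow 65536 p))) n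

/-- reversed spread code -/
def rvs (c n : ℕ) : ℕ := Nat.rec (motive := fun _ => ℕ) 0 (fun p ih => Nat.add (Nat.mul 65536 ih) (tget 4 c p)) n

/-- sum of the digits -/
def smN (c n : ℕ) : ℕ := Nat.rec (motive := fun _ => ℕ) 0 (fun p ih => Nat.add ih (tget 4 c p)) n

/-- dot product of the digits -/
def dtN (a b n : ℕ) : ℕ := Nat.rec (motive := fun _ => ℕ) 0 (fun p ih => Nat.add ih (Nat.mul (tget 4 a p) (tget 4 b p))) n

theorem spr_succ (c n : ℕ) : spr c (n + 1) = spr c n + tget 4 c n * 65536 ^ n := rfl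
theorem rvs_succ (c n : ℕ) : rvs c (n + 1) = 65536 * rvs c n + tget 4 c n := rfl
theorem smN_succ (c n : ℕ) : smN c (n + 1) = smN c n + tget 4 c n := rfl
theorem dtN_succ (a b n : ℕ) : dtN a b (n + 1) = dtN a b n + tget 4 a n * tget 4 b n := rfl

theorem tget4_le (c n : ℕ) : tget 4 c n ≤ 15 := by
  have := tget_lt 4 c n
  omega

theorem spr_le (c : ℕ) : ∀ n, spr c n * 65536 ≤ 16 * 65536 ^ n := by
  intro n
  induction n with
  | zero => show 0 * 65536 ≤ _; omega
  | succ n ih =>
    rw [spr_succ, pow_succ]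
    have h := tget4_le c n
    have h2 : tget 4 c n * 65536 ^ n ≤ 15 * 65536 ^ n := Nat.mul_le_mul_right _ h
    generalize tget 4 c n * 65536 ^ n = t at *
    generalize 65536 ^ n = B at *
    omega

theorem kron (a b : ℕ) : ∀ n, ∃ L H, spr a n * rvs b n * 65536 = L + dtN a b n * 65536 ^ n + H * 65536 ^ (n + 1) ∧
    L * 65536 ≤ 256 * n * 65536 ^ n := by
  intro n
  induction n with
  | zero => exact ⟨0, 0, by show 0 * rvs b 0 * 65536 = 0 + 0 * _ + 0 * _; ring, by omega⟩
  | succ n ih =>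
    obtain ⟨L, H, h1, h2⟩ := ih
    refine ⟨65536 * L + 65536 * spr a n * tget 4 b n, H + tget 4 a n * rvs b n, ?_, ?_⟩
    · rw [spr_succ, rvs_succ, dtN_succ]
      have e : (spr a n + tget 4 a n * 65536 ^ n) * (65536 * rvs b n + tget 4 b n) * 65536 =
          65536 * (spr a n * rvs b n * 65536) + 65536 * spr a n * tget 4 b n +
          tget 4 a n * rvs b n * 65536 ^ (n + 2) + tget 4 a n * tget 4 b n * 65536 ^ (n + 1) := by
        rw [pow_succ, pow_succ]; ring
      rw [e, h1]
      ring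
    · have h3 := spr_le a n
      have h4 := tget4_le b n
      have h5 : spr a n * 65536 * tget 4 b n ≤ 16 * 65536 ^ n * 15 := Nat.mul_le_mul h3 h4
      have e1 : (65536 * L + 65536 * spr a n * tget 4 b n) * 65536 =
          65536 * (L * 65536) + 65536 * (spr a n * 65536 * tget 4 b n) := by ring
      have e2 : 256 * (n + 1) * 65536 ^ (n + 1) = 65536 * (256 * n * 65536 ^ n) + 65536 * (256 * 65536 ^ n) := by
        rw [pow_succ]; ring
      rw [e1, e2]
      generalize spr a n * 65536 * tget 4 b n = t at *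
      generalize 256 * n * 65536 ^ n = s at *
      generalize 65536 ^ n = B at *
      omega

theorem kron24 (a b : ℕ) : Nat.mod (Nat.div (Nat.mul (spr a 24) (rvs b 24)) (65536 ^ 23)) 65536 = dtN a b 24 % 65536 := by
  obtain ⟨L, H, h1, h2⟩ := kron a b 24
  show spr a 24 * rvs b 24 / 65536 ^ 23 % 65536 = _
  have h3 : L < 65536 ^ 24 := by
    have : (65536 : ℕ) ^ 24 * 65536 = 65536 ^ 25 := by norm_num
    generalize (65536 : ℕ) ^ 24 = B at *
    omega
  have h4 : spr a 24 * rvs b 24 / 65536 ^ 23 = spr a 24 * rvs b 24 * 65536 / 65536 ^ 24 := by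
    rw [show (65536 : ℕ) ^ 24 = 65536 ^ 23 * 65536 by norm_num, Nat.mul_div_mul_right _ _ (by norm_num)]
  rw [h4, h1]
  have e : L + dtN a b 24 * 65536 ^ 24 + H * 65536 ^ (24 + 1) = L + 65536 ^ 24 * (dtN a b 24 + H * 65536) := by
    rw [pow_succ]; ring
  rw [e, Nat.add_mul_div_left _ _ (by positivity), Nat.div_eq_of_lt h3, zero_add, Nat.add_mul_mod_self_right]

theorem dtN_lt (a b : ℕ) : ∀ n, dtN a b n ≤ 225 * n := by
  intro n
  induction n with
  | zero => exact Nat.le_refl _
  | succ n ih =>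
    rw [dtN_succ]
    have := Nat.mul_le_mul (tget4_le a n) (tget4_le b n)
    omega

theorem dot_code (a b : ℕ) : dotInt (ivv a) (ivv b) + 8 * (smN a 24 + smN b 24 : ℕ) = (dtN a b 24 : ℕ) + 1536 := by
  have h1 : dotInt (ivv a) (ivv b) = ∑ i ∈ Finset.range 24, (ivv a (Golay.pt i)) * (ivv b (Golay.pt i)) := by
    have := dot_eq_lin (ivv a) (ivv b)
    rw [this]
    unfold lin
    rfl
  have h2 : ∀ n ≤ 24, (∑ i ∈ Finset.range n, (ivv a (Golay.pt i)) * (ivv b (Golay.pt i))) + 8 * (smN a n + smN b n : ℕ) =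
      (dtN a b n : ℕ) + 64 * n := by
    intro n
    induction n with
    | zero => intro _; rfl
    | succ n ih =>
      intro hn
      have h3 := ih (by omega)
      rw [Finset.sum_range_succ, smN_succ, smN_succ, dtN_succ]
      have e : ∀ c, ivv c (Golay.pt n) = (tget 4 c n : ℤ) - 8 := by
        intro c
        unfold ivv
        rw [Golay.idx_pt (by omega)]
      rw [e, e]
      push_cast at h3 ⊢
      linarith [h3]
  rw [h1]
  have := h2 24 le_rfl
  norm_num at this ⊢
  linarith [this]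

/-- check of one pair -/
def prB (s si r i j : ℕ) : Bool :=
  cond (Nat.beq (tget 1 r j) 1)
    (Nat.beq (Nat.add (Nat.mod (Nat.div (Nat.mul s (tget 384 RV j)) (65536 ^ 23)) 65536) 1536)
      (Nat.add (Nat.mul 8 (Nat.add si (tget 9 SM j))) 8))
    (Bool.or (Nat.beq i j) (Bool.not (Nat.beq (Nat.add (Nat.mod (Nat.div (Nat.mul s (tget 384 RV j)) (65536 ^ 23)) 65536) 1536)
      (Nat.add (Nat.mul 8 (Nat.add si (tget 9 SM j))) 8))))

/-- check of the tables -/
noncomputable def tbB : Bool := nall (fun j => fc (tget 96 cd j) fun c =>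
  Bool.and (Nat.beq (rvs c 24) (tget 384 RV j)) (Nat.beq (smN c 24) (tget 9 SM j))) 275

/-- check of the adjacency table -/
noncomputable def adB : Bool := nall (fun i => fc (spr (tget 96 cd i) 24) fun s => fc (tget 9 SM i) fun si => fc (tget 275 ADJ i) fun r =>
  Bool.and (Bool.not (Nat.beq (tget 1 r i) 1)) (nall (fun j => prB s si r i j) 275)) 275

theorem tb_ok : tbB = true := by decide +kernel

theorem ad_ok : adB = true := by decide +kernel

end Cfsg.Agent.MLin.Rk
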