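import Cfsg.Agent.MLin.RkX1

/-!
Automorphisms of the graph on 275 vertices (owner: helper7).
-/
set_option autoImplicit false
set_option maxRecDepth 1000000

namespace Cfsg.Agent.MLin.Rk

open Cfsg Cfsg.Agent Cfsg.Agent.Leech Cfsg.Agent.PermTab Cfsg.Agent.CosetEnum Cfsg.Agent.MulX Cfsg.Agent.MLin
  Cfsg.Agent.MLin.Lat Cfsg.Agent.MLin.U43St Cfsg.Agent.LeechSimple MulAction Finset

/-- the automorphism group -/
def AutG : Subgroup (Equiv.Perm (Fin 275)) where
  carrier := {σ | ∀ i j : Fin 275, A0 (σ i) (σ j) = A0 i j}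
  one_mem' := fun _ _ => rfl
  mul_mem' := by
    intro σ τ hs ht i j
    rw [Equiv.Perm.mul_apply, Equiv.Perm.mul_apply, hs, ht]
  inv_mem' := by
    intro σ hs i j
    have h := hs (σ⁻¹ i) (σ⁻¹ j)
    have e : ∀ x, σ (σ⁻¹ x) = x := fun x => by rw [← Equiv.Perm.mul_apply, mul_inv_cancel]; rfl
    rw [e, e] at h
    exact h.symm

/-- order of the vertices -/
def bo (k : ℕ) : ℕ := tget 9 boT k

/-- check of one vertex -/
noncomputable def rfB (k : ℕ) : Bool := fc (bo k) fun v => fc (tget 275 ADJ v) fun rv => nall (fun w => Bool.or (Nat.beq w v)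
  (fc (tget 275 ADJ w) fun rw => Bool.not (nall (fun j => fc (bo j) fun b => Bool.not (Bool.or (Nat.beq b w)
    (Bool.not (Nat.beq (tget 1 rv b) (tget 1 rw b))))) k))) 275

/-- check of all vertices -/
noncomputable def rfA : Bool := nall (fun i => rfB (Nat.add i 6)) 269

theorem rf_ok : rfA = true := by decide +kernel

/-- all vertices occur -/
noncomputable def allB : Bool := nall (fun v => Bool.not (nall (fun k => Bool.not (Nat.beq (bo k) v)) 275)) 275

theorem all_ok : allB = true := by decide +kernel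

theorem bo_lt : nall (fun k => Nat.blt (bo k) 275) 275 = true := by decide +kernel

theorem bo_base : bo 0 = 21 ∧ bo 1 = 22 ∧ bo 2 = 24 ∧ bo 3 = 158 ∧ bo 4 = 197 ∧ bo 5 = 217 := by decide +kernel

theorem nall_false {f : ℕ → Bool} {k : ℕ} (h : nall f k = false) : ∃ i < k, f i = false := by
  by_contra hcon
  push Not at hcon
  have : nall f k = true := by
    rw [nall_iff]
    intro i hi
    have := hcon i hi
    simpa using this
  rw [this] at h
  exact absurd h (by decide)

theorem base_trivial {σ : Equiv.Perm (Fin 275)} (hs : σ ∈ AutG) (h0 : σ 21 = 21) (h1 : σ 22 = 22) (h2 : σ 24 = 24)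
    (h3 : σ 158 = 158) (h4 : σ 197 = 197) (h5 : σ 217 = 217) : σ = 1 := by
  have key : ∀ k < 275, ∀ v : Fin 275, (v : ℕ) = bo k → σ v = v := by
    intro k
    induction k using Nat.strong_induction_on with
    | _ k ih =>
      intro hk v hv
      by_cases hk6 : k < 6
      · obtain ⟨b0, b1, b2, b3, b4, b5⟩ := bo_base
        interval_cases k
        · rw [b0] at hv; rw [show v = 21 from Fin.ext hv]; exact h0
        · rw [b1] at hv; rw [show v = 22 from Fin.ext hv]; exact h1
        · rw [b2] at hv; rw [show v = 24 from Fin.ext hv]; exact h2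
        · rw [b3] at hv; rw [show v = 158 from Fin.ext hv]; exact h3
        · rw [b4] at hv; rw [show v = 197 from Fin.ext hv]; exact h4
        · rw [b5] at hv; rw [show v = 217 from Fin.ext hv]; exact h5
      · by_contra hne
        have h := (nall_iff _ _).1 rf_ok (k - 6) (by omega)
        have e6 : Nat.add (k - 6) 6 = k := by show k - 6 + 6 = k; omega
        rw [e6] at h
        unfold rfB at h
        rw [fc_eq, fc_eq] at h
        have h6 := (nall_iff _ _).1 h (σ v) (σ v).2
        rw [fc_eq, Bool.or_eq_true, Bool.not_eq_true'] at h6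
        rcases h6 with h6 | h6
        · exact hne (Fin.ext ((Nat.eq_of_beq_eq_true h6).trans hv.symm))
        · obtain ⟨j, hj, h7⟩ := nall_false h6
          rw [fc_eq, Bool.not_eq_false', Bool.or_eq_true] at h7
          have hbj : bo j < 275 := Nat.lt_of_succ_le (Nat.le_of_ble_eq_true ((nall_iff _ _).1 bo_lt j (by omega)))
          have h8 := ih j hj (by omega) ⟨bo j, hbj⟩ rfl
          rcases h7 with h7 | h7
          · have h9 : σ v = ⟨bo j, hbj⟩ := Fin.ext (Nat.eq_of_beq_eq_true h7).symm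
            rw [← h8] at h9
            have h10 := σ.injective h9
            rw [h10] at hne
            exact hne h8
          · have h9 := hs v ⟨bo j, hbj⟩
            rw [h8] at h9
            unfold A0 at h9
            rw [Bool.not_eq_true'] at h7
            rw [← hv] at h7
            have t1 : ∀ a b : ℕ, tget 1 a b = 0 ∨ tget 1 a b = 1 := by
              intro a b
              have := tget_lt 1 a b
              omega
            have h9' : Nat.beq (tget 1 (tget 275 ADJ (σ v)) (bo j)) 1 = Nat.beq (tget 1 (tget 275 ADJ v) (bo j)) 1 := h9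
            rcases t1 (tget 275 ADJ v) (bo j) with e1 | e1 <;> rcases t1 (tget 275 ADJ (σ v)) (bo j) with e2 | e2 <;>
              rw [e1, e2] at h7 h9' <;> first
                | exact absurd h7 (by decide)
                | exact absurd h9' (by decide)
  ext1 v
  have h := (nall_iff _ _).1 all_ok v v.2
  rw [Bool.not_eq_true'] at h
  obtain ⟨k, hk, h6⟩ := nall_false h
  rw [Bool.not_eq_false'] at h6
  exact key k hk v (Nat.eq_of_beq_eq_true h6).symm

/-- point stabiliser -/
abbrev stb (x : Fin 275) : Subgroup (Equiv.Perm (Fin 275)) := stabilizer (Equiv.Perm (Fin 275)) x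

theorem card_step (B : Subgroup (Equiv.Perm (Fin 275))) (x : Fin 275) (T : Finset (Fin 275)) (h : ∀ σ ∈ B, σ x ∈ T) :
    Nat.card B ≤ T.card * Nat.card (B ⊓ stb x : Subgroup (Equiv.Perm (Fin 275))) := by
  rw [← osG B x]
  apply Nat.mul_le_mul_right
  rw [← Set.ncard_coe_finset]
  apply Set.ncard_le_ncard _ (Set.toFinite _)
  rintro _ ⟨g, rfl⟩
  exact h g.1 g.2

theorem t1c : (univ.filter fun y : Fin 275 => A0 21 y = true).card = 112 ∧
    ((univ.filter fun y : Fin 275 => (A0 21 y && !A0 22 y) = true).erase 22).card = 81 ∧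
    (univ.filter fun y : Fin 275 => (A0 21 y && (A0 22 y && A0 24 y)) = true).card = 10 ∧
    ((univ.filter fun y : Fin 275 => (A0 21 y && (A0 22 y && A0 24 y)) = true).erase 158).card = 9 ∧
    (((univ.filter fun y : Fin 275 => (A0 21 y && (A0 22 y && A0 24 y)) = true).erase 158).erase 197).card = 8 := by
  decide +kernel

theorem t1f : A0 21 22 = true ∧ A0 21 24 = true ∧ A0 22 24 = false ∧
    (A0 21 158 && (A0 22 158 && A0 24 158)) = true ∧ (A0 21 197 && (A0 22 197 && A0 24 197)) = true ∧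
    (A0 21 217 && (A0 22 217 && A0 24 217)) = true := by decide +kernel

theorem card_AutG : Nat.card AutG ≤ 1796256000 := by
  obtain ⟨c1, c2, c3, c4, c5⟩ := t1c
  obtain ⟨f1, f2, f3, f4, f5, f6⟩ := t1f
  -- transfer of adjacency
  have tr : ∀ σ ∈ AutG, ∀ x y : Fin 275, σ x = x → A0 x (σ y) = A0 x y := by
    intro σ hs x y hx
    have := hs x y
    rw [hx] at this
    exact this
  have s0 := card_step AutG 21 univ (fun _ _ => mem_univ _)
  have s1 := card_step (AutG ⊓ stb 21) 22 (univ.filter fun y : Fin 275 => A0 21 y = true) (by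
    intro σ hs
    rw [mem_filter]
    exact ⟨mem_univ _, by rw [show A0 21 (σ 22) = A0 ((21 : Fin 275) : ℕ) (σ 22) from rfl, tr σ hs.1 21 22 hs.2]; exact f1⟩)
  have s2 := card_step (AutG ⊓ stb 21 ⊓ stb 22) 24
    ((univ.filter fun y : Fin 275 => (A0 21 y && !A0 22 y) = true).erase 22) (by
    intro σ hs
    rw [mem_erase, mem_filter, Bool.and_eq_true, Bool.not_eq_true']
    refine ⟨?_, mem_univ _, ?_, ?_⟩
    · intro h
      have h22 : σ 22 = 22 := hs.2
      rw [← h22] at h
      exact absurd (σ.injective h) (by decide)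
    · rw [show A0 21 (σ 24) = A0 ((21 : Fin 275) : ℕ) (σ 24) from rfl, tr σ hs.1.1 21 24 hs.1.2]; exact f2
    · rw [show A0 22 (σ 24) = A0 ((22 : Fin 275) : ℕ) (σ 24) from rfl, tr σ hs.1.1 22 24 hs.2]; exact f3)
  have cm : ∀ σ ∈ AutG, σ 21 = 21 → σ 22 = 22 → σ 24 = 24 → ∀ z : Fin 275, (A0 21 z && (A0 22 z && A0 24 z)) = true →
      (A0 21 (σ z) && (A0 22 (σ z) && A0 24 (σ z))) = true := by
    intro σ hs h1 h2 h3 z hz
    rw [show A0 21 (σ z) = A0 ((21 : Fin 275) : ℕ) (σ z) from rfl, tr σ hs 21 z h1,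
      show A0 22 (σ z) = A0 ((22 : Fin 275) : ℕ) (σ z) from rfl, tr σ hs 22 z h2,
      show A0 24 (σ z) = A0 ((24 : Fin 275) : ℕ) (σ z) from rfl, tr σ hs 24 z h3]
    exact hz
  have s3 := card_step (AutG ⊓ stb 21 ⊓ stb 22 ⊓ stb 24) 158
    (univ.filter fun y : Fin 275 => (A0 21 y && (A0 22 y && A0 24 y)) = true) (by
    intro σ hs
    rw [mem_filter]
    exact ⟨mem_univ _, cm σ hs.1.1.1 hs.1.1.2 hs.1.2 hs.2 158 f4⟩)
  have s4 := card_step (AutG ⊓ stb 21 ⊓ stb 22 ⊓ stb 24 ⊓ stb 158) 197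
    ((univ.filter fun y : Fin 275 => (A0 21 y && (A0 22 y && A0 24 y)) = true).erase 158) (by
    intro σ hs
    rw [mem_erase, mem_filter]
    refine ⟨?_, mem_univ _, cm σ hs.1.1.1.1 hs.1.1.1.2 hs.1.1.2 hs.1.2 197 f5⟩
    intro h
    have h22 : σ 158 = 158 := hs.2
    rw [← h22] at h
    exact absurd (σ.injective h) (by decide))
  have s5 := card_step (AutG ⊓ stb 21 ⊓ stb 22 ⊓ stb 24 ⊓ stb 158 ⊓ stb 197) 217
    (((univ.filter fun y : Fin 275 => (A0 21 y && (A0 22 y && A0 24 y)) = true).erase 158).erase 197) (by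
    intro σ hs
    rw [mem_erase, mem_erase, mem_filter]
    refine ⟨?_, ?_, mem_univ _, cm σ hs.1.1.1.1.1 hs.1.1.1.1.2 hs.1.1.1.2 hs.1.1.2 217 f6⟩
    · intro h
      have h22 : σ 197 = 197 := hs.2
      rw [← h22] at h
      exact absurd (σ.injective h) (by decide)
    · intro h
      have h22 : σ 158 = 158 := hs.1.2
      rw [← h22] at h
      exact absurd (σ.injective h) (by decide))
  have s6 : Nat.card (AutG ⊓ stb 21 ⊓ stb 22 ⊓ stb 24 ⊓ stb 158 ⊓ stb 197 ⊓
      stb 217 : Subgroup (Equiv.Perm (Fin 275))) = 1 := by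
    rw [Subgroup.card_eq_one, Subgroup.eq_bot_iff_forall]
    rintro σ ⟨⟨⟨⟨⟨⟨h0, h1⟩, h2⟩, h3⟩, h4⟩, h5⟩, h6⟩
    exact base_trivial h0 h1 h2 h3 h4 h5 h6
  rw [card_univ, Fintype.card_fin] at s0
  rw [c1] at s1
  rw [c2] at s2
  rw [c3] at s3
  rw [c4] at s4
  rw [c5, s6] at s5
  omega

end Cfsg.Agent.MLin.Rk
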