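import Cfsg.Agent.MLin.RkWord

/-!
The graph on 275 vectors: counts (owner: helper7).
-/
set_option autoImplicit false
set_option maxRecDepth 1000000

namespace Cfsg.Agent.MLin.Rk

open Cfsg Cfsg.Agent Cfsg.Agent.Leech Cfsg.Agent.PermTab Cfsg.Agent.CosetEnum Cfsg.Agent.MulX Cfsg.Agent.MLin
  Cfsg.Agent.MLin.Lat Cfsg.Agent.MLin.U43St Cfsg.Agent.LeechSimple MulAction

/-- first neighbours of the base vertex -/
def x1 (y : Fin 275) : Bool := A0 21 y

/-- second neighbours of the base vertex -/
def x2 (y : Fin 275) : Bool := !A0 21 y && !Nat.beq y 21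

theorem cnt1 : (Finset.univ.filter fun y : Fin 275 => x1 y = true).card = 112 := by decide +kernel

theorem cnt1' : (Finset.univ.filter fun y : Fin 275 => x2 y = true).card = 162 := by decide +kernel

theorem cnt2 : (Finset.univ.filter fun y : Fin 275 => (x1 y && !A0 22 y) = true).card = 82 := by decide +kernel

theorem cnt3 : ∀ p : Fin 275, x1 p = true → (Finset.univ.filter fun y : Fin 275 => (x1 y && A0 p y) = true).card = 30 := by
  decide +kernel

theorem cnt4 : (Finset.univ.filter fun y : Fin 275 => (x2 y && !A0 220 y) = true).card = 106 := by decide +kernel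

theorem cnt5 : ∀ p : Fin 275, x2 p = true → (Finset.univ.filter fun y : Fin 275 => (x2 y && A0 p y) = true).card = 56 := by
  decide +kernel

theorem cnt6 : (Finset.univ.filter fun y : Fin 275 => (x1 y && (A0 22 y && A0 40 y)) = true).card = 2 := by decide +kernel

theorem facts : x1 22 = true ∧ x1 40 = true ∧ A0 22 40 = true ∧ x1 24 = true ∧ A0 22 24 = false ∧ x2 220 = true ∧ x2 1 = true ∧
    A0 220 1 = false := by decide +kernel

/-- the traces on the first neighbourhood are distinct -/
noncomputable def dsB : Bool := fc (tget 275 ADJ 21) fun m => nall (fun i => Bool.or (Bool.or (A0 21 i) (Nat.beq i 21))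
  (fc (Nat.land (tget 275 ADJ i) m) fun r => nall (fun j => Bool.or (Bool.or (A0 21 j) (Nat.beq j 21))
    (Bool.or (Nat.beq i j) (Bool.not (Nat.beq (Nat.land (tget 275 ADJ j) m) r)))) 275)) 275

theorem ds_ok : dsB = true := by decide +kernel

theorem A0_bit (i j : ℕ) : A0 i j = (tget 275 ADJ i).testBit j := by
  have h : tget 1 (tget 275 ADJ i) j = (tget 275 ADJ i) / 2 ^ j % 2 := by rw [tget_eq, one_mul, pow_one]
  unfold A0
  rw [h, Nat.testBit_eq_decide_div_mod_eq]
  cases hb : Nat.beq ((tget 275 ADJ i) / 2 ^ j % 2) 1 with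
  | true => rw [Nat.eq_of_beq_eq_true hb]; rfl
  | false =>
    symm
    rw [decide_eq_false_iff_not]
    intro h2
    rw [h2] at hb
    exact absurd hb (by decide)

theorem dist (i j : Fin 275) (hi : x2 i = true) (hj : x2 j = true) (h : ∀ p : Fin 275, x1 p = true → A0 i p = A0 j p) :
    i = j := by
  unfold x2 at hi hj
  rw [Bool.and_eq_true, Bool.not_eq_true', Bool.not_eq_true'] at hi hj
  have h1 := ds_ok
  unfold dsB at h1
  rw [fc_eq] at h1
  have h2 := (nall_iff _ _).1 h1 i i.2
  rw [hi.1, hi.2, Bool.false_or, Bool.false_or, fc_eq] at h2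
  have h3 := (nall_iff _ _).1 h2 j j.2
  rw [hj.1, hj.2, Bool.false_or, Bool.false_or, Bool.or_eq_true] at h3
  rcases h3 with h3 | h3
  · exact Fin.ext (Nat.eq_of_beq_eq_true h3)
  · exfalso
    have e : Nat.land (tget 275 ADJ j) (tget 275 ADJ 21) = Nat.land (tget 275 ADJ i) (tget 275 ADJ 21) := by
      show (tget 275 ADJ j) &&& (tget 275 ADJ 21) = (tget 275 ADJ i) &&& (tget 275 ADJ 21)
      apply Nat.eq_of_testBit_eq
      intro p
      rw [Nat.testBit_and, Nat.testBit_and, ← A0_bit, ← A0_bit, ← A0_bit]
      by_cases hp : p < 275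
      · cases h21 : A0 21 p with
        | false => rw [Bool.and_false, Bool.and_false]
        | true =>
          have := h ⟨p, hp⟩ h21
          rw [Bool.and_true, Bool.and_true]
          exact this.symm
      · have h21 : A0 21 p = false := by
          rw [A0_bit]
          exact Nat.testBit_lt_two_pow (lt_of_lt_of_le (tget_lt _ _ _) (Nat.pow_le_pow_right (by norm_num) (by omega)))
        rw [h21, Bool.and_false, Bool.and_false]
    rw [e, Nat.beq_refl] at h3
    exact absurd h3 (by decide)

end Cfsg.Agent.MLin.Rk
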