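import Cfsg.Agent.MLin.RkG1
import Cfsg.Agent.Stn.HSRec

/-!
Parameters of the graph of a rank three group on 275 points (owner: helper7); adapted from `Stn.HSRec`.
-/
set_option autoImplicit false

namespace Cfsg.Agent.MLin.Rk3

open Finset Cfsg Cfsg.Agent.Stn

section
variable {Ω : Type*} [Fintype Ω] [DecidableEq Ω] (hΩ : Fintype.card Ω = 275) (G : Subgroup (Equiv.Perm Ω))
  [MulAction.IsPretransitive G Ω] (a : Ω) (b c : Ω) (hb : (MulAction.orbit (MulAction.stabilizer G a) b).ncard = 112)
  (hc : (MulAction.orbit (MulAction.stabilizer G a) c).ncard = 162)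

include hΩ hb hc

omit [DecidableEq Ω] [MulAction.IsPretransitive G Ω] in
theorem orb_cases {x : Ω} (hx : x ≠ a) : x ∈ MulAction.orbit (MulAction.stabilizer G a) b ∨ x ∈ MulAction.orbit (MulAction.stabilizer G a) c := by
  classical
  have ha : MulAction.orbit (MulAction.stabilizer G a) a = {a} := by
    ext y
    rw [Set.mem_singleton_iff]
    constructor
    · rintro ⟨g, rfl⟩; exact g.2
    · rintro rfl; exact MulAction.mem_orbit_self y
  have hab : a ∉ MulAction.orbit (MulAction.stabilizer G a) b := by
    intro h
    rw [← MulAction.orbit_eq_iff] at h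
    rw [← h, ha, Set.ncard_singleton] at hb
    omega
  have hac : a ∉ MulAction.orbit (MulAction.stabilizer G a) c := by
    intro h
    rw [← MulAction.orbit_eq_iff] at h
    rw [← h, ha, Set.ncard_singleton] at hc
    omega
  have hbc : Disjoint (MulAction.orbit (MulAction.stabilizer G a) b) (MulAction.orbit (MulAction.stabilizer G a) c) := by
    rcases MulAction.orbit.eq_or_disjoint (G := MulAction.stabilizer G a) b c with h | h
    · rw [h, hc] at hb; omega
    · exact h
  have h1 : (({a} : Set Ω) ∪ (MulAction.orbit (MulAction.stabilizer G a) b ∪ MulAction.orbit (MulAction.stabilizer G a) c)).ncard = 275 := by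
    rw [Set.ncard_union_eq, Set.ncard_union_eq hbc, hb, hc, Set.ncard_singleton]
    rw [Set.disjoint_singleton_left, Set.mem_union, not_or]
    exact ⟨hab, hac⟩
  have h2 : ({a} : Set Ω) ∪ (MulAction.orbit (MulAction.stabilizer G a) b ∪ MulAction.orbit (MulAction.stabilizer G a) c) = Set.univ := by
    apply Set.eq_of_subset_of_ncard_le (Set.subset_univ _)
    rw [h1, Set.ncard_univ, Nat.card_eq_fintype_card, hΩ]
  have h3 : x ∈ ({a} : Set Ω) ∪ (MulAction.orbit (MulAction.stabilizer G a) b ∪ MulAction.orbit (MulAction.stabilizer G a) c) := by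
    rw [h2]; exact Set.mem_univ x
  rcases h3 with h3 | h3
  · exact absurd h3 hx
  · exact h3

omit [DecidableEq Ω] in
theorem orbl_symm' : orbl G a b b a := by
  classical
  -- out-degrees
  have hout : ∀ x : Ω, (univ.filter fun y => orbl G a b x y).card = 112 := by
    intro x
    obtain ⟨g, rfl⟩ := MulAction.exists_smul_eq G a x
    have e1 : (univ.filter fun y => orbl G a b (g • a) y) = (univ.filter fun y => orbl G a b a y).image (g • ·) := by
      ext y
      simp only [mem_filter, mem_univ, true_and, mem_image]
      constructor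
      · intro h
        refine ⟨g⁻¹ • y, ?_, smul_inv_smul g y⟩
        rw [← orbl_smul G a b g, smul_inv_smul]; exact h
      · rintro ⟨z, hz, rfl⟩
        rw [orbl_smul]; exact hz
    rw [e1, card_image_of_injective _ (MulAction.injective g), ← hb, ← Set.ncard_coe_finset]
    congr 1
    ext y
    simp only [coe_filter, mem_univ, true_and, Set.mem_ofPred_eq]
    exact orbl_a G a b y
  have hin : ∀ x : Ω, (univ.filter fun y => orbl G a b y x).card = (univ.filter fun y => orbl G a b y a).card := by
    intro x
    obtain ⟨g, rfl⟩ := MulAction.exists_smul_eq G a x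
    have e1 : (univ.filter fun y => orbl G a b y (g • a)) = (univ.filter fun y => orbl G a b y a).image (g • ·) := by
      ext y
      simp only [mem_filter, mem_univ, true_and, mem_image]
      constructor
      · intro h
        refine ⟨g⁻¹ • y, ?_, smul_inv_smul g y⟩
        rw [← orbl_smul G a b g, smul_inv_smul]; exact h
      · rintro ⟨z, hz, rfl⟩
        rw [orbl_smul]; exact hz
    rw [e1, card_image_of_injective _ (MulAction.injective g)]
  have hdc := sum_card_bipartiteAbove_eq_sum_card_bipartiteBelow (s := (univ : Finset Ω)) (t := (univ : Finset Ω)) (orbl G a b)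
  have h1 : ∀ x ∈ (univ : Finset Ω), (bipartiteAbove (orbl G a b) univ x).card = 112 := fun x _ => hout x
  have h2 : ∀ x ∈ (univ : Finset Ω), (bipartiteBelow (orbl G a b) univ x).card = (univ.filter fun y => orbl G a b y a).card := fun x _ => hin x
  rw [sum_congr rfl h1, sum_congr rfl h2, sum_const, sum_const, card_univ, hΩ] at hdc
  have h112 : (univ.filter fun y => orbl G a b y a).card = 112 := by
    simp only [smul_eq_mul] at hdc; omega
  obtain ⟨x, hx⟩ : (univ.filter fun y => orbl G a b y a).Nonempty := card_pos.1 (by omega)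
  rw [mem_filter] at hx
  -- its orbit
  have hsub : ∀ y ∈ MulAction.orbit (MulAction.stabilizer G a) x, orbl G a b y a := by
    rintro _ ⟨g, rfl⟩
    have h3 := (orbl_smul G a b g.1 x a).2 hx.2
    have h4 : g.1 • a = a := g.2
    rw [h4] at h3
    exact h3
  have hle : (MulAction.orbit (MulAction.stabilizer G a) x).ncard ≤ 112 := by
    rw [← h112, ← Set.ncard_coe_finset]
    apply Set.ncard_le_ncard _ (Set.toFinite _)
    intro y hy
    rw [mem_coe, mem_filter]
    exact ⟨mem_univ _, hsub y hy⟩
  have hxa : x ≠ a := by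
    rintro rfl
    have h3 := (orbl_a G x b x).1 hx.2
    rw [← MulAction.orbit_eq_iff] at h3
    have h4 : MulAction.orbit (MulAction.stabilizer G x) x = {x} := by
      ext y
      rw [Set.mem_singleton_iff]
      constructor
      · rintro ⟨g, rfl⟩; exact g.2
      · rintro rfl; exact MulAction.mem_orbit_self y
    rw [← h3, h4, Set.ncard_singleton] at hb
    omega
  rcases orb_cases hΩ G a b c hb hc hxa with h3 | h3
  · rw [← MulAction.orbit_eq_iff] at h3
    apply hsub
    rw [h3]; exact MulAction.mem_orbit_self b
  · rw [← MulAction.orbit_eq_iff] at h3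
    rw [h3, hc] at hle
    omega

omit [DecidableEq Ω] in
theorem orbl_symm {x y : Ω} (h : orbl G a b x y) : orbl G a b y x := by
  obtain ⟨g, rfl, rfl⟩ := h
  rw [orbl_smul]
  exact orbl_symm' hΩ G a b c hb hc

omit [DecidableEq Ω] in
theorem not_orbl_self (x : Ω) : ¬ orbl G a b x x := by
  rintro ⟨g, h1, h2⟩
  have h3 : a = b := MulAction.injective g (h1.trans h2.symm)
  subst h3
  have h4 : MulAction.orbit (MulAction.stabilizer G a) a = {a} := by
    ext y
    rw [Set.mem_singleton_iff]
    constructor
    · rintro ⟨g, rfl⟩; exact g.2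
    · rintro rfl; exact MulAction.mem_orbit_self y
  rw [h4, Set.ncard_singleton] at hb
  omega

/-- the graph of the orbital -/
def orbG : SimpleGraph Ω where
  Adj := orbl G a b
  symm := ⟨fun _ _ h => orbl_symm hΩ G a b c hb hc h⟩
  loopless := ⟨fun x => not_orbl_self hΩ G a b c hb hc x⟩


theorem orbG_par (Γ : SimpleGraph Ω) [DecidableRel Γ.Adj] (hadj : ∀ x y, Γ.Adj x y ↔ orbl G a b x y) : Rk.Par Γ := by
  have happ : ∀ (g : G) (x : Ω), orbAut G a b Γ hadj g x = g • x := fun _ _ => rfl
  have e1 : ∀ x, (univ.filter fun y => Γ.Adj x y) = nb Γ x := by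
    intro x; ext y; rw [mem_filter, mem_nb]; simp
  have e2 : ∀ x y, (univ.filter fun z => Γ.Adj x z ∧ Γ.Adj y z) = nb Γ x ∩ nb Γ y := by
    intro x y; ext z; rw [mem_filter, mem_inter, mem_nb, mem_nb]; simp
  have hnba : (nb Γ a).card = 112 := by
    rw [← hb, ← Set.ncard_coe_finset]
    congr 1
    ext y
    rw [mem_coe, mem_nb, hadj, orbl_a]
  have hreg : ∀ x, (nb Γ x).card = 112 := by
    intro x
    obtain ⟨g, rfl⟩ := MulAction.exists_smul_eq G a x
    rw [← hnba, ← nb_map_card (orbAut G a b Γ hadj g) a]
    rfl
  have hl : ∀ x y, Γ.Adj x y → (nb Γ x ∩ nb Γ y).card = (nb Γ a ∩ nb Γ b).card := by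
    intro x y hxy
    obtain ⟨g, rfl, rfl⟩ := (hadj x y).1 hxy
    exact nb_inter_map_card (orbAut G a b Γ hadj g) a b
  have hm : ∀ x y, x ≠ y → ¬ Γ.Adj x y → (nb Γ x ∩ nb Γ y).card = (nb Γ a ∩ nb Γ c).card := by
    intro x y hxy hadj'
    obtain ⟨g, rfl⟩ := MulAction.exists_smul_eq G a x
    have h1 : g⁻¹ • y ≠ a := by
      intro h; apply hxy; rw [← h, smul_inv_smul]
    have h2 : g⁻¹ • y ∉ MulAction.orbit (MulAction.stabilizer G a) b := by
      intro h
      apply hadj'
      rw [← orbl_a, ← orbl_smul G a b g, smul_inv_smul] at h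
      exact (hadj _ _).2 h
    rcases orb_cases hΩ G a b c hb hc h1 with h3 | h3
    · exact absurd h3 h2
    · obtain ⟨k, hk⟩ := h3
      have hk' : k.1 • c = g⁻¹ • y := hk
      have hka : k.1 • a = a := k.2
      have e1 : (g * k.1) • a = g • a := by rw [mul_smul, hka]
      have e2 : (g * k.1) • c = y := by rw [mul_smul, hk', smul_inv_smul]
      rw [← nb_inter_map_card (orbAut G a b Γ hadj (g * k.1)) a c]
      rw [happ, happ, e1, e2]
  set l := (nb Γ a ∩ nb Γ b).card with hld
  set m := (nb Γ a ∩ nb Γ c).card with hmd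
  -- double counting of the edges between the two neighbourhoods of `a`
  have hcount : 112 * (111 - l) = 162 * m ∧ l ≤ 111 := by
    have hab : Γ.Adj a b := by
      rw [hadj, orbl_a]; exact MulAction.mem_orbit_self b
    have hl111 : l ≤ 111 := by
      have h1 : nb Γ a ∩ nb Γ b ⊆ (nb Γ a).erase b := by
        intro z hz
        rw [mem_inter, mem_nb, mem_nb] at hz
        rw [mem_erase, mem_nb]
        exact ⟨fun h => (h ▸ hz.2).ne rfl, hz.1⟩
      have h2 := card_le_card h1
      rw [card_erase_of_mem (mem_nb.2 hab), hnba] at h2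
      exact h2
    refine ⟨?_, hl111⟩
    set T : Finset Ω := univ.filter fun z => z ≠ a ∧ ¬ Γ.Adj a z with hT
    have hTc : T.card = 162 := by
      have h1 : T = univ \ insert a (nb Γ a) := by
        ext z
        simp only [hT, mem_filter, mem_univ, true_and, mem_sdiff, mem_insert, mem_nb, not_or]
      rw [h1, card_sdiff_of_subset (subset_univ _), card_univ, hΩ, card_insert_of_notMem, hnba]
      rw [mem_nb]; exact fun h => h.ne rfl
    have hdc := sum_card_bipartiteAbove_eq_sum_card_bipartiteBelow (s := nb Γ a) (t := T) (fun x y => Γ.Adj x y)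
    have h1 : ∀ x ∈ nb Γ a, (bipartiteAbove (fun x y => Γ.Adj x y) T x).card = 111 - l := by
      intro x hx
      rw [mem_nb] at hx
      have h2 : nb Γ x = insert a ((nb Γ a ∩ nb Γ x) ∪ bipartiteAbove (fun x y => Γ.Adj x y) T x) := by
        ext z
        simp only [mem_nb, mem_insert, mem_union, mem_inter, bipartiteAbove, hT, mem_filter, mem_univ, true_and]
        constructor
        · intro h
          by_cases hz : z = a
          · left; exact hz
          · right
            by_cases hz2 : Γ.Adj a z
            · left; exact ⟨hz2, h⟩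
            · right; exact ⟨⟨hz, hz2⟩, h⟩
        · rintro (rfl | ⟨-, h⟩ | ⟨-, h⟩)
          · exact hx.symm
          · exact h
          · exact h
      have h3 := congrArg card h2
      have h5 : Disjoint (nb Γ a ∩ nb Γ x) (bipartiteAbove (fun x y => Γ.Adj x y) T x) := by
        rw [disjoint_left]
        intro z hz hz'
        simp only [mem_nb, mem_inter, bipartiteAbove, hT, mem_filter, mem_univ, true_and] at hz hz'
        exact hz'.1.2 hz.1
      rw [hreg, card_insert_of_notMem, card_union_of_disjoint h5, hl a x hx] at h3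
      · omega
      · simp only [mem_union, mem_inter, mem_nb, bipartiteAbove, hT, mem_filter, mem_univ, true_and, not_or]
        exact ⟨fun h => h.1.ne rfl, fun h => h.1.1 rfl⟩
    have h4 : ∀ y ∈ T, (bipartiteBelow (fun x y => Γ.Adj x y) (nb Γ a) y).card = m := by
      intro y hy
      simp only [hT, mem_filter, mem_univ, true_and] at hy
      rw [← hm a y (Ne.symm hy.1) hy.2]
      congr 1
      ext z
      simp only [bipartiteBelow, mem_filter, mem_inter, mem_nb]
      rw [Γ.adj_comm z y]
    rw [sum_congr rfl h1, sum_congr rfl h4, sum_const, sum_const, hTc, hnba] at hdc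
    exact hdc
  obtain ⟨h1, h2⟩ := hcount
  have hlm : l = 30 ∧ m = 56 := by
    have h3 : 111 - l = 0 ∨ 111 - l = 81 := by
      have h4 : 81 ∣ 56 * (111 - l) := ⟨m, by omega⟩
      have h5 : 81 ∣ 111 - l := (Nat.Coprime.dvd_mul_left (by norm_num : Nat.Coprime 81 56)).1 h4
      obtain ⟨t, ht⟩ := h5
      have : t ≤ 1 := by omega
      interval_cases t
      · left; omega
      · right; omega
    rcases h3 with h3 | h3
    · exfalso
      have hm0 : m = 0 := by omega
      -- three disjoint cliques
      have hca : c ≠ a := by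
        rintro rfl
        have h4 : MulAction.orbit (MulAction.stabilizer G c) c = {c} := by
          ext y
          rw [Set.mem_singleton_iff]
          constructor
          · rintro ⟨g, rfl⟩; exact g.2
          · rintro rfl; exact MulAction.mem_orbit_self y
        rw [h4, Set.ncard_singleton] at hc
        omega
      have hnac : ¬ Γ.Adj a c := by
        rw [hadj, orbl_a]
        intro h
        rw [← MulAction.orbit_eq_iff] at h
        rw [h, hb] at hc
        omega
      have hdis : ∀ x y, x ≠ y → ¬ Γ.Adj x y → Disjoint (insert x (nb Γ x)) (insert y (nb Γ y)) := by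
        intro x y hxy hn
        have h5 := hm x y hxy hn
        rw [hm0, card_eq_zero] at h5
        rw [disjoint_left]
        intro z hz hz'
        rw [mem_insert] at hz hz'
        rcases hz with rfl | hz
        · rcases hz' with h | h
          · exact hxy h
          · rw [mem_nb] at h; exact hn h.symm
        · rcases hz' with rfl | h
          · rw [mem_nb] at hz; exact hn hz
          · have : z ∈ nb Γ x ∩ nb Γ y := mem_inter.2 ⟨hz, h⟩
            rw [h5] at this
            exact absurd this (notMem_empty z)
      have hci : ∀ x, (insert x (nb Γ x)).card = 113 := by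
        intro x
        rw [card_insert_of_notMem (by rw [mem_nb]; exact fun h => h.ne rfl), hreg]
      have hU : (insert a (nb Γ a) ∪ insert c (nb Γ c)).card = 226 := by
        rw [card_union_of_disjoint (hdis a c (Ne.symm hca) hnac), hci, hci]
      obtain ⟨z, hz⟩ : ∃ z, z ∉ insert a (nb Γ a) ∪ insert c (nb Γ c) := by
        by_contra hcon
        push Not at hcon
        have : (insert a (nb Γ a) ∪ insert c (nb Γ c)) = univ := by
          ext z; exact ⟨fun _ => mem_univ z, fun _ => hcon z⟩
        rw [this, card_univ, hΩ] at hU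
        omega
      rw [mem_union, mem_insert, mem_insert, mem_nb, mem_nb, not_or, not_or, not_or] at hz
      obtain ⟨⟨z1, z2⟩, z3, z4⟩ := hz
      have d1 := hdis a z (Ne.symm z1) z2
      have d2 := hdis c z (Ne.symm z3) z4
      have h6 : Disjoint (insert a (nb Γ a) ∪ insert c (nb Γ c)) (insert z (nb Γ z)) := by
        rw [disjoint_union_left]; exact ⟨d1, d2⟩
      have h7 := card_le_univ ((insert a (nb Γ a) ∪ insert c (nb Γ c)) ∪ insert z (nb Γ z))
      rw [card_union_of_disjoint h6, hU, hci, hΩ] at h7
      omega
    · omega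
  refine ⟨hΩ, ?_, ?_, ?_⟩
  · intro x; rw [e1]; exact hreg x
  · intro x y h; rw [e2, hl x y h]; exact hlm.1
  · intro x y h h'; rw [e2, hm x y h h']; exact hlm.2

end

end Cfsg.Agent.MLin.Rk3
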