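import Cfsg.Agent.MLin.RkG4
import Cfsg.Agent.MLin.RkPar
import Cfsg.Agent.MLin.RkAut

/-!
Recognition of the McLaughlin group from its rank three action (owner: helper7).
-/
set_option autoImplicit false
set_option maxRecDepth 100000

namespace Cfsg.Agent.MLin.Rk

open Cfsg Cfsg.Agent Cfsg.Agent.Leech Cfsg.Agent.PermTab Cfsg.Agent.CosetEnum Cfsg.Agent.MulX Cfsg.Agent.MLin
  Cfsg.Agent.MLin.Lat Cfsg.Agent.MLin.U43St Cfsg.Agent.LeechSimple MulAction

/-- the point stabiliser of the model -/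
theorem iso_S (F : Type) [Field F] [Fintype F] (hF : Fintype.card F = 9) : Nonempty (S ≃* PSU 4 F 3) := by
  have h := U43St.result Spor.leechV (-Spor.leechU) X0 norm_leechV ⟨norm_neg_U, norm_V_sub_neg_U⟩ X0_mem F hF
  rw [LeechSimple.stab_neg] at h
  exact h

/-- two subgroups of the automorphism group -/
theorem eq_of_half {A : Type*} [Group A] [Finite A] {H1 H2 : Subgroup A} (hs : IsSimpleGroup H2)
    (h1 : Nat.card H1 = 898128000) (h2 : Nat.card H2 = 898128000) (hA : Nat.card A ≤ 1796256000) : H1 = H2 := by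
  have i1 := H1.index_mul_card
  have i2 := H2.index_mul_card
  rw [h1] at i1
  rw [h2] at i2
  have hpos : 0 < Nat.card A := Nat.card_pos
  have he : H1.index = H2.index := by omega
  have hle : H1.index ≤ 2 := by omega
  have hge : 1 ≤ H1.index := by omega
  rcases (by omega : H1.index = 1 ∨ H1.index = 2) with h | h
  · rw [Subgroup.index_eq_one.1 h, Subgroup.index_eq_one.1 (he.symm.trans h)]
  · exact Stn.index_two_unique hs h (he.symm.trans h) (by omega)

theorem mcl_recog {Ω : Type*} [Fintype Ω] [DecidableEq Ω] (hΩ : Fintype.card Ω = 275) (G : Subgroup (Equiv.Perm Ω))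
    [MulAction.IsPretransitive G Ω] (a : Ω) (θ : stabilizer G a ≃* S) (b c : Ω)
    (hb : (orbit (stabilizer G a) b).ncard = 112) (hc : (orbit (stabilizer G a) c).ncard = 162) : Spor.IsoMcL G := by
  classical
  obtain ⟨pt, hpt⟩ := exists_pt pts_ok
  set Γ : SimpleGraph Ω := Rk3.orbG hΩ G a b c hb hc with hΓ
  have hadj : ∀ x y, Γ.Adj x y ↔ Stn.orbl G a b x y := fun _ _ => Iff.rfl
  have hP : Par Γ := Rk3.orbG_par hΩ G a b c hb hc Γ hadj
  have hG : ∀ (g : G) (x y : Ω), Γ.Adj (g • x) (g • y) ↔ Γ.Adj x y := fun g x y => by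
    rw [hadj, hadj]; exact Stn.orbl_smul G a b g x y
  obtain ⟨φ⟩ := exists_iso hpt hP hG θ hb hc (fun y => by rw [hadj]; exact Stn.orbl_a G a b y)
  -- order
  have hcG : Nat.card G = 898128000 := by
    have h1 := (stabilizer G a).index_mul_card
    rw [index_stabilizer, orbit_eq_univ, Set.ncard_univ, Nat.card_eq_fintype_card, hΩ,
      Nat.card_congr θ.toEquiv, card_S] at h1
    rw [← h1]
  -- transport
  set e : Equiv.Perm Ω ≃* Equiv.Perm (Fin 275) := (φ.toEquiv.symm).permCongrHom with he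
  have hev : ∀ (σ : Equiv.Perm Ω) (i : Fin 275), e σ i = φ.symm (σ (φ i)) := fun _ _ => rfl
  have hle1 : G.map e.toMonoidHom ≤ AutG := by
    rintro _ ⟨σ, hσ, rfl⟩
    intro i j
    apply Bool.eq_iff_iff.2
    have h1 : Γ0.Adj (e σ i) (e σ j) ↔ Γ0.Adj i j := by
      rw [hev, hev, ← φ.map_rel_iff, φ.apply_symm_apply, φ.apply_symm_apply]
      exact (hG ⟨σ, hσ⟩ (φ i) (φ j)).trans φ.map_rel_iff
    exact h1
  have hle2 : (rho hpt).range ≤ AutG := by
    rintro _ ⟨g, rfl⟩
    intro i j
    apply Bool.eq_iff_iff.2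
    exact rho_adj hpt g i j
  have k1 : G ≃* (G.map e.toMonoidHom) := G.equivMapOfInjective _ e.injective
  have k2 : mclSub ≃* (rho hpt).range := MonoidHom.ofInjective (rho_inj hpt)
  have k3 := Subgroup.subgroupOfEquivOfLe hle1
  have k4 := Subgroup.subgroupOfEquivOfLe hle2
  have hs : IsSimpleGroup ((rho hpt).range.subgroupOf AutG) := by
    have h0 : IsSimpleGroup mclSub := simple_mclSub
    have f : mclSub ≃* ((rho hpt).range.subgroupOf AutG) := k2.trans k4.symm
    have hnt : Nontrivial ((rho hpt).range.subgroupOf AutG) := f.symm.toEquiv.nontrivial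
    exact IsSimpleGroup.isSimpleGroup_of_surjective f.toMonoidHom f.surjective
  have heq := eq_of_half (H1 := (G.map e.toMonoidHom).subgroupOf AutG) hs
    (by rw [Nat.card_congr k3.toEquiv, ← Nat.card_congr k1.toEquiv, hcG])
    (by rw [Nat.card_congr k4.toEquiv, ← Nat.card_congr k2.toEquiv, card_mcl]) card_AutG
  have k5 : mclSub ≃* Spor.McL := Cfsg.Agent.H90.Co.isoMcL
  exact ⟨((((k1.trans k3.symm).trans (MulEquiv.subgroupCongr heq)).trans k4).trans k2.symm).trans k5⟩

end Cfsg.Agent.MLin.Rk
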