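import Cfsg.Agent.MLin.RkCnt

/-!
Subgroups of index 112 (owner: helper7).
-/
set_option autoImplicit false

namespace Cfsg.Agent.MLin.Rk

open MulAction

/-- orbits and stabilisers -/
theorem osG {A X : Type*} [Group A] [MulAction A X] (K : Subgroup A) (w : X) :
    (orbit K w).ncard * Nat.card (K ⊓ stabilizer A w : Subgroup A) = Nat.card K := by
  rw [← Cfsg.Agent.Leech.orbit_mul_card (G := K) w]
  congr 1
  have h2 : MulAction.stabilizer K w = (K ⊓ stabilizer A w).subgroupOf K := by
    ext g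
    rw [Subgroup.mem_subgroupOf]
    constructor
    · intro h; exact ⟨g.2, h⟩
    · intro h; exact h.2
  rw [h2]
  exact (Nat.card_congr (Subgroup.subgroupOfEquivOfLe inf_le_left).toEquiv).symm

theorem div40 {o h : ℕ} (h1 : o * (729 * h) = 29160) : o ≤ 40 := by
  have h2 : o * h = 40 := by
    have : o * (729 * h) = 729 * (o * h) := by ring
    omega
  rcases Nat.eq_zero_or_pos h with h3 | h3
  · subst h3; omega
  · nlinarith

/-- subgroups of index 112 fix a point -/
theorem fix112 {A X : Type*} [Group A] [Finite A] [Finite X] [MulAction A X] (hA : Nat.card A = 3265920)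
    (hX : Nat.card X = 112) (htr : ∀ x y : X, ∃ a : A, a • x = y) (R : X → X → Prop)
    (hR : ∀ (a : A) (x y : X), R (a • x) (a • y) ↔ R x y)
    (h1 : ∀ x y : X, x ≠ y → R x y → Nat.card (stabilizer A x ⊓ stabilizer A y : Subgroup A) = 972)
    (h2 : ∀ x y : X, x ≠ y → ¬ R x y → Nat.card (stabilizer A x ⊓ stabilizer A y : Subgroup A) = 360)
    (h3 : ∀ x y : X, x ≠ y → R x y → {z | R x z ∧ R y z}.ncard ≤ 2)
    (H : Subgroup A) (hH : Nat.card H = 29160) : ∃ x : X, H = stabilizer A x := by
  classical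
  haveI : Fact (Nat.Prime 3) := ⟨by norm_num⟩
  -- a Sylow subgroup
  obtain ⟨K, hK⟩ := Sylow.exists_subgroup_card_pow_prime (G := H) 3 (n := 6) (by rw [hH]; norm_num)
  set P : Subgroup A := K.map H.subtype with hPd
  have hPH : P ≤ H := Subgroup.map_subtype_le K
  have hPc : Nat.card P = 729 := by
    rw [hPd, Subgroup.card_map_of_injective H.subtype_injective, hK]; norm_num
  have hPp : IsPGroup 3 P := IsPGroup.of_card (n := 6) (by rw [hPc]; norm_num)
  obtain ⟨x, hx⟩ := hPp.nonempty_fixed_point_of_prime_not_dvd_card X (by rw [hX]; norm_num)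
  have hPx : P ≤ stabilizer A x := fun g hg => hx ⟨g, hg⟩
  have hos := osG H x
  rw [hH] at hos
  have hd : Nat.card P ∣ Nat.card (H ⊓ stabilizer A x : Subgroup A) := Subgroup.card_dvd_of_le (le_inf hPH hPx)
  obtain ⟨k, hk⟩ := hd
  rw [hPc] at hk
  rw [hk] at hos
  have hO40 := div40 hos
  have hfin : ∀ (L : Subgroup A) (y : X), (orbit L y).Finite := fun L y => Set.toFinite _
  -- orbits of `P`
  have hsub : ∀ y ∈ orbit H x, orbit P y ⊆ orbit H x := by
    rintro y hy _ ⟨g, rfl⟩
    rw [← orbit_eq_iff.2 hy]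
    exact ⟨⟨g, hPH g.2⟩, rfl⟩
  have hPy : ∀ y, y ≠ x → (R x y → 3 ≤ (orbit P y).ncard) ∧ (¬ R x y → 81 ≤ (orbit P y).ncard) := by
    intro y hy
    have h4 := osG P y
    rw [hPc] at h4
    have h5 : Nat.card (P ⊓ stabilizer A y : Subgroup A) ∣ Nat.card (stabilizer A x ⊓ stabilizer A y : Subgroup A) :=
      Subgroup.card_dvd_of_le (inf_le_inf_right _ hPx)
    have h6 : Nat.card (P ⊓ stabilizer A y : Subgroup A) ∣ 729 := ⟨_, by rw [mul_comm]; exact h4.symm⟩
    have hpos : 0 < Nat.card (P ⊓ stabilizer A y : Subgroup A) := Nat.card_pos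
    constructor
    · intro hr
      rw [h1 x y (Ne.symm hy) hr] at h5
      have h7 := Nat.dvd_gcd h5 h6
      rw [show Nat.gcd 972 729 = 243 by norm_num] at h7
      have h8 := Nat.le_of_dvd (by norm_num) h7
      by_contra hcon
      have h9 : (orbit P y).ncard ≤ 2 := by omega
      have : (orbit P y).ncard * Nat.card (P ⊓ stabilizer A y : Subgroup A) ≤ 2 * 243 := Nat.mul_le_mul h9 h8
      omega
    · intro hr
      rw [h2 x y (Ne.symm hy) hr] at h5
      have h7 := Nat.dvd_gcd h5 h6
      rw [show Nat.gcd 360 729 = 9 by norm_num] at h7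
      have h8 := Nat.le_of_dvd (by norm_num) h7
      by_contra hcon
      have h9 : (orbit P y).ncard ≤ 80 := by omega
      have : (orbit P y).ncard * Nat.card (P ⊓ stabilizer A y : Subgroup A) ≤ 80 * 9 := Nat.mul_le_mul h9 h8
      omega
  have hadj : ∀ y ∈ orbit H x, y ≠ x → R x y := by
    intro y hy hyx
    by_contra hcon
    have h4 := (hPy y hyx).2 hcon
    have h5 := Set.ncard_le_ncard (hsub y hy) (hfin H x)
    omega
  have hadj2 : ∀ y ∈ orbit H x, ∀ z ∈ orbit H x, z ≠ y → R y z := by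
    rintro y ⟨g, rfl⟩ z hz hne
    have e : (g : A) • ((g : A)⁻¹ • z) = z := smul_inv_smul _ _
    have h4 : (g : A)⁻¹ • z ∈ orbit H x := by
      rw [← orbit_eq_iff.2 hz]
      exact ⟨⟨(g : A)⁻¹, H.inv_mem g.2⟩, rfl⟩
    have h5 : (g : A)⁻¹ • z ≠ x := by
      intro h; rw [h] at e; exact hne e.symm
    have h6 := hadj _ h4 h5
    rw [← hR (g : A), e] at h6
    exact h6
  -- the orbit is a point
  have hone : ∀ y ∈ orbit H x, y = x := by
    intro y hy
    by_contra hyx
    have hxo : x ∈ orbit H x := mem_orbit_self x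
    have hRy := hadj y hy hyx
    have h4 : (orbit H x).ncard ≤ 4 := by
      have h5 : orbit H x ⊆ {x, y} ∪ {z | R x z ∧ R y z} := by
        intro z hz
        by_cases hzx : z = x
        · left; rw [hzx]; exact Set.mem_insert _ _
        by_cases hzy : z = y
        · left; rw [hzy]; exact Set.mem_insert_of_mem _ rfl
        right
        exact ⟨hadj z hz hzx, hadj2 y hy z hz hzy⟩
      have h6 := Set.ncard_le_ncard h5 (Set.toFinite _)
      have h7 := Set.ncard_union_le ({x, y} : Set X) {z | R x z ∧ R y z}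
      have h8 : ({x, y} : Set X).ncard ≤ 2 := by
        have := Set.ncard_insert_le x ({y} : Set X)
        rw [Set.ncard_singleton] at this
        exact this
      have h9 := h3 x y (Ne.symm hyx) hRy
      omega
    have h5 : (orbit (H ⊓ stabilizer A x : Subgroup A) y).ncard ≤ 3 := by
      have h6 : orbit (H ⊓ stabilizer A x : Subgroup A) y ⊆ orbit H x \ {x} := by
        rintro _ ⟨g, rfl⟩
        refine ⟨?_, ?_⟩
        · rw [← orbit_eq_iff.2 hy]
          exact ⟨⟨g, g.2.1⟩, rfl⟩
        · intro h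
          have h7 : (g : A) • y = x := h
          have h8 : (g : A) • x = x := g.2.2
          exact hyx (MulAction.injective (g : A) (h7.trans h8.symm))
      have h7 := Set.ncard_le_ncard h6 (Set.toFinite _)
      have h8 := Set.ncard_diff_singleton_of_mem (hxo)
      omega
    have h6 := osG (H ⊓ stabilizer A x) y
    have h7 : Nat.card (H ⊓ stabilizer A x ⊓ stabilizer A y : Subgroup A) ≤ 972 := by
      rw [← h1 x y (Ne.symm hyx) hRy]
      exact Nat.le_of_dvd Nat.card_pos (Subgroup.card_dvd_of_le (inf_le_inf_right _ inf_le_right))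
    have h8 : Nat.card (H ⊓ stabilizer A x : Subgroup A) ≤ 3 * 972 := by
      rw [← h6]; exact Nat.mul_le_mul h5 h7
    rw [hk] at h8
    have h9 : (orbit H x).ncard * (729 * k) ≤ 4 * (3 * 972) := Nat.mul_le_mul h4 h8
    omega
  have hle : H ≤ stabilizer A x := fun g hg => hone _ ⟨⟨g, hg⟩, rfl⟩
  refine ⟨x, ?_⟩
  have hcs : Nat.card (stabilizer A x) = 29160 := by
    have h4 := Cfsg.Agent.Leech.orbit_mul_card (G := A) x
    have h5 : orbit A x = Set.univ := by
      ext y
      exact ⟨fun _ => Set.mem_univ _, fun _ => htr x y⟩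
    rw [h5, Set.ncard_univ, hX, hA] at h4
    omega
  exact Subgroup.eq_of_le_of_card_ge hle (by rw [hcs, hH])

end Cfsg.Agent.MLin.Rk
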