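import Cfsg.Agent.MLin.RkM

/-!
Correspondences between a graph and the model (owner: helper7).
-/
set_option autoImplicit false
set_option maxRecDepth 1000000
set_option linter.unusedSectionVars false

namespace Cfsg.Agent.MLin.Rk

open Cfsg Cfsg.Agent Cfsg.Agent.Leech Cfsg.Agent.PermTab Cfsg.Agent.CosetEnum Cfsg.Agent.MulX Cfsg.Agent.MLin
  Cfsg.Agent.MLin.Lat Cfsg.Agent.MLin.U43St Cfsg.Agent.LeechSimple MulAction Finset

/-- the parameters -/
structure Par {Ω : Type*} [Fintype Ω] [DecidableEq Ω] (Γ : SimpleGraph Ω) [DecidableRel Γ.Adj] : Prop where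
  n : Fintype.card Ω = 275
  k : ∀ x, (univ.filter fun y => Γ.Adj x y).card = 112
  l : ∀ x y, Γ.Adj x y → (univ.filter fun z => Γ.Adj x z ∧ Γ.Adj y z).card = 30
  m : ∀ x y, x ≠ y → ¬ Γ.Adj x y → (univ.filter fun z => Γ.Adj x z ∧ Γ.Adj y z).card = 56

section

variable {Ω : Type*} [Fintype Ω] [DecidableEq Ω] {Γ : SimpleGraph Ω} [DecidableRel Γ.Adj] (hP : Par Γ)

include hP

/-- a vertex outside a 5-clique has two neighbours in it -/
theorem clique5 (C : Finset Ω) (hC : C.card = 5) (hadj : ∀ x ∈ C, ∀ y ∈ C, x ≠ y → Γ.Adj x y) (x : Ω) (hx : x ∉ C) :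
    (C.filter fun u => Γ.Adj x u).card = 2 := by
  classical
  set I : Ω → Ω → ℤ := fun x u => if Γ.Adj x u then 1 else 0 with hI
  have hII : ∀ x u v, I x u * I x v = if (Γ.Adj x u ∧ Γ.Adj x v) then 1 else 0 := by
    intro x u v
    simp only [hI]
    by_cases h1 : Γ.Adj x u <;> by_cases h2 : Γ.Adj x v <;> simp [h1, h2]
  have hn : ∀ x, ((C.filter fun u => Γ.Adj x u).card : ℤ) = ∑ u ∈ C, I x u := by
    intro x
    rw [Finset.card_filter]
    push_cast
    rfl
  -- one vertex
  have h1 : ∀ u ∈ C, ∑ x ∈ univ \ C, I x u = 108 := by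
    intro u hu
    have e1 : ∑ x ∈ univ \ C, I x u = ∑ x, I x u - ∑ x ∈ C, I x u := by
      rw [← Finset.sum_sdiff (Finset.subset_univ C)]; ring
    have e2 : ∑ x, I x u = 112 := by
      have := hP.k u
      rw [Finset.card_filter] at this
      have h3 : ∑ x, I x u = ((∑ y, if Γ.Adj u y then 1 else 0 : ℕ) : ℤ) := by
        push_cast
        exact Finset.sum_congr rfl fun x _ => by simp only [hI, Γ.adj_comm]
      rw [h3, this]; rfl
    have e3 : ∑ x ∈ C, I x u = 4 := by
      have h3 : ∀ x ∈ C, I x u = 1 - (if x = u then 1 else 0) := by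
        intro x hx
        by_cases h : x = u
        · subst h; simp [hI]
        · simp only [hI, if_pos (hadj x hx u hu h), if_neg h]; norm_num
      rw [Finset.sum_congr rfl h3, Finset.sum_sub_distrib, Finset.sum_const, hC, Finset.sum_ite_eq', if_pos hu]
      norm_num
    rw [e1, e2, e3]; norm_num
  have h2 : ∀ u ∈ C, ∀ v ∈ C, u ≠ v → ∑ x ∈ univ \ C, I x u * I x v = 27 := by
    intro u hu v hv huv
    have e1 : ∑ x ∈ univ \ C, I x u * I x v = ∑ x, I x u * I x v - ∑ x ∈ C, I x u * I x v := by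
      rw [← Finset.sum_sdiff (Finset.subset_univ C)]; ring
    have e2 : ∑ x, I x u * I x v = 30 := by
      have := hP.l u v (hadj u hu v hv huv)
      rw [Finset.card_filter] at this
      have h3 : ∑ x, I x u * I x v = ((∑ y, if Γ.Adj u y ∧ Γ.Adj v y then 1 else 0 : ℕ) : ℤ) := by
        push_cast
        exact Finset.sum_congr rfl fun x _ => by rw [hII]; simp only [Γ.adj_comm x u, Γ.adj_comm x v]
      rw [h3, this]; rfl
    have e3 : ∑ x ∈ C, I x u * I x v = 3 := by
      have h3 : ∀ x ∈ C, I x u * I x v = 1 - (if x = u then 1 else 0) - (if x = v then 1 else 0) := by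
        intro x hx
        by_cases h : x = u
        · subst h; simp [hI, huv]
        · by_cases h' : x = v
          · subst h'; simp [hI, h]
          · simp only [hI, if_pos (hadj x hx u hu h), if_neg h, if_pos (hadj x hx v hv h'), if_neg h']; norm_num
      rw [Finset.sum_congr rfl h3, Finset.sum_sub_distrib, Finset.sum_sub_distrib, Finset.sum_const, hC,
        Finset.sum_ite_eq', if_pos hu, Finset.sum_ite_eq', if_pos hv]
      norm_num
    rw [e1, e2, e3]; norm_num
  -- sums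
  have s1 : ∑ x ∈ univ \ C, ∑ u ∈ C, I x u = 540 := by
    rw [Finset.sum_comm, Finset.sum_congr rfl h1, Finset.sum_const, hC]; norm_num
  have s2 : ∑ x ∈ univ \ C, (∑ u ∈ C, I x u) ^ 2 = 1080 := by
    have e1 : ∀ x ∈ univ \ C, (∑ u ∈ C, I x u) ^ 2 = ∑ u ∈ C, ∑ v ∈ C, I x u * I x v := by
      intro x _
      rw [sq, Finset.sum_mul_sum]
    rw [Finset.sum_congr rfl e1, Finset.sum_comm]
    have e2 : ∀ u ∈ C, ∑ x ∈ univ \ C, ∑ v ∈ C, I x u * I x v = 216 := by
      intro u hu
      rw [Finset.sum_comm]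
      have e3 : ∀ v ∈ C, ∑ x ∈ univ \ C, I x u * I x v = 27 + (if v = u then 81 else 0) := by
        intro v hv
        by_cases h : v = u
        · subst h
          rw [if_pos rfl]
          have e4 : ∀ x ∈ univ \ C, I x v * I x v = I x v := by
            intro x _
            simp only [hI]
            by_cases h5 : Γ.Adj x v <;> simp [h5]
          rw [Finset.sum_congr rfl e4, h1 v hv]; norm_num
        · rw [if_neg h, h2 u hu v hv (Ne.symm h)]; norm_num
      rw [Finset.sum_congr rfl e3, Finset.sum_add_distrib, Finset.sum_const, hC, Finset.sum_ite_eq', if_pos hu]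
      norm_num
    rw [Finset.sum_congr rfl e2, Finset.sum_const, hC]; norm_num
  have hcard : (univ \ C).card = 270 := by
    rw [Finset.card_sdiff_of_subset (Finset.subset_univ C), Finset.card_univ, hP.n, hC]
  have s3 : ∑ x ∈ univ \ C, (∑ u ∈ C, I x u - 2) ^ 2 = 0 := by
    have e1 : ∀ x ∈ univ \ C, (∑ u ∈ C, I x u - 2) ^ 2 = (∑ u ∈ C, I x u) ^ 2 - 4 * (∑ u ∈ C, I x u) + 4 := by
      intro x _; ring
    rw [Finset.sum_congr rfl e1, Finset.sum_add_distrib, Finset.sum_sub_distrib, ← Finset.mul_sum, s1, s2,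
      Finset.sum_const, hcard]
    norm_num
  have h3 := (Finset.sum_eq_zero_iff_of_nonneg (fun x _ => sq_nonneg _)).1 s3 x
    (Finset.mem_sdiff.2 ⟨Finset.mem_univ _, hx⟩)
  have h4 : ∑ u ∈ C, I x u = 2 := by
    have := pow_eq_zero_iff (two_ne_zero) |>.1 h3
    linarith
  have h5 := hn x
  rw [h4] at h5
  exact_mod_cast h5

end

section

variable {Ω : Type*} [Fintype Ω] [DecidableEq Ω] {Γ : SimpleGraph Ω} [DecidableRel Γ.Adj]
variable (G : Subgroup (Equiv.Perm Ω)) (a : Ω)
variable {pt : Fin 275 → leechLattice} (hpt : ∀ i : Fin 275, Pt cd i (pt i))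

/-- correspondence of the first neighbourhoods -/
structure Cor (Γ : SimpleGraph Ω) (ψ : Fin 275 → Ω) : Prop where
  inj : ∀ p q : Fin 275, x1 p = true → x1 q = true → ψ p = ψ q → p = q
  nb : ∀ p, x1 p = true → Γ.Adj a (ψ p)
  eqv : ∀ s : S, ∃ g : G, g • a = a ∧ ∀ p, x1 p = true → g • ψ p = ψ (rS hpt s p)

variable {G} {a} (hP : Par Γ) (hG : ∀ (g : G) (x y : Ω), Γ.Adj (g • x) (g • y) ↔ Γ.Adj x y)
variable {ψ : Fin 275 → Ω} (hψ : Cor G a hpt Γ ψ)

include hψ hP

theorem Cor.surj {y : Ω} (hy : Γ.Adj a y) : ∃ p, x1 p = true ∧ ψ p = y := by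
  have h1 : (univ.filter fun p : Fin 275 => x1 p = true).image ψ = univ.filter fun y => Γ.Adj a y := by
    apply Finset.eq_of_subset_of_card_le
    · intro z hz
      rw [Finset.mem_image] at hz
      obtain ⟨p, hp, rfl⟩ := hz
      rw [Finset.mem_filter] at hp ⊢
      exact ⟨Finset.mem_univ _, hψ.nb p hp.2⟩
    · rw [hP.k, Finset.card_image_of_injOn, cnt1]
      intro p hp q hq h
      rw [Finset.mem_coe, Finset.mem_filter] at hp hq
      exact hψ.inj p q hp.2 hq.2 h
  have h2 : y ∈ univ.filter fun y => Γ.Adj a y := by rw [Finset.mem_filter]; exact ⟨Finset.mem_univ _, hy⟩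
  rw [← h1, Finset.mem_image] at h2
  obtain ⟨p, hp, h3⟩ := h2
  rw [Finset.mem_filter] at hp
  exact ⟨p, hp.2, h3⟩

/-- counting through the correspondence -/
theorem Cor.count (f : Ω → Prop) [DecidablePred f] :
    (univ.filter fun p : Fin 275 => x1 p = true ∧ f (ψ p)).card = (univ.filter fun y => Γ.Adj a y ∧ f y).card := by
  rw [← Finset.card_image_of_injOn (f := ψ)]
  · congr 1
    ext y
    rw [Finset.mem_image, Finset.mem_filter]
    constructor
    · rintro ⟨p, hp, rfl⟩
      rw [Finset.mem_filter] at hp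
      exact ⟨Finset.mem_univ _, hψ.nb p hp.2.1, hp.2.2⟩
    · rintro ⟨-, h1, h2⟩
      obtain ⟨p, hp, rfl⟩ := hψ.surj hpt hP h1
      exact ⟨p, by rw [Finset.mem_filter]; exact ⟨Finset.mem_univ _, hp, h2⟩, rfl⟩
  · intro p hp q hq h
    rw [Finset.mem_coe, Finset.mem_filter] at hp hq
    exact hψ.inj p q hp.2.1 hq.2.1 h

include hG

theorem Cor.adj {p q : Fin 275} (hp : x1 p = true) (hq : x1 q = true) : Γ.Adj (ψ p) (ψ q) ↔ A0 p q = true := by
  have hF : ∀ p, x1 p = true → (univ.filter fun q : Fin 275 => x1 q = true ∧ Γ.Adj (ψ p) (ψ q)).card = 30 := by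
    intro p hp
    rw [hψ.count hpt hP (fun y => Γ.Adj (ψ p) y)]
    exact hP.l a (ψ p) (hψ.nb p hp)
  have hno : ∀ p q, x1 p = true → x1 q = true → Γ.Adj (ψ p) (ψ q) → A0 p q = true := by
    intro p q hp hq hadj
    by_contra hcon
    have hA : A0 p q = false := by simpa using hcon
    have hne : q ≠ p := by rintro rfl; exact Γ.loopless.irrefl _ hadj
    obtain ⟨s1, s11, s12⟩ := pair1n hpt hp hq hne hA
    have h1 : (univ.filter fun y : Fin 275 => (x1 y && !A0 22 y) = true) ⊆
        insert 22 (univ.filter fun q : Fin 275 => x1 q = true ∧ Γ.Adj (ψ 22) (ψ q)) := by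
      intro y hy
      rw [Finset.mem_filter, Bool.and_eq_true, Bool.not_eq_true'] at hy
      obtain ⟨-, hy1, hy2⟩ := hy
      rw [Finset.mem_insert]
      by_cases h22 : y = 22
      · left; exact h22
      right
      rw [Finset.mem_filter]
      refine ⟨Finset.mem_univ _, hy1, ?_⟩
      obtain ⟨s2, s21, s22⟩ := pair1n hpt (p := 22) facts.1 hy1 h22 hy2
      obtain ⟨g, -, hg⟩ := hψ.eqv (s2 * s1⁻¹)
      have e1 : rS hpt (s2 * s1⁻¹) p = 22 := by
        rw [map_mul, Equiv.Perm.mul_apply, ← s11, ← Equiv.Perm.mul_apply (rS hpt s1⁻¹), ← map_mul, inv_mul_cancel, map_one,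
          Equiv.Perm.one_apply, s21]
      have e2 : rS hpt (s2 * s1⁻¹) q = y := by
        rw [map_mul, Equiv.Perm.mul_apply, ← s12, ← Equiv.Perm.mul_apply (rS hpt s1⁻¹), ← map_mul, inv_mul_cancel, map_one,
          Equiv.Perm.one_apply, s22]
      have h3 := (hG g (ψ p) (ψ q)).2 hadj
      rw [hg p hp, hg q hq, e1, e2] at h3
      exact h3
    have h2 := Finset.card_le_card h1
    have h3 := Finset.card_insert_le 22 (univ.filter fun q : Fin 275 => x1 q = true ∧ Γ.Adj (ψ 22) (ψ q))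
    rw [hF 22 facts.1] at h3
    rw [cnt2] at h2
    omega
  have hsub : (univ.filter fun q : Fin 275 => x1 q = true ∧ Γ.Adj (ψ p) (ψ q)) =
      univ.filter fun y : Fin 275 => (x1 y && A0 p y) = true := by
    apply Finset.eq_of_subset_of_card_le
    · intro y hy
      rw [Finset.mem_filter] at hy ⊢
      rw [Bool.and_eq_true]
      exact ⟨Finset.mem_univ _, hy.2.1, hno p y hp hy.2.1 hy.2.2⟩
    · rw [hF p hp, cnt3 p hp]
  constructor
  · exact hno p q hp hq
  · intro h
    have h1 : q ∈ univ.filter fun y : Fin 275 => (x1 y && A0 p y) = true := by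
      rw [Finset.mem_filter, Bool.and_eq_true]; exact ⟨Finset.mem_univ _, hq, h⟩
    rw [← hsub, Finset.mem_filter] at h1
    exact h1.2.2

/-- lines meet the trace of a vertex in two points -/
theorem Cor.line {c : Ω} (hc : c ≠ a) (hc' : ¬ Γ.Adj a c) {M : ℕ → Bool}
    (hM : ∀ p : Fin 275, x1 p = true → (M p = true ↔ Γ.Adj (ψ p) c)) :
    ∀ q ∈ lrL, (M q.1).toNat + (M q.2.1).toNat + ((M q.2.2.1).toNat + (M q.2.2.2).toNat) = 2 := by
  intro q hq
  have h4 := List.all_eq_true.1 lr_ok q hq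
  simp only [Bool.and_eq_true, Nat.blt_eq] at h4
  obtain ⟨⟨⟨⟨⟨a1, a2⟩, a3⟩, a4⟩, ⟨⟨⟨⟨⟨c1, c2⟩, c3⟩, c4⟩, c5⟩, c6⟩⟩, ⟨⟨b1, b2⟩, b3⟩, b4⟩ := h4
  set q1 : Fin 275 := ⟨q.1, b1⟩ with e1
  set q2 : Fin 275 := ⟨q.2.1, b2⟩ with e2
  set q3 : Fin 275 := ⟨q.2.2.1, b3⟩ with e3
  set q4 : Fin 275 := ⟨q.2.2.2, b4⟩ with e4
  have x1q : x1 q1 = true := a1
  have x2q : x1 q2 = true := a2
  have x3q : x1 q3 = true := a3
  have x4q : x1 q4 = true := a4
  have d12 := (hψ.adj hpt hP hG x1q x2q).2 c1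
  have d13 := (hψ.adj hpt hP hG x1q x3q).2 c2
  have d14 := (hψ.adj hpt hP hG x1q x4q).2 c3
  have d23 := (hψ.adj hpt hP hG x2q x3q).2 c4
  have d24 := (hψ.adj hpt hP hG x2q x4q).2 c5
  have d34 := (hψ.adj hpt hP hG x3q x4q).2 c6
  have n1 := hψ.nb q1 x1q
  have n2 := hψ.nb q2 x2q
  have n3 := hψ.nb q3 x3q
  have n4 := hψ.nb q4 x4q
  have ne := fun {x y : Ω} (h : Γ.Adj x y) => h.ne
  have hcard : ({a, ψ q1, ψ q2, ψ q3, ψ q4} : Finset Ω).card = 5 := by
    rw [Finset.card_insert_of_notMem, Finset.card_insert_of_notMem, Finset.card_insert_of_notMem,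
      Finset.card_insert_of_notMem, Finset.card_singleton]
    · rw [Finset.mem_singleton]; exact d34.ne
    · simp only [Finset.mem_insert, Finset.mem_singleton, not_or]; exact ⟨d23.ne, d24.ne⟩
    · simp only [Finset.mem_insert, Finset.mem_singleton, not_or]; exact ⟨d12.ne, d13.ne, d14.ne⟩
    · simp only [Finset.mem_insert, Finset.mem_singleton, not_or]; exact ⟨n1.ne, n2.ne, n3.ne, n4.ne⟩
  have h5 := clique5 hP {a, ψ q1, ψ q2, ψ q3, ψ q4} hcard (by
    intro x hx y hy hxy
    simp only [Finset.mem_insert, Finset.mem_singleton] at hx hy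
    rcases hx with rfl | rfl | rfl | rfl | rfl <;> rcases hy with rfl | rfl | rfl | rfl | rfl <;>
      first
        | exact absurd rfl hxy
        | assumption
        | (apply Γ.symm.symm; assumption)) c (by
    simp only [Finset.mem_insert, Finset.mem_singleton, not_or]
    refine ⟨hc, ?_, ?_, ?_, ?_⟩
    · rintro rfl; exact hc' n1
    · rintro rfl; exact hc' n2
    · rintro rfl; exact hc' n3
    · rintro rfl; exact hc' n4)
  have t : ∀ p : Fin 275, x1 p = true → (M p).toNat = if Γ.Adj c (ψ p) then 1 else 0 := by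
    intro p hp
    by_cases h : Γ.Adj c (ψ p)
    · rw [if_pos h, (hM p hp).2 h.symm]; rfl
    · rw [if_neg h]
      cases hh : M p with
      | false => rfl
      | true => exact absurd ((hM p hp).1 hh).symm h
  have t1 := t q1 x1q
  have t2 := t q2 x2q
  have t3 := t q3 x3q
  have t4 := t q4 x4q
  rw [Finset.card_filter, Finset.sum_insert, Finset.sum_insert, Finset.sum_insert, Finset.sum_insert, Finset.sum_singleton,
    if_neg (fun h : Γ.Adj c a => hc' h.symm), zero_add, ← t1, ← t2, ← t3, ← t4] at h5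
  · show (M q1).toNat + (M q2).toNat + ((M q3).toNat + (M q4).toNat) = 2
    omega
  · rw [Finset.mem_singleton]; exact d34.ne
  · simp only [Finset.mem_insert, Finset.mem_singleton, not_or]; exact ⟨d23.ne, d24.ne⟩
  · simp only [Finset.mem_insert, Finset.mem_singleton, not_or]; exact ⟨d12.ne, d13.ne, d14.ne⟩
  · simp only [Finset.mem_insert, Finset.mem_singleton, not_or]; exact ⟨n1.ne, n2.ne, n3.ne, n4.ne⟩

end

end Cfsg.Agent.MLin.Rk
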