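import Cfsg.Agent.MLin.RkG1

/-!
Extension of the correspondence (owner: helper7).
-/
set_option autoImplicit false
set_option maxRecDepth 1000000
set_option linter.unusedSectionVars false

namespace Cfsg.Agent.MLin.Rk

open Cfsg Cfsg.Agent Cfsg.Agent.Leech Cfsg.Agent.PermTab Cfsg.Agent.CosetEnum Cfsg.Agent.MulX Cfsg.Agent.MLin
  Cfsg.Agent.MLin.Lat Cfsg.Agent.MLin.U43St Cfsg.Agent.LeechSimple MulAction Finset

theorem al_spec {j : ℕ} (hj : j < 4) {p : ℕ} (hp : p < 275) : alA j p < 275 ∧ aiA j p < 275 ∧ aiA j (alA j p) = p ∧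
    alA j (aiA j p) = p ∧ (A0 21 p = true → A0 21 (alA j p) = true ∧ A0 21 (aiA j p) = true ∧
      (mo j).testBit (oi p) = A0 220 (alA j p) ∧
      ∀ l < 6, aiA j (tget 9 (gt l) p) = app ((cw j).getD l []) (aiA j p)) := by
  have h := (nall_iff _ _).1 ((nall_iff _ _).1 al_ok j hj) p hp
  rw [Bool.and_eq_true, Bool.and_eq_true, Bool.and_eq_true, Bool.and_eq_true, Bool.or_eq_true, Bool.and_eq_true,
    Bool.and_eq_true, Bool.and_eq_true] at h
  obtain ⟨h1, h2, h3, h4, h5⟩ := h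
  refine ⟨Nat.lt_of_succ_le (Nat.le_of_ble_eq_true h1), Nat.lt_of_succ_le (Nat.le_of_ble_eq_true h2),
    Nat.eq_of_beq_eq_true h3, Nat.eq_of_beq_eq_true h4, ?_⟩
  intro hA
  rcases h5 with h5 | ⟨⟨h5, h6⟩, h7, h8⟩
  · rw [hA] at h5; exact absurd h5 (by decide)
  · refine ⟨h5, h6, ?_, fun l hl => Nat.eq_of_beq_eq_true ((nall_iff _ _).1 h8 l hl)⟩
    have h9 := Nat.eq_of_beq_eq_true h7
    unfold A0
    rw [← h9, Nat.testBit_eq_decide_div_mod_eq]
    show decide (mo j / 2 ^ oi p % 2 = 1) = Nat.beq (mo j / 2 ^ oi p % 2) 1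
    cases hb : Nat.beq (mo j / 2 ^ oi p % 2) 1 with
    | true => rw [decide_eq_true_iff]; exact Nat.eq_of_beq_eq_true hb
    | false =>
      rw [decide_eq_false_iff_not]
      intro h; rw [h] at hb; exact absurd hb (by decide)

/-- the inverse of an outer automorphism -/
def aiF (j : ℕ) (hj : j < 4) (p : Fin 275) : Fin 275 := ⟨aiA j p, (al_spec hj p.2).2.1⟩

theorem x1_ai {j : ℕ} (hj : j < 4) {p : Fin 275} (hp : x1 p = true) : x1 (aiF j hj p) = true :=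
  ((al_spec hj p.2).2.2.2.2 hp).2.1

section

variable {Ω : Type*} [Fintype Ω] [DecidableEq Ω] {Γ : SimpleGraph Ω} [DecidableRel Γ.Adj]
variable {G : Subgroup (Equiv.Perm Ω)} {a : Ω}
variable {pt : Fin 275 → leechLattice} (hpt : ∀ i : Fin 275, Pt cd i (pt i))
variable (hP : Par Γ) (hG : ∀ (g : G) (x y : Ω), Γ.Adj (g • x) (g • y) ↔ Γ.Adj x y)
variable {ψ : Fin 275 → Ω} (hψ : Cor G a hpt Γ ψ)

/-- elements compatible with an outer automorphism -/
def nrm (j : ℕ) (hj : j < 4) : Subgroup S where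
  carrier := {s | ∃ s' : S, ∀ p, x1 p = true → rS hpt s' (aiF j hj p) = aiF j hj (rS hpt s p)}
  one_mem' := ⟨1, fun p _ => by rw [map_one]; rfl⟩
  mul_mem' := by
    rintro s t ⟨s', hs⟩ ⟨t', ht⟩
    refine ⟨s' * t', fun p hp => ?_⟩
    have h1 : x1 (rS hpt t p) = true := by
      show A0 21 _ = true
      rw [rS_X1 hpt]; exact hp
    rw [map_mul, map_mul, Equiv.Perm.mul_apply, Equiv.Perm.mul_apply, ht p hp, hs _ h1]
  inv_mem' := by
    rintro s ⟨s', hs⟩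
    refine ⟨s'⁻¹, fun p hp => ?_⟩
    have h1 : x1 (rS hpt s⁻¹ p) = true := by
      show A0 21 _ = true
      rw [rS_X1 hpt]; exact hp
    have h2 := hs _ h1
    have e : rS hpt s (rS hpt s⁻¹ p) = p := by
      rw [← Equiv.Perm.mul_apply, ← map_mul, mul_inv_cancel, map_one]; rfl
    rw [e] at h2
    rw [← h2, ← Equiv.Perm.mul_apply, ← map_mul, inv_mul_cancel, map_one]; rfl

theorem nrm_top (j : ℕ) (hj : j < 4) : nrm hpt j hj = ⊤ := by
  obtain ⟨h, hh, hc⟩ := exists_h hpt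
  rw [eq_top_iff, ← hc, Subgroup.closure_le]
  rintro _ ⟨l, hl, rfl⟩
  have hl' : l < 6 := hl
  have hw := (nall_iff _ _).1 ((nall_iff _ _).1 cw_ok j hj) l hl'
  refine ⟨(((cw j).getD l []).map h).prod, fun p hp => ?_⟩
  apply Fin.ext
  rw [rS_word hpt hh _ hw]
  show app ((cw j).getD l []) (aiA j p) = aiA j (rS hpt (h l) p : Fin 275)
  rw [hh l hl', ((al_spec hj p.2).2.2.2.2 hp).2.2.2 l hl']

include hψ

theorem Cor.twist {j : ℕ} (hj : j < 4) : Cor G a hpt Γ (fun p => ψ (aiF j hj p)) where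
  inj := by
    intro p q hp hq h
    have h1 := hψ.inj _ _ (x1_ai hj hp) (x1_ai hj hq) h
    have h2 : aiA j p = aiA j q := congrArg Fin.val h1
    apply Fin.ext
    rw [← (al_spec hj p.2).2.2.2.1, h2, (al_spec hj q.2).2.2.2.1]
  nb := fun p hp => hψ.nb _ (x1_ai hj hp)
  eqv := by
    intro s
    have h1 : s ∈ nrm hpt j hj := by rw [nrm_top]; exact Subgroup.mem_top s
    obtain ⟨s', hs'⟩ := h1
    obtain ⟨g, g1, g2⟩ := hψ.eqv s'
    refine ⟨g, g1, fun p hp => ?_⟩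
    show g • ψ (aiF j hj p) = ψ (aiF j hj (rS hpt s p))
    rw [g2 _ (x1_ai hj hp), hs' p hp]

omit hψ in
theorem twist_trace {j : ℕ} (hj : j < 4) {c : Ω} {M : ℕ → Bool}
    (hM : ∀ p : Fin 275, x1 p = true → (M p = true ↔ Γ.Adj (ψ p) c))
    (hj' : ∀ p < 275, A0 21 p = true → M p = (mo j).testBit (oi p)) {p : Fin 275} (hp : x1 p = true) :
    Γ.Adj (ψ (aiF j hj p)) c ↔ A0 220 p = true := by
  obtain ⟨-, h2, -, h4, h5⟩ := al_spec hj p.2
  obtain ⟨-, h6, -, -⟩ := h5 hp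
  have h7 := (al_spec hj h2).2.2.2.2 h6
  rw [← hM (aiF j hj p) h6]
  show M (aiA j p) = true ↔ _
  rw [hj' _ h2 h6, h7.2.2.1, h4]

end

end Cfsg.Agent.MLin.Rk
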