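import Cfsg.Agent.MLin.RkG2

/-!
The isomorphism of graphs (owner: helper7).
-/
set_option autoImplicit false
set_option maxRecDepth 1000000
set_option linter.unusedSectionVars false

namespace Cfsg.Agent.MLin.Rk

open Cfsg Cfsg.Agent Cfsg.Agent.Leech Cfsg.Agent.PermTab Cfsg.Agent.CosetEnum Cfsg.Agent.MulX Cfsg.Agent.MLin
  Cfsg.Agent.MLin.Lat Cfsg.Agent.MLin.U43St Cfsg.Agent.LeechSimple MulAction Finset

theorem x2_iff (i : Fin 275) : x2 i = true ↔ A0 21 i = false ∧ i ≠ 21 := by
  unfold x2
  rw [Bool.and_eq_true, Bool.not_eq_true', Bool.not_eq_true']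
  constructor
  · rintro ⟨h1, h2⟩
    refine ⟨h1, ?_⟩
    rintro rfl
    exact absurd h2 (by decide)
  · rintro ⟨h1, h2⟩
    refine ⟨h1, ?_⟩
    cases h : Nat.beq (i : ℕ) 21 with
    | false => rfl
    | true => exact absurd (Fin.ext (Nat.eq_of_beq_eq_true h)) h2

section

variable {Ω : Type*} [Fintype Ω] [DecidableEq Ω] {Γ : SimpleGraph Ω} [DecidableRel Γ.Adj]
variable {G : Subgroup (Equiv.Perm Ω)} {a : Ω}
variable {pt : Fin 275 → leechLattice} (hpt : ∀ i : Fin 275, Pt cd i (pt i))
variable (hP : Par Γ) (hG : ∀ (g : G) (x y : Ω), Γ.Adj (g • x) (g • y) ↔ Γ.Adj x y)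
variable {ψ : Fin 275 → Ω} (hψ : Cor G a hpt Γ ψ)

include hP hG hψ

set_option maxHeartbeats 1000000 in
theorem Cor.extend {c : Ω} (hc : c ≠ a) (hc' : ¬ Γ.Adj a c)
    (hM : ∀ p : Fin 275, x1 p = true → (Γ.Adj (ψ p) c ↔ A0 220 p = true)) : Nonempty (Γ0 ≃g Γ) := by
  classical
  have rinv : ∀ (s : S) (p : Fin 275), rS hpt s (rS hpt s⁻¹ p) = p := by
    intro s p
    rw [← Equiv.Perm.mul_apply, ← map_mul, mul_inv_cancel, map_one]; rfl
  have rinv' : ∀ (s : S) (p : Fin 275), rS hpt s⁻¹ (rS hpt s p) = p := by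
    intro s p
    rw [← Equiv.Perm.mul_apply, ← map_mul, inv_mul_cancel, map_one]; rfl
  have x1r : ∀ (s : S) (p : Fin 275), x1 p = true → x1 (rS hpt s p) = true := by
    intro s p hp
    show A0 21 _ = true
    rw [rS_X1 hpt]; exact hp
  have x2r : ∀ (s : S) (p : Fin 275), x2 p = true → x2 (rS hpt s p) = true := by
    intro s p hp
    rw [x2_iff] at hp ⊢
    refine ⟨by rw [rS_X1 hpt]; exact hp.1, ?_⟩
    intro h
    rw [← rS_21 hpt s] at h
    exact hp.2 ((rS hpt s).injective h)
  -- the images of the second neighbours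
  have hex : ∀ i : Fin 275, ∃ y : Ω, x2 i = true → y ≠ a ∧ ¬ Γ.Adj a y ∧ ∀ p, x1 p = true → (Γ.Adj (ψ p) y ↔ A0 i p = true) := by
    intro i
    by_cases hi : x2 i = true
    · rw [x2_iff] at hi
      obtain ⟨s, hs⟩ := tr2 hpt hi.1 hi.2
      obtain ⟨g, g1, g2⟩ := hψ.eqv s
      refine ⟨g • c, fun _ => ⟨?_, ?_, ?_⟩⟩
      · intro h
        rw [← g1] at h
        exact hc (MulAction.injective g h)
      · intro h
        rw [← g1, hG] at h
        exact hc' h
      · intro p hp
        have h1 := x1r s⁻¹ p hp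
        have h2 := g2 _ h1
        rw [rinv] at h2
        rw [← h2, hG, hM _ h1]
        have h3 := rS_A0 hpt s 220 (rS hpt s⁻¹ p)
        rw [rinv, hs] at h3
        rw [h3]; exact Iff.rfl
    · exact ⟨a, fun h => absurd h hi⟩
  choose ω hω using hex
  -- the map
  set Ψ : Fin 275 → Ω := fun i => if i = 21 then a else if x1 i = true then ψ i else ω i with hΨ
  have P0 : Ψ 21 = a := by simp only [hΨ, if_true]
  have ne21 : ∀ p : Fin 275, x1 p = true → p ≠ 21 := by
    rintro p hp rfl
    have h1 : A0 (21 : Fin 275) (21 : Fin 275) = true := hp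
    rw [A0_self] at h1
    exact absurd h1 (by decide)
  have P1 : ∀ p, x1 p = true → Ψ p = ψ p := fun p hp => by simp only [hΨ, if_neg (ne21 p hp), if_pos hp]
  have P2 : ∀ i, x2 i = true → Ψ i = ω i := fun i hi => by
    rw [x2_iff] at hi
    have : ¬ x1 i = true := by
      show ¬ A0 21 i = true
      rw [hi.1]; decide
    simp only [hΨ, if_neg hi.2, if_neg this]
  have tri : ∀ i : Fin 275, i = 21 ∨ x1 i = true ∨ x2 i = true := by
    intro i
    by_cases h1 : i = 21
    · left; exact h1
    · right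
      by_cases h2 : x1 i = true
      · left; exact h2
      · right
        rw [x2_iff]
        refine ⟨?_, h1⟩
        have h3 : ¬ A0 21 i = true := h2
        simpa using h3
  have ωinj : ∀ i j, x2 i = true → x2 j = true → ω i = ω j → i = j := by
    intro i j hi hj h
    apply dist i j hi hj
    intro p hp
    have h1 := (hω i hi).2.2 p hp
    have h2 := (hω j hj).2.2 p hp
    rw [h] at h1
    exact Bool.eq_iff_iff.2 (h1.symm.trans h2)
  have inj : Function.Injective Ψ := by
    intro i j h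
    rcases tri i with rfl | hi | hi <;> rcases tri j with rfl | hj | hj
    · rfl
    · rw [P0, P1 j hj] at h
      exact absurd h (hψ.nb j hj).ne
    · rw [P0, P2 j hj] at h
      exact absurd h.symm (hω j hj).1
    · rw [P0, P1 i hi] at h
      exact absurd h.symm (hψ.nb i hi).ne
    · rw [P1 i hi, P1 j hj] at h
      exact hψ.inj i j hi hj h
    · rw [P1 i hi, P2 j hj] at h
      exact absurd (h ▸ hψ.nb i hi) (hω j hj).2.1
    · rw [P0, P2 i hi] at h
      exact absurd h (hω i hi).1
    · rw [P2 i hi, P1 j hj] at h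
      exact absurd (h ▸ hψ.nb j hj) (hω i hi).2.1
    · rw [P2 i hi, P2 j hj] at h
      exact ωinj i j hi hj h
  have bij : Function.Bijective Ψ := by
    rw [Fintype.bijective_iff_injective_and_card]
    exact ⟨inj, by rw [Fintype.card_fin, hP.n]⟩
  -- uniqueness
  have uniq : ∀ y : Ω, y ≠ a → ¬ Γ.Adj a y → ∀ i, x2 i = true → (∀ p, x1 p = true → (Γ.Adj (ψ p) y ↔ A0 i p = true)) → y = ω i := by
    intro y hy1 hy2 i hi hy3
    obtain ⟨k, rfl⟩ := bij.2 y
    rcases tri k with rfl | hk | hk
    · exact absurd P0 hy1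
    · rw [P1 k hk] at hy2
      exact absurd (hψ.nb k hk) hy2
    · rw [P2 k hk] at hy3 ⊢
      congr 1
      apply dist k i hk hi
      intro p hp
      have h1 := (hω k hk).2.2 p hp
      have h2 := hy3 p hp
      exact Bool.eq_iff_iff.2 (h1.symm.trans h2)
  -- equivariance
  have eqv2 : ∀ (s : S) (g : G), g • a = a → (∀ p, x1 p = true → g • ψ p = ψ (rS hpt s p)) → ∀ i, x2 i = true →
      g • ω i = ω (rS hpt s i) := by
    intro s g g1 g2 i hi
    obtain ⟨w1, w2, w3⟩ := hω i hi
    apply uniq _ _ _ _ (x2r s i hi)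
    · intro p hp
      have h1 := x1r s⁻¹ p hp
      have h2 := g2 _ h1
      rw [rinv] at h2
      rw [← h2, hG, w3 _ h1]
      have h3 := rS_A0 hpt s i (rS hpt s⁻¹ p)
      rw [rinv] at h3
      rw [h3]
    · intro h
      rw [← g1] at h
      exact w1 (MulAction.injective g h)
    · intro h
      rw [← g1, hG] at h
      exact w2 h
  -- counting in the second neighbourhood
  have cntR : ∀ i, x2 i = true → (univ.filter fun j : Fin 275 => x2 j = true ∧ Γ.Adj (ω i) (ω j)).card = 56 := by
    intro i hi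
    obtain ⟨w1, w2, w3⟩ := hω i hi
    have h1 : (univ.filter fun j : Fin 275 => x2 j = true ∧ Γ.Adj (ω i) (ω j)).card =
        (univ.filter fun y => Γ.Adj (ω i) y ∧ ¬ Γ.Adj a y).card := by
      rw [← Finset.card_image_of_injOn (f := Ψ)]
      · congr 1
        ext y
        rw [Finset.mem_image, Finset.mem_filter]
        constructor
        · rintro ⟨j, hj, rfl⟩
          rw [Finset.mem_filter] at hj
          rw [P2 j hj.2.1]
          exact ⟨Finset.mem_univ _, hj.2.2, (hω j hj.2.1).2.1⟩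
        · rintro ⟨-, h2, h3⟩
          obtain ⟨j, rfl⟩ := bij.2 y
          rcases tri j with rfl | hj | hj
          · rw [P0] at h2
            exact absurd h2.symm w2
          · rw [P1 j hj] at h3
            exact absurd (hψ.nb j hj) h3
          · refine ⟨j, ?_, rfl⟩
            rw [P2 j hj] at h2
            rw [Finset.mem_filter]
            exact ⟨Finset.mem_univ _, hj, h2⟩
      · intro i _ j _ h; exact inj h
    rw [h1]
    have h2 := Finset.card_filter_add_card_filter_not (s := univ.filter fun y => Γ.Adj (ω i) y) (p := fun y => Γ.Adj a y)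
    rw [hP.k, Finset.filter_filter, Finset.filter_filter] at h2
    have h3 := hP.m (ω i) a w1 (fun h => w2 h.symm)
    rw [h3] at h2
    omega
  have hno : ∀ i j, x2 i = true → x2 j = true → Γ.Adj (ω i) (ω j) → A0 i j = true := by
    intro i j hi hj hadj
    by_contra hcon
    have hA : A0 i j = false := by simpa using hcon
    have hne : j ≠ i := by rintro rfl; exact Γ.loopless.irrefl _ hadj
    have hi' := (x2_iff i).1 hi
    have hj' := (x2_iff j).1 hj
    obtain ⟨s1, s11, s12⟩ := pair2n hpt hi'.1 hi'.2 hj'.1 hj'.2 hne hA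
    have h1 : (univ.filter fun y : Fin 275 => (x2 y && !A0 220 y) = true) ⊆
        insert 220 (univ.filter fun q : Fin 275 => x2 q = true ∧ Γ.Adj (ω 220) (ω q)) := by
      intro y hy
      rw [Finset.mem_filter, Bool.and_eq_true, Bool.not_eq_true'] at hy
      obtain ⟨-, hy1, hy2⟩ := hy
      rw [Finset.mem_insert]
      by_cases h22 : y = 220
      · left; exact h22
      right
      rw [Finset.mem_filter]
      refine ⟨Finset.mem_univ _, hy1, ?_⟩
      have h220 : x2 220 = true := facts.2.2.2.2.2.1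
      have h220' := (x2_iff 220).1 h220
      have hy' := (x2_iff y).1 hy1
      obtain ⟨s2, s21, s22⟩ := pair2n hpt (p := 220) h220'.1 h220'.2 hy'.1 hy'.2 h22 hy2
      obtain ⟨g, g1, hg⟩ := hψ.eqv (s2 * s1⁻¹)
      have e1 : rS hpt (s2 * s1⁻¹) i = 220 := by
        rw [map_mul, Equiv.Perm.mul_apply, ← s11, rinv', s21]
      have e2 : rS hpt (s2 * s1⁻¹) j = y := by
        rw [map_mul, Equiv.Perm.mul_apply, ← s12, rinv', s22]
      have h3 := (hG g (ω i) (ω j)).2 hadj
      rw [eqv2 _ g g1 hg i hi, eqv2 _ g g1 hg j hj, e1, e2] at h3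
      exact h3
    have h2 := Finset.card_le_card h1
    have h3 := Finset.card_insert_le 220 (univ.filter fun q : Fin 275 => x2 q = true ∧ Γ.Adj (ω 220) (ω q))
    rw [cntR 220 facts.2.2.2.2.2.1] at h3
    rw [cnt4] at h2
    omega
  have adj2 : ∀ i j, x2 i = true → x2 j = true → (Γ.Adj (ω i) (ω j) ↔ A0 i j = true) := by
    intro i j hi hj
    have hsub : (univ.filter fun q : Fin 275 => x2 q = true ∧ Γ.Adj (ω i) (ω q)) =
        univ.filter fun y : Fin 275 => (x2 y && A0 i y) = true := by
      apply Finset.eq_of_subset_of_card_le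
      · intro y hy
        rw [Finset.mem_filter] at hy ⊢
        rw [Bool.and_eq_true]
        exact ⟨Finset.mem_univ _, hy.2.1, hno i y hi hy.2.1 hy.2.2⟩
      · rw [cntR i hi, cnt5 i hi]
    constructor
    · exact hno i j hi hj
    · intro h
      have h1 : j ∈ univ.filter fun y : Fin 275 => (x2 y && A0 i y) = true := by
        rw [Finset.mem_filter, Bool.and_eq_true]; exact ⟨Finset.mem_univ _, hj, h⟩
      rw [← hsub, Finset.mem_filter] at h1
      exact h1.2.2
  -- adjacency
  refine ⟨⟨Equiv.ofBijective Ψ bij, ?_⟩⟩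
  intro i j
  show Γ.Adj (Ψ i) (Ψ j) ↔ A0 i j = true
  rcases tri i with rfl | hi | hi <;> rcases tri j with rfl | hj | hj
  · rw [A0_self]
    exact ⟨fun h => absurd h (Γ.loopless.irrefl _), fun h => absurd h (by decide)⟩
  · rw [P0, P1 j hj]
    exact ⟨fun _ => hj, fun _ => hψ.nb j hj⟩
  · rw [P0, P2 j hj]
    have := (x2_iff j).1 hj
    exact ⟨fun h => absurd h (hω j hj).2.1, fun h => absurd (this.1.symm.trans h) (by decide)⟩
  · rw [P0, P1 i hi, A0_symm]
    exact ⟨fun _ => hi, fun _ => (hψ.nb i hi).symm⟩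
  · rw [P1 i hi, P1 j hj]
    exact hψ.adj hpt hP hG hi hj
  · rw [P1 i hi, P2 j hj, A0_symm]
    exact (hω j hj).2.2 i hi
  · rw [P0, P2 i hi, A0_symm]
    have := (x2_iff i).1 hi
    exact ⟨fun h => absurd h.symm (hω i hi).2.1, fun h => absurd (this.1.symm.trans h) (by decide)⟩
  · rw [P2 i hi, P1 j hj, Γ.adj_comm]
    exact (hω i hi).2.2 j hj
  · rw [P2 i hi, P2 j hj]
    exact adj2 i j hi hj

end

end Cfsg.Agent.MLin.Rk
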