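import Cfsg.Agent.MLin.RkG3

/-!
The correspondence given by an isomorphism of point stabilisers (owner: helper7).
-/
set_option autoImplicit false
set_option maxRecDepth 1000000
set_option linter.unusedSectionVars false

open scoped Pointwise

namespace Cfsg.Agent.MLin.Rk

open Cfsg Cfsg.Agent Cfsg.Agent.Leech Cfsg.Agent.PermTab Cfsg.Agent.CosetEnum Cfsg.Agent.MulX Cfsg.Agent.MLin
  Cfsg.Agent.MLin.Lat Cfsg.Agent.MLin.U43St Cfsg.Agent.LeechSimple MulAction Finset

theorem s7_ok : nall (fun p => Nat.beq (app [2, 5] (app [2, 5] (app [2, 5] (app [2, 5] (app [2, 5] (app [2, 5] (app [2, 5] p))))))) p) 275 = true ∧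
    Nat.beq (app [2, 5] 22) 22 = false := by decide +kernel

section

variable {Ω : Type*} [Fintype Ω] [DecidableEq Ω] {Γ : SimpleGraph Ω} [DecidableRel Γ.Adj]
variable {G : Subgroup (Equiv.Perm Ω)} {a : Ω}
variable {pt : Fin 275 → leechLattice} (hpt : ∀ i : Fin 275, Pt cd i (pt i))

/-- the element of order seven -/
theorem exists_s7 : ∃ s : S, orderOf s = 7 ∧ ∀ i : Fin 275, ((rS hpt s i : Fin 275) : ℕ) = app [2, 5] i := by
  obtain ⟨s, hs⟩ := ex_word hpt [2, 5] (by decide)
  refine ⟨s, ?_, hs⟩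
  haveI : Fact (Nat.Prime 7) := ⟨by norm_num⟩
  apply orderOf_eq_prime
  · apply rS_inj hpt
    rw [map_one]
    ext1 i
    apply Fin.ext
    have h := (nall_iff _ _).1 s7_ok.1 i i.2
    have h' := Nat.eq_of_beq_eq_true h
    have e : ∀ x : Fin 275, ∀ y : ℕ, y = x → app [2, 5] y = (rS hpt s x : Fin 275) := by
      rintro x _ rfl; exact (hs x).symm
    have e1 := e i _ rfl
    have e2 := e _ _ e1
    have e3 := e _ _ e2
    have e4 := e _ _ e3
    have e5 := e _ _ e4
    have e6 := e _ _ e5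
    have e7 := e _ _ e6
    rw [e7] at h'
    have h8 : rS hpt (s ^ 7) i = rS hpt s (rS hpt s (rS hpt s (rS hpt s (rS hpt s (rS hpt s (rS hpt s i)))))) := by
      rw [map_pow]; rfl
    rw [h8, h']; rfl
  · intro h
    have h1 := hs 22
    rw [h, map_one] at h1
    have h2 : (22 : ℕ) = app [2, 5] 22 := h1
    have h3 := s7_ok.2
    rw [← h2] at h3
    exact absurd h3 (by decide)

variable (hP : Par Γ) (hG : ∀ (g : G) (x y : Ω), Γ.Adj (g • x) (g • y) ↔ Γ.Adj x y)
variable (θ : stabilizer G a ≃* S) {b c : Ω} (hb : (orbit (stabilizer G a) b).ncard = 112)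
variable (hc : (orbit (stabilizer G a) c).ncard = 162) (hadj : ∀ y, Γ.Adj a y ↔ y ∈ orbit (stabilizer G a) b)

include hb hadj

theorem exists_cor : ∃ ψ : Fin 275 → Ω, Cor G a hpt Γ ψ ∧
    ∀ (s : S) (p : Fin 275), x1 p = true → (θ.symm s) • ψ p = ψ (rS hpt s p) := by
  classical
  have hcG : Nat.card (stabilizer G a) = 3265920 := by rw [Nat.card_congr θ.toEquiv, card_S]
  have hcb : Nat.card (stabilizer (stabilizer G a) b) = 29160 := by
    have h := orbit_mul_card (G := stabilizer G a) b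
    rw [hb, hcG] at h
    omega
  obtain ⟨p1, hp1⟩ := fixS hpt ((stabilizer (stabilizer G a) b).map θ.toMonoidHom) (by
    rw [Subgroup.card_map_of_injective θ.injective, hcb])
  have hp1' : ∀ s : S, θ.symm s • b = b ↔ rS hpt s p1.1 = p1.1 := by
    intro s
    rw [← hp1]
    constructor
    · intro h
      exact ⟨θ.symm s, h, θ.apply_symm_apply s⟩
    · rintro ⟨g, hg, hgs⟩
      have h1 : θ.symm s = g := by
        rw [← hgs]; exact θ.symm_apply_apply g
      rw [h1]; exact hg
  have hex : ∀ p : Fin 275, ∃ s : S, x1 p = true → rS hpt s p1.1 = p := by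
    intro p
    by_cases hp : x1 p = true
    · obtain ⟨s, hs⟩ := tr1 hpt hp
      obtain ⟨t, ht⟩ := tr1 hpt p1.2
      refine ⟨s * t⁻¹, fun _ => ?_⟩
      rw [map_mul, Equiv.Perm.mul_apply, ← ht, ← hs]
      congr 1
      rw [← Equiv.Perm.mul_apply, ← map_mul, inv_mul_cancel, map_one]; rfl
    · exact ⟨1, fun h => absurd h hp⟩
  choose σ hσ using hex
  have key : ∀ s t : S, rS hpt s p1.1 = rS hpt t p1.1 ↔ θ.symm s • b = θ.symm t • b := by
    intro s t
    have h1 := hp1' (t⁻¹ * s)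
    rw [map_mul, map_mul, Equiv.Perm.mul_apply, mul_smul, map_inv, map_inv, inv_smul_eq_iff, Equiv.Perm.inv_eq_iff_eq] at h1
    rw [h1]
  have x1r : ∀ (s : S) (p : Fin 275), x1 p = true → x1 (rS hpt s p) = true := by
    intro s p hp
    show A0 21 _ = true
    rw [rS_X1 hpt]; exact hp
  have hK : ∀ s : S, θ.symm s • b = θ.symm (σ (rS hpt s p1.1)) • b := by
    intro s
    rw [← key, hσ _ (x1r s _ p1.2)]
  have hE : ∀ (s : S) (p : Fin 275), x1 p = true → (θ.symm s) • (θ.symm (σ p) • b) = θ.symm (σ (rS hpt s p)) • b := by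
    intro s p hp
    rw [← mul_smul, ← map_mul, hK (s * σ p), map_mul, Equiv.Perm.mul_apply, hσ p hp]
  refine ⟨fun p => θ.symm (σ p) • b, ⟨?_, ?_, ?_⟩, hE⟩
  · intro p q hp hq h
    rw [← hσ p hp, ← hσ q hq]
    exact (key _ _).2 h
  · intro p hp
    rw [hadj]
    exact ⟨θ.symm (σ p), rfl⟩
  · intro s
    exact ⟨(θ.symm s).1, (θ.symm s).2, hE s⟩

include hc hP hG θ hpt

theorem exists_iso : Nonempty (Γ0 ≃g Γ) := by
  classical
  obtain ⟨ψ, hψ, hE⟩ := exists_cor hpt θ hb hadj
  obtain ⟨s7, o7, h7⟩ := exists_s7 hpt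
  haveI : Fact (Nat.Prime 7) := ⟨by norm_num⟩
  have hcG : Nat.card (stabilizer G a) = 3265920 := by rw [Nat.card_congr θ.toEquiv, card_S]
  have hfinS : Finite S := Nat.finite_of_card_ne_zero (by rw [card_S]; norm_num)
  have hcc : Nat.card (stabilizer (stabilizer G a) c) = 20160 := by
    have h := orbit_mul_card (G := stabilizer G a) c
    rw [hc, hcG] at h
    omega
  have hfc : Finite (stabilizer (stabilizer G a) c) := Nat.finite_of_card_ne_zero (by rw [hcc]; norm_num)
  obtain ⟨k, hk⟩ := exists_prime_orderOf_dvd_card' (G := stabilizer (stabilizer G a) c) 7 (by rw [hcc]; norm_num)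
  set k' : S := θ k.1 with hk'
  have ok' : orderOf k' = 7 := by
    rw [hk', MulEquiv.orderOf_eq, Subgroup.orderOf_coe, hk]
  have hf : (Nat.card S).factorization 7 = 1 := by
    rw [card_S]
    have h1 : (3265920 : ℕ) = 7 ^ 1 * 466560 := by norm_num
    rw [h1, Nat.factorization_mul (by norm_num) (by norm_num), Nat.Prime.factorization_pow (by norm_num : Nat.Prime 7),
      Finsupp.add_apply, Finsupp.single_eq_same, Nat.factorization_eq_zero_of_not_dvd (by norm_num)]
  have c1 : Nat.card (Subgroup.zpowers k') = 7 ^ (Nat.card S).factorization 7 := by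
    rw [hf, Nat.card_zpowers, ok', pow_one]
  have c2 : Nat.card (Subgroup.zpowers s7) = 7 ^ (Nat.card S).factorization 7 := by
    rw [hf, Nat.card_zpowers, o7, pow_one]
  obtain ⟨t, ht⟩ := MulAction.exists_smul_eq S (Sylow.ofCard _ c1) (Sylow.ofCard _ c2)
  have ht2 : s7 ∈ (t • (Sylow.ofCard _ c1) : Sylow 7 S) := by
    rw [ht]; exact Subgroup.mem_zpowers s7
  have ht3 : t⁻¹ * s7 * t ∈ Subgroup.zpowers k' := by
    have h1 : s7 ∈ MulAut.conj t • (Subgroup.zpowers k') := ht2
    rw [Subgroup.mem_pointwise_smul_iff_inv_smul_mem] at h1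
    have h2 : (MulAut.conj t)⁻¹ • s7 = t⁻¹ * s7 * t := by
      rw [← map_inv, MulAut.smul_def, MulAut.conj_apply, inv_inv]
    rwa [h2] at h1
  obtain ⟨n, hn⟩ := Subgroup.mem_zpowers_iff.1 ht3
  have h8 : θ.symm (t⁻¹ * s7 * t) • c = c := by
    rw [← hn, map_zpow, hk', MulEquiv.symm_apply_apply]
    exact (stabilizer (stabilizer G a) c).zpow_mem k.2 n
  set c' : Ω := θ.symm t • c with hc'
  have h9 : θ.symm s7 • c' = c' := by
    rw [map_mul, map_mul, map_inv, mul_smul, mul_smul, inv_smul_eq_iff] at h8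
    exact h8
  have hco : c' ∈ orbit (stabilizer G a) c := ⟨θ.symm t, rfl⟩
  have hca : c' ≠ a := by
    intro h
    rw [h, ← orbit_eq_iff] at hco
    have h4 : orbit (stabilizer G a) a = {a} := by
      ext y
      rw [Set.mem_singleton_iff]
      constructor
      · rintro ⟨g, rfl⟩; exact g.2
      · rintro rfl; exact mem_orbit_self y
    rw [← hco, h4, Set.ncard_singleton] at hc
    omega
  have hcn : ¬ Γ.Adj a c' := by
    rw [hadj]
    intro h
    rw [← orbit_eq_iff] at h hco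
    rw [← hco, h, hb] at hc
    omega
  set M : ℕ → Bool := fun p => if h : p < 275 then decide (Γ.Adj (ψ ⟨p, h⟩) c') else false with hMd
  have hM : ∀ p : Fin 275, x1 p = true → (M p = true ↔ Γ.Adj (ψ p) c') := by
    intro p _
    simp only [hMd, dif_pos p.2, decide_eq_true_iff]
  obtain ⟨j, hj, hj'⟩ := hemi M (by
    intro p hp hp1
    have e1 : app [2, 5] p = (rS hpt s7 ⟨p, hp⟩ : Fin 275) := (h7 ⟨p, hp⟩).symm
    have hx : x1 ⟨p, hp⟩ = true := hp1
    have hx' : x1 (rS hpt s7 ⟨p, hp⟩) = true := by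
      show A0 21 _ = true
      rw [rS_X1 hpt]; exact hp1
    rw [e1]
    apply Bool.eq_iff_iff.2
    rw [hM _ hx', ← hE s7 _ hx]
    have h10 := hG (θ.symm s7).1 (ψ ⟨p, hp⟩) c'
    have h11 : (θ.symm s7).1 • c' = c' := h9
    rw [h11] at h10
    exact h10.trans (hM ⟨p, hp⟩ hx).symm) (hψ.line hpt hP hG hca hcn hM)
  exact (hψ.twist hpt hj).extend hpt hP hG hca hcn (fun p hp => twist_trace hj hM hj' hp)

end

end Cfsg.Agent.MLin.Rk
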