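import Cfsg.Agent.MLin.RkX1

/-!
The invariant sets (owner: helper7).
-/
set_option autoImplicit false
set_option maxRecDepth 1000000

namespace Cfsg.Agent.MLin.Rk

open Cfsg Cfsg.Agent Cfsg.Agent.Leech Cfsg.Agent.PermTab Cfsg.Agent.CosetEnum Cfsg.Agent.MulX Cfsg.Agent.MLin
  Cfsg.Agent.MLin.Lat Cfsg.Agent.MLin.U43St Cfsg.Agent.LeechSimple MulAction

/-- number of the orbit -/
def oi (p : ℕ) : ℕ := tget 4 oiT p

/-- position in the orbit -/
def et (p : ℕ) : ℕ := tget 3 etT p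

/-- points of the orbits -/
def it (k t : ℕ) : ℕ := Nat.rec (motive := fun _ => ℕ) (tget 9 rpT k) (fun _ ih => app [2, 5] ih) t

theorem it_succ (k t : ℕ) : it k (t + 1) = app [2, 5] (it k t) := rfl

/-- the orbits -/
noncomputable def orB1 : Bool := nall (fun k => nall (fun t => Bool.and (A0 21 (it k t)) (Nat.blt (it k t) 275)) 7) 16

/-- the orbits -/
noncomputable def orB2 : Bool := nall (fun p => Bool.or (Bool.not (A0 21 p)) (Bool.and (Nat.beq (it (oi p) (et p)) p)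
  (Bool.and (Nat.blt (et p) 7) (Nat.blt (oi p) 16)))) 275

theorem or1_ok : orB1 = true := by decide +kernel

theorem or2_ok : orB2 = true := by decide +kernel

/-- a digit of the mask -/
def dg (m p : ℕ) : ℕ := Nat.mod (Nat.div m (Nat.pow 2 (oi p))) 2

/-- check of the lines -/
def lnB (m : ℕ) : Bool := lrL.all fun q => Nat.beq (Nat.add (Nat.add (dg m q.1) (dg m q.2.1)) (Nat.add (dg m q.2.2.1) (dg m q.2.2.2))) 2

/-- the exhaustive search -/
noncomputable def exS : Bool := nall (fun m => Bool.or (Bool.not (lnB m)) (Bool.or (Bool.or (Nat.beq m (mo 0)) (Nat.beq m (mo 1)))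
  (Bool.or (Nat.beq m (mo 2)) (Nat.beq m (mo 3))))) 65536

theorem exS_ok : exS = true := by decide +kernel

theorem lr_ok : lrL.all (fun q => (A0 21 q.1 && A0 21 q.2.1 && A0 21 q.2.2.1 && A0 21 q.2.2.2) &&
    (A0 q.1 q.2.1 && A0 q.1 q.2.2.1 && A0 q.1 q.2.2.2 && A0 q.2.1 q.2.2.1 && A0 q.2.1 q.2.2.2 && A0 q.2.2.1 q.2.2.2) &&
    (Nat.blt q.1 275 && Nat.blt q.2.1 275 && Nat.blt q.2.2.1 275 && Nat.blt q.2.2.2 275)) = true := by decide +kernel

theorem dg_eq (m p : ℕ) : dg m p = (m.testBit (oi p)).toNat := by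
  unfold dg
  show m / 2 ^ (oi p) % 2 = _
  rw [Nat.testBit_eq_decide_div_mod_eq]
  have : m / 2 ^ (oi p) % 2 < 2 := Nat.mod_lt _ (by norm_num)
  generalize m / 2 ^ (oi p) % 2 = t at *
  have h : t = 0 ∨ t = 1 := by omega
  rcases h with rfl | rfl <;> rfl

/-- the classification of the invariant sets -/
theorem hemi (M : ℕ → Bool) (hinv : ∀ p < 275, A0 21 p = true → M (app [2, 5] p) = M p)
    (hl : ∀ q ∈ lrL, (M q.1).toNat + (M q.2.1).toNat + ((M q.2.2.1).toNat + (M q.2.2.2).toNat) = 2) :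
    ∃ j < 4, ∀ p < 275, A0 21 p = true → M p = (mo j).testBit (oi p) := by
  have h1 : ∀ k < 16, ∀ t < 7, M (it k t) = M (it k 0) := by
    intro k hk t
    induction t with
    | zero => intro _; rfl
    | succ t ih =>
      intro ht
      have h2 := (nall_iff _ _).1 ((nall_iff _ _).1 or1_ok k hk) t (by omega)
      rw [Bool.and_eq_true] at h2
      rw [it_succ, hinv _ (Nat.lt_of_succ_le (Nat.le_of_ble_eq_true h2.2)) h2.1, ih (by omega)]
  have h2 : ∀ p < 275, A0 21 p = true → M p = M (it (oi p) 0) ∧ oi p < 16 := by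
    intro p hp hp1
    have h3 := (nall_iff _ _).1 or2_ok p hp
    rw [hp1] at h3
    simp only [Bool.not_true, Bool.false_or, Bool.and_eq_true] at h3
    obtain ⟨h4, h5, h6⟩ := h3
    have h5' : et p < 7 := Nat.lt_of_succ_le (Nat.le_of_ble_eq_true h5)
    have h6' : oi p < 16 := Nat.lt_of_succ_le (Nat.le_of_ble_eq_true h6)
    refine ⟨?_, h6'⟩
    rw [← h1 _ h6' _ h5', Nat.eq_of_beq_eq_true h4]
  set m : ℕ := Nat.ofBits (fun k : Fin 16 => M (it k 0)) with hm
  have hm1 : m < 65536 := Nat.ofBits_lt_two_pow _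
  have hm2 : ∀ p < 275, A0 21 p = true → m.testBit (oi p) = M p := by
    intro p hp hp1
    obtain ⟨h3, h4⟩ := h2 p hp hp1
    rw [hm, Nat.testBit_ofBits_lt _ _ h4, h3]
  have h3 : lnB m = true := by
    unfold lnB
    rw [List.all_eq_true]
    intro q hq
    have h4 := List.all_eq_true.1 lr_ok q hq
    simp only [Bool.and_eq_true, Nat.blt_eq] at h4
    obtain ⟨⟨⟨⟨⟨a1, a2⟩, a3⟩, a4⟩, -⟩, ⟨⟨b1, b2⟩, b3⟩, b4⟩ := h4
    show Nat.beq (dg m q.1 + dg m q.2.1 + (dg m q.2.2.1 + dg m q.2.2.2)) 2 = true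
    rw [dg_eq, dg_eq, dg_eq, dg_eq, hm2 _ b1 a1, hm2 _ b2 a2, hm2 _ b3 a3, hm2 _ b4 a4, hl q hq]
    rfl
  have h4 := (nall_iff _ _).1 exS_ok m hm1
  rw [h3] at h4
  simp only [Bool.not_true, Bool.false_or, Bool.or_eq_true, beq_iff] at h4
  have fin : ∀ j, m = mo j → ∀ p < 275, A0 21 p = true → M p = (mo j).testBit (oi p) := by
    intro j hj p hp hp1
    rw [← hj, hm2 p hp hp1]
  rcases h4 with (h4 | h4) | h4 | h4
  · exact ⟨0, by norm_num, fin 0 h4⟩
  · exact ⟨1, by norm_num, fin 1 h4⟩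
  · exact ⟨2, by norm_num, fin 2 h4⟩
  · exact ⟨3, by norm_num, fin 3 h4⟩

/-! ### the outer automorphisms -/

/-- table of an outer automorphism -/
def alA (j p : ℕ) : ℕ := tget 9 (al j) p

/-- table of the inverse -/
def aiA (j p : ℕ) : ℕ := tget 9 (ai j) p

/-- check of the automorphisms -/
noncomputable def alB : Bool := nall (fun j => nall (fun p => Bool.and (Nat.blt (alA j p) 275) (Bool.and (Nat.blt (aiA j p) 275)
  (Bool.and (Nat.beq (aiA j (alA j p)) p) (Bool.and (Nat.beq (alA j (aiA j p)) p)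
  (Bool.or (Bool.not (A0 21 p)) (Bool.and (Bool.and (A0 21 (alA j p)) (A0 21 (aiA j p)))
    (Bool.and (Nat.beq (Nat.mod (Nat.div (mo j) (Nat.pow 2 (oi p))) 2) (tget 1 (tget 275 ADJ 220) (alA j p)))
    (nall (fun l => Nat.beq (aiA j (tget 9 (gt l) p)) (app ((cw j).getD l []) (aiA j p))) 6)))))))) 275) 4

theorem al_ok : alB = true := by decide +kernel

theorem cw_ok : nall (fun j => nall (fun l => okw ((cw j).getD l [])) 6) 4 = true := by decide +kernel

end Cfsg.Agent.MLin.Rk
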