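import Cfsg.Agent.MLin.RkAdj
import Cfsg.Agent.H90.CoTrans

/-!
The graph on 275 vectors: the model (owner: helper7).
-/
set_option autoImplicit false
set_option maxRecDepth 1000000

namespace Cfsg.Agent.MLin.Rk

open Cfsg Cfsg.Agent Cfsg.Agent.Leech Cfsg.Agent.PermTab Cfsg.Agent.CosetEnum Cfsg.Agent.MulX Cfsg.Agent.MLin
  Cfsg.Agent.MLin.Lat Cfsg.Agent.MLin.U43St Cfsg.Agent.LeechSimple MulAction

/-- adjacency -/
def A0 (i j : ℕ) : Bool := Nat.beq (tget 1 (tget 275 ADJ i) j) 1

theorem tb_spec {j : ℕ} (hj : j < 275) : tget 384 RV j = rvs (tget 96 cd j) 24 ∧ tget 9 SM j = smN (tget 96 cd j) 24 := by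
  have h := (nall_iff _ _).1 tb_ok j hj
  rw [fc_eq, Bool.and_eq_true] at h
  exact ⟨(Nat.eq_of_beq_eq_true h.1).symm, (Nat.eq_of_beq_eq_true h.2).symm⟩

theorem beq_iff {a b : ℕ} : Nat.beq a b = true ↔ a = b := ⟨Nat.eq_of_beq_eq_true, fun h => by rw [h]; exact Nat.beq_refl b⟩

theorem adj_spec {i j : ℕ} (hi : i < 275) (hj : j < 275) :
    A0 i j = true ↔ i ≠ j ∧ dotInt (ivv (tget 96 cd i)) (ivv (tget 96 cd j)) = 8 := by
  have h := (nall_iff _ _).1 ad_ok i hi
  rw [fc_eq, fc_eq, fc_eq, Bool.and_eq_true] at h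
  obtain ⟨h0, h1⟩ := h
  have h2 := (nall_iff _ _).1 h1 j hj
  unfold prB at h2
  rw [(tb_spec hj).1, (tb_spec hj).2, (tb_spec hi).2, kron24] at h2
  have hlt := dtN_lt (tget 96 cd i) (tget 96 cd j) 24
  rw [Nat.mod_eq_of_lt (by omega)] at h2
  have hdot := dot_code (tget 96 cd i) (tget 96 cd j)
  have key : Nat.beq (Nat.add (dtN (tget 96 cd i) (tget 96 cd j) 24) 1536)
      (Nat.add (Nat.mul 8 (Nat.add (smN (tget 96 cd i) 24) (smN (tget 96 cd j) 24))) 8) = true ↔
      dotInt (ivv (tget 96 cd i)) (ivv (tget 96 cd j)) = 8 := by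
    rw [beq_iff]
    show dtN (tget 96 cd i) (tget 96 cd j) 24 + 1536 = 8 * (smN (tget 96 cd i) 24 + smN (tget 96 cd j) 24) + 8 ↔ _
    push_cast at hdot
    constructor
    · intro h; have h' : ((dtN (tget 96 cd i) (tget 96 cd j) 24 : ℕ) : ℤ) + 1536 =
        8 * ((smN (tget 96 cd i) 24 : ℕ) + (smN (tget 96 cd j) 24 : ℕ)) + 8 := by exact_mod_cast h
      linarith
    · intro h; zify; linarith
  by_cases hb : Nat.beq (tget 1 (tget 275 ADJ i) j) 1 = true
  · rw [hb] at h2
    have h3 := key.1 h2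
    refine ⟨fun _ => ⟨?_, h3⟩, fun _ => hb⟩
    rintro rfl
    rw [hb] at h0
    exact absurd h0 (by decide)
  · have hb' : Nat.beq (tget 1 (tget 275 ADJ i) j) 1 = false := by
      cases hh : Nat.beq (tget 1 (tget 275 ADJ i) j) 1 with
      | false => rfl
      | true => exact absurd hh hb
    rw [hb'] at h2
    constructor
    · intro h; exact absurd h hb
    · rintro ⟨h3, h4⟩
      exfalso
      have h5 := key.2 h4
      rw [h5] at h2
      have h6 : Nat.beq i j = false := by
        cases hh : Nat.beq i j with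
        | false => rfl
        | true => exact absurd (Nat.eq_of_beq_eq_true hh) h3
      rw [h6] at h2
      exact absurd h2 (by decide)

/-- the graph -/
def Γ0 : SimpleGraph (Fin 275) where
  Adj i j := A0 i j = true
  symm := ⟨fun i j h => by
    rw [adj_spec i.2 j.2] at h
    rw [adj_spec j.2 i.2]
    exact ⟨h.1.symm, by rw [dotInt_comm]; exact h.2⟩⟩
  loopless := ⟨fun i h => by
    rw [adj_spec i.2 i.2] at h
    exact h.1 rfl⟩

theorem A0_symm (i j : Fin 275) : A0 i j = A0 j i := by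
  have h : A0 i j = true ↔ A0 j i = true := ⟨fun h => Γ0.symm.symm _ _ h, fun h => Γ0.symm.symm _ _ h⟩
  cases h1 : A0 i j <;> cases h2 : A0 j i <;> simp_all

theorem A0_self (i : Fin 275) : A0 i i = false := by
  cases h : A0 i i with
  | false => rfl
  | true => exact absurd h (Γ0.loopless.irrefl i)

/-! ### the points -/

theorem pts_T3 : ∀ i : Fin 275, sqNorm (ivv (tget 96 cd i)) = 32 ∧ dotInt Spor.vecV (ivv (tget 96 cd i)) = 24 ∧
    dotInt Spor.vecU (ivv (tget 96 cd i)) = -16 := by decide +kernel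

/-- words of letters applied to points -/
def app (w : List ℕ) (x : ℕ) : ℕ := w.foldr (fun l y => tget 9 (gt l) y) x

theorem S_le : S ≤ mclSub := inf_le_left

section

variable {pt : Fin 275 → leechLattice} (hpt : ∀ i : Fin 275, Pt cd i (pt i))

include hpt

theorem pinj : Function.Injective pt := pt_inj hpt (by norm_num) inc_ok

theorem adj_dot (i j : Fin 275) : Γ0.Adj i j ↔ i ≠ j ∧ dotInt (pt i : GolayPt → ℤ) (pt j : GolayPt → ℤ) = 8 := by
  have h := adj_spec i.2 j.2
  rw [← hpt i, ← hpt j] at h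
  rw [Ne, Fin.ext_iff]
  exact h

theorem mem_T275 (x : leechLattice) : x ∈ T3 Spor.leechV (-Spor.leechU) 24 16 ↔ ∃ i, pt i = x := by
  have hsub : Set.range pt ⊆ T3 Spor.leechV (-Spor.leechU) 24 16 := by
    rintro _ ⟨i, rfl⟩
    have h := pts_T3 i
    rw [← hpt i] at h
    refine ⟨h.1, h.2.1, ?_⟩
    have e : dotInt ((-Spor.leechU : leechLattice) : GolayPt → ℤ) (pt i : GolayPt → ℤ) =
        -dotInt Spor.vecU (pt i : GolayPt → ℤ) := by
      rw [AddSubgroup.coe_neg]
      unfold dotInt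
      simp only [Pi.neg_apply, neg_mul, Finset.sum_neg_distrib]
      rfl
    rw [e, h.2.2]; norm_num
  have heq : Set.range pt = T3 Spor.leechV (-Spor.leechU) 24 16 := by
    apply Set.eq_of_subset_of_ncard_le hsub _ (T3_finite _ _ _ _)
    rw [T275_ncard, Set.ncard_range_of_injective (pinj hpt), Nat.card_fin]
  rw [← heq]; exact Iff.rfl

theorem ex_perm (g : mclSub) : ∃ σ : Equiv.Perm (Fin 275), ∀ i, (g : Co0) • pt i = pt (σ i) := by
  have gU : (g : Co0) • (-Spor.leechU) = -Spor.leechU := by rw [co0_neg]; exact congrArg Neg.neg g.2.2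
  have gV : (g : Co0) • Spor.leechV = Spor.leechV := g.2.1
  have h1 : ∀ i, ∃ j, pt j = (g : Co0) • pt i := by
    intro i
    rw [← mem_T275 hpt]
    have h2 := (smul_mem_T3 (g : Co0) Spor.leechV (-Spor.leechU) (pt i) 24 16).1 ((mem_T275 hpt _).2 ⟨i, rfl⟩)
    rwa [gU, gV] at h2
  choose f hf using h1
  have hinj : Function.Injective f := by
    intro i j hij
    have h2 := hf i
    rw [hij, hf j] at h2
    exact pinj hpt (smul_left_cancel _ h2.symm)
  exact ⟨Equiv.ofBijective f (Finite.injective_iff_bijective.1 hinj), fun i => (hf i).symm⟩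

/-- the permutation action -/
noncomputable def rho : mclSub →* Equiv.Perm (Fin 275) :=
  MonoidHom.mk' (fun g => (ex_perm hpt g).choose) (by
    intro g h
    ext1 i
    apply pinj hpt
    rw [Equiv.Perm.mul_apply, ← (ex_perm hpt (g * h)).choose_spec i, ← (ex_perm hpt g).choose_spec,
      ← (ex_perm hpt h).choose_spec, ← mul_smul]
    rfl)

theorem rho_spec (g : mclSub) (i : Fin 275) : (g : Co0) • pt i = pt (rho hpt g i) := (ex_perm hpt g).choose_spec i

theorem rho_adj (g : mclSub) (i j : Fin 275) : Γ0.Adj (rho hpt g i) (rho hpt g j) ↔ Γ0.Adj i j := by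
  rw [adj_dot hpt, adj_dot hpt, ← rho_spec hpt, ← rho_spec hpt, co0_dot, Ne, Ne, EmbeddingLike.apply_eq_iff_eq]

theorem X0_pt : pt 21 = X0 := by
  apply Subtype.ext
  have h := hpt 21
  unfold Pt at h
  rw [h]
  show ivv (tget 96 cd 21) = ivv (tget 96 cd 277)
  have e : tget 96 cd 21 = tget 96 cd 277 := by decide +kernel
  rw [e]

theorem rho_inj : Function.Injective (rho hpt) := by
  rw [injective_iff_map_eq_one]
  intro g hg
  have h1 : ∀ i, (g : Co0) • pt i = pt i := by
    intro i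
    rw [rho_spec hpt, hg]; rfl
  have hS : (g : Co0) ∈ S := ⟨g.2, by
    show (g : Co0) • X0 = X0
    rw [← X0_pt hpt]; exact h1 21⟩
  have h2 := faith hpt ⟨g, hS⟩ (fun i _ => h1 i)
  apply Subtype.ext
  exact congrArg (fun a : S => (a : Co0)) h2

/-- the action of the point stabiliser -/
noncomputable def rS : S →* Equiv.Perm (Fin 275) := (rho hpt).comp (Subgroup.inclusion (S_le))

theorem rS_spec (s : S) (i : Fin 275) : (s : Co0) • pt i = pt (rS hpt s i) := rho_spec hpt (Subgroup.inclusion (S_le) s) i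

theorem rS_adj (s : S) (i j : Fin 275) : Γ0.Adj (rS hpt s i) (rS hpt s j) ↔ Γ0.Adj i j := rho_adj hpt _ i j

theorem rS_21 (s : S) : rS hpt s 21 = 21 := by
  apply pinj hpt
  rw [← rS_spec hpt, X0_pt hpt]
  exact s.2.2

theorem rS_inj : Function.Injective (rS hpt) := by
  intro a b h
  have h1 := rho_inj hpt h
  exact Subgroup.inclusion_injective (S_le) h1

end

end Cfsg.Agent.MLin.Rk
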