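import Cfsg.Agent.MLin.RkMod

/-!
The graph on 275 vectors: words and transitivity (owner: helper7).
-/
set_option autoImplicit false
set_option maxRecDepth 1000000

namespace Cfsg.Agent.MLin.Rk

open Cfsg Cfsg.Agent Cfsg.Agent.Leech Cfsg.Agent.PermTab Cfsg.Agent.CosetEnum Cfsg.Agent.MulX Cfsg.Agent.MLin
  Cfsg.Agent.MLin.Lat Cfsg.Agent.MLin.U43St Cfsg.Agent.LeechSimple MulAction

/-- all letters are admissible -/
def okw (w : List ℕ) : Bool := w.all fun l => Nat.blt l 6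

/-- check of the words of the first list -/
noncomputable def k1B : Bool := nall (fun y => cond (A0 21 y) (Bool.and (okw (wd1.getD y [])) (Nat.beq (app (wd1.getD y []) 22) y))
  (Bool.or (Nat.beq y 21) (Bool.and (okw (wd1.getD y [])) (Nat.beq (app (wd1.getD y []) 220) y)))) 275

/-- check of the words of the second list -/
noncomputable def k2B : Bool := nall (fun y => cond (A0 21 y)
    (Bool.or (Nat.beq y 22) (Bool.and (okw (wd2.getD y [])) (Bool.and (Nat.beq (app (wd2.getD y []) 22) 22)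
      (Nat.beq (app (wd2.getD y []) (cond (A0 22 y) 40 24)) y))))
    (Bool.or (Nat.beq y 21) (Bool.or (Nat.beq y 220) (Bool.or (A0 220 y) (Bool.and (okw (wd2.getD y []))
      (Bool.and (Nat.beq (app (wd2.getD y []) 220) 220) (Nat.beq (app (wd2.getD y []) 1) y))))))) 275

theorem k1_ok : k1B = true := by decide +kernel

theorem k2_ok : k2B = true := by decide +kernel

theorem gt_valid : ∀ l < 6, tvalid 9 275 (gt l) = true := by
  intro l hl
  have h := (nall_iff _ _).1 gens_ok l hl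
  simp only [Bool.and_eq_true] at h
  exact h.1

section

variable {pt : Fin 275 → leechLattice} (hpt : ∀ i : Fin 275, Pt cd i (pt i))

include hpt

/-- the letters -/
theorem exists_h : ∃ h : ℕ → S, (∀ l < 6, ∀ i : Fin 275, ((rS hpt (h l) i : Fin 275) : ℕ) = tget 9 (gt l) i) ∧
    Subgroup.closure (h '' {l | l < 6}) = ⊤ := by
  obtain ⟨h, hh⟩ := exists_letters (k := 6) stab_of_maps letters_ok
  obtain ⟨h1, h3, h4, h5, -, -⟩ := U43.rel_ok
  obtain ⟨h6, h7⟩ := fr_words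
  have hfin : Finite S := Nat.finite_of_card_ne_zero (by rw [card_S]; norm_num)
  have C := cp_lat (by norm_num) hid gens_ok hpt (pt_inj hpt (by norm_num) inc_ok) hh (faith hpt) h1 pair_ok h3 h4 h5
    h6 h7 chain_ok (by rw [card_ok, card_S])
  refine ⟨h, ?_, ?_⟩
  · intro l hl i
    have hlt : tget 9 (gt l) i < 275 := by
      rw [← toPerm_apply (gt_valid l hl) i]
      exact Fin.is_lt _
    have h8 := hh l hl i i.2 (pt i) (hpt i)
    have h9 : (h l : Co0) • pt i = pt ⟨_, hlt⟩ := by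
      apply Subtype.ext
      rw [h8]
      exact (hpt ⟨_, hlt⟩).symm
    rw [rS_spec hpt] at h9
    have := pinj hpt h9
    rw [this]
  · rw [eq_top_iff, ← C.top]
    unfold Cl
    rw [Subgroup.closure_le]
    rintro _ ⟨x, hx, rfl⟩
    have hx' : isLet (2 * 6) x = true := hx
    have hx2 := isLet_iff.1 hx'
    show fam h 6 x ∈ _
    unfold fam
    rw [if_pos hx']
    split_ifs with hodd
    · exact Subgroup.subset_closure ⟨x / 2, by show x / 2 < 6; omega, rfl⟩
    · exact Subgroup.inv_mem _ (Subgroup.subset_closure ⟨x / 2 - 1, by show x / 2 - 1 < 6; omega, rfl⟩)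

theorem rS_word {h : ℕ → S} (hh : ∀ l < 6, ∀ i : Fin 275, ((rS hpt (h l) i : Fin 275) : ℕ) = tget 9 (gt l) i) :
    ∀ w : List ℕ, okw w = true → ∀ i : Fin 275, ((rS hpt ((w.map h).prod) i : Fin 275) : ℕ) = app w i := by
  intro w
  induction w with
  | nil =>
    intro _ i
    rw [List.map_nil, List.prod_nil, map_one]; rfl
  | cons l w ih =>
    intro hw i
    unfold okw at hw
    rw [List.all_cons, Bool.and_eq_true] at hw
    rw [List.map_cons, List.prod_cons, map_mul, Equiv.Perm.mul_apply, hh l (Nat.lt_of_succ_le (Nat.le_of_ble_eq_true hw.1))]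
    show tget 9 (gt l) _ = tget 9 (gt l) (app w i)
    rw [ih hw.2]

/-- elements given by words -/
theorem ex_word (w : List ℕ) (hw : okw w = true) : ∃ s : S, ∀ i : Fin 275, ((rS hpt s i : Fin 275) : ℕ) = app w i := by
  obtain ⟨h, hh, -⟩ := exists_h hpt
  exact ⟨_, rS_word hpt hh w hw⟩

/-! ### transitivity -/

theorem tr1 {y : Fin 275} (hy : A0 21 y = true) : ∃ s : S, rS hpt s 22 = y := by
  have h := (nall_iff _ _).1 k1_ok y y.2
  rw [hy, cond_true, Bool.and_eq_true] at h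
  obtain ⟨s, hs⟩ := ex_word hpt _ h.1
  exact ⟨s, Fin.ext ((hs 22).trans (Nat.eq_of_beq_eq_true h.2))⟩

theorem tr2 {y : Fin 275} (hy : A0 21 y = false) (hy' : y ≠ 21) : ∃ s : S, rS hpt s 220 = y := by
  have h := (nall_iff _ _).1 k1_ok y y.2
  rw [hy, cond_false, Bool.or_eq_true] at h
  rcases h with h | h
  · exact absurd (Fin.ext (Nat.eq_of_beq_eq_true h)) hy'
  · rw [Bool.and_eq_true] at h
    obtain ⟨s, hs⟩ := ex_word hpt _ h.1
    exact ⟨s, Fin.ext ((hs 220).trans (Nat.eq_of_beq_eq_true h.2))⟩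

theorem tr3a {y : Fin 275} (hy : A0 21 y = true) (hA : A0 22 y = true) :
    ∃ s : S, rS hpt s 22 = 22 ∧ rS hpt s 40 = y := by
  have h := (nall_iff _ _).1 k2_ok y y.2
  have hy' : y ≠ 22 := by
    rintro rfl
    have := A0_self (22 : Fin 275)
    rw [show A0 ((22 : Fin 275) : ℕ) ((22 : Fin 275) : ℕ) = A0 22 ((22 : Fin 275) : ℕ) from rfl, hA] at this
    exact absurd this (by decide)
  rw [hy, cond_true, Bool.or_eq_true] at h
  rcases h with h | h
  · exact absurd (Fin.ext (Nat.eq_of_beq_eq_true h)) hy'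
  · simp only [Bool.and_eq_true, hA, cond_true] at h
    obtain ⟨s, hs⟩ := ex_word hpt _ h.1
    exact ⟨s, Fin.ext ((hs 22).trans (Nat.eq_of_beq_eq_true h.2.1)), Fin.ext ((hs 40).trans (Nat.eq_of_beq_eq_true h.2.2))⟩

theorem tr3b {y : Fin 275} (hy : A0 21 y = true) (hy' : y ≠ 22) (hA : A0 22 y = false) :
    ∃ s : S, rS hpt s 22 = 22 ∧ rS hpt s 24 = y := by
  have h := (nall_iff _ _).1 k2_ok y y.2
  rw [hy, cond_true, Bool.or_eq_true] at h
  rcases h with h | h
  · exact absurd (Fin.ext (Nat.eq_of_beq_eq_true h)) hy'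
  · simp only [Bool.and_eq_true, hA, cond_false] at h
    obtain ⟨s, hs⟩ := ex_word hpt _ h.1
    exact ⟨s, Fin.ext ((hs 22).trans (Nat.eq_of_beq_eq_true h.2.1)), Fin.ext ((hs 24).trans (Nat.eq_of_beq_eq_true h.2.2))⟩

theorem tr4 {y : Fin 275} (hy : A0 21 y = false) (h21 : y ≠ 21) (h220 : y ≠ 220) (hA : A0 220 y = false) :
    ∃ s : S, rS hpt s 220 = 220 ∧ rS hpt s 1 = y := by
  have h := (nall_iff _ _).1 k2_ok y y.2
  rw [hy, cond_false, Bool.or_eq_true, Bool.or_eq_true, hA, Bool.false_or] at h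
  rcases h with h | h | h
  · exact absurd (Fin.ext (Nat.eq_of_beq_eq_true h)) h21
  · exact absurd (Fin.ext (Nat.eq_of_beq_eq_true h)) h220
  · simp only [Bool.and_eq_true] at h
    obtain ⟨s, hs⟩ := ex_word hpt _ h.1
    exact ⟨s, Fin.ext ((hs 220).trans (Nat.eq_of_beq_eq_true h.2.1)), Fin.ext ((hs 1).trans (Nat.eq_of_beq_eq_true h.2.2))⟩

theorem rS_A0 (s : S) (i j : Fin 275) : A0 (rS hpt s i) (rS hpt s j) = A0 i j := by
  have h := rS_adj hpt s i j
  have h' : A0 (rS hpt s i) (rS hpt s j) = true ↔ A0 i j = true := h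
  cases h1 : A0 (rS hpt s i) (rS hpt s j) <;> cases h2 : A0 i j <;> simp_all

theorem rS_X1 (s : S) (i : Fin 275) : A0 21 (rS hpt s i) = A0 21 i := by
  have h := rS_A0 hpt s 21 i
  rw [rS_21 hpt] at h
  exact h

/-- transitivity on adjacent pairs of the first neighbourhood -/
theorem pair1 {p q : Fin 275} (hp : A0 21 p = true) (hq : A0 21 q = true) (hpq : A0 p q = true) :
    ∃ s : S, rS hpt s 22 = p ∧ rS hpt s 40 = q := by
  obtain ⟨t, ht⟩ := tr1 hpt hp
  have e1 : rS hpt t (rS hpt t⁻¹ q) = q := by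
    rw [← Equiv.Perm.mul_apply, ← map_mul, mul_inv_cancel, map_one]; rfl
  have h1 : A0 21 (rS hpt t⁻¹ q) = true := by rw [rS_X1 hpt, hq]
  have h2 : A0 22 (rS hpt t⁻¹ q) = true := by
    have := rS_A0 hpt t 22 (rS hpt t⁻¹ q)
    rw [ht, e1, hpq] at this
    exact this.symm
  obtain ⟨u, hu1, hu2⟩ := tr3a hpt h1 h2
  exact ⟨t * u, by rw [map_mul, Equiv.Perm.mul_apply, hu1, ht], by rw [map_mul, Equiv.Perm.mul_apply, hu2, e1]⟩

theorem pair1n {p q : Fin 275} (hp : A0 21 p = true) (hq : A0 21 q = true) (hne : q ≠ p) (hpq : A0 p q = false) :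
    ∃ s : S, rS hpt s 22 = p ∧ rS hpt s 24 = q := by
  obtain ⟨t, ht⟩ := tr1 hpt hp
  have e1 : rS hpt t (rS hpt t⁻¹ q) = q := by
    rw [← Equiv.Perm.mul_apply, ← map_mul, mul_inv_cancel, map_one]; rfl
  have h1 : A0 21 (rS hpt t⁻¹ q) = true := by rw [rS_X1 hpt, hq]
  have h2 : A0 22 (rS hpt t⁻¹ q) = false := by
    have := rS_A0 hpt t 22 (rS hpt t⁻¹ q)
    rw [ht, e1, hpq] at this
    exact this.symm
  have h3 : rS hpt t⁻¹ q ≠ 22 := by
    intro h; rw [h, ht] at e1; exact hne e1.symm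
  obtain ⟨u, hu1, hu2⟩ := tr3b hpt h1 h3 h2
  exact ⟨t * u, by rw [map_mul, Equiv.Perm.mul_apply, hu1, ht], by rw [map_mul, Equiv.Perm.mul_apply, hu2, e1]⟩

theorem pair2n {p q : Fin 275} (hp : A0 21 p = false) (hp' : p ≠ 21) (hq : A0 21 q = false) (hq' : q ≠ 21) (hne : q ≠ p)
    (hpq : A0 p q = false) : ∃ s : S, rS hpt s 220 = p ∧ rS hpt s 1 = q := by
  obtain ⟨t, ht⟩ := tr2 hpt hp hp'
  have e1 : rS hpt t (rS hpt t⁻¹ q) = q := by
    rw [← Equiv.Perm.mul_apply, ← map_mul, mul_inv_cancel, map_one]; rfl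
  have h1 : A0 21 (rS hpt t⁻¹ q) = false := by rw [rS_X1 hpt, hq]
  have h2 : A0 220 (rS hpt t⁻¹ q) = false := by
    have := rS_A0 hpt t 220 (rS hpt t⁻¹ q)
    rw [ht, e1, hpq] at this
    exact this.symm
  have h3 : rS hpt t⁻¹ q ≠ 220 := by
    intro h; rw [h, ht] at e1; exact hne e1.symm
  have h4 : rS hpt t⁻¹ q ≠ 21 := by
    intro h; rw [h, rS_21 hpt] at e1; exact hq' e1.symm
  obtain ⟨u, hu1, hu2⟩ := tr4 hpt h1 h4 h3 h2
  exact ⟨t * u, by rw [map_mul, Equiv.Perm.mul_apply, hu1, ht], by rw [map_mul, Equiv.Perm.mul_apply, hu2, e1]⟩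

end

end Cfsg.Agent.MLin.Rk
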