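import Cfsg.Agent.MLin.RkFix

/-!
The action on 112 points (owner: helper7).
-/
set_option autoImplicit false
set_option maxRecDepth 1000000

namespace Cfsg.Agent.MLin.Rk

open Cfsg Cfsg.Agent Cfsg.Agent.Leech Cfsg.Agent.PermTab Cfsg.Agent.CosetEnum Cfsg.Agent.MulX Cfsg.Agent.MLin
  Cfsg.Agent.MLin.Lat Cfsg.Agent.MLin.U43St Cfsg.Agent.LeechSimple MulAction

/-- the 112 points -/
abbrev X1 := {i : Fin 275 // x1 i = true}

theorem ncard_X1 (f : Fin 275 → Bool) : ({z : X1 | f z = true}).ncard =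
    (Finset.univ.filter fun y : Fin 275 => (x1 y && f y) = true).card := by
  rw [← Set.ncard_image_of_injective _ (Subtype.val_injective (p := fun i : Fin 275 => x1 i = true)), ← Set.ncard_coe_finset]
  congr 1
  ext y
  simp only [Set.mem_image, Set.mem_ofPred_eq, Finset.coe_filter, Finset.mem_univ, true_and, Bool.and_eq_true]
  constructor
  · rintro ⟨⟨z, hz⟩, h, rfl⟩; exact ⟨hz, h⟩
  · rintro ⟨h1, h2⟩; exact ⟨⟨y, h1⟩, h2, rfl⟩

theorem card_X1 : Nat.card X1 = 112 := by
  have h := ncard_X1 (fun _ => true)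
  have e : ({z : X1 | (fun _ : Fin 275 => true) z = true}) = Set.univ := by
    ext z; exact ⟨fun _ => Set.mem_univ _, fun _ => rfl⟩
  rw [e, Set.ncard_univ] at h
  rw [h, ← cnt1]
  simp only [Bool.and_true]

section

variable {pt : Fin 275 → leechLattice} (hpt : ∀ i : Fin 275, Pt cd i (pt i))

/-- the action on the 112 points -/
@[reducible] noncomputable def actS : MulAction S X1 where
  smul s p := ⟨rS hpt s p.1, by
    show A0 21 _ = true
    rw [rS_X1 hpt]; exact p.2⟩
  one_smul p := by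
    apply Subtype.ext
    show rS hpt 1 p.1 = p.1
    rw [map_one]; rfl
  mul_smul s t p := by
    apply Subtype.ext
    show rS hpt (s * t) p.1 = rS hpt s (rS hpt t p.1)
    rw [map_mul]; rfl

include hpt

theorem fixS (H : Subgroup S) (hH : Nat.card H = 29160) : ∃ p : X1, ∀ s : S, s ∈ H ↔ rS hpt s p.1 = p.1 := by
  letI := actS hpt
  have hfin : Finite S := Nat.finite_of_card_ne_zero (by rw [card_S]; norm_num)
  have sm : ∀ (s : S) (p : X1), ((s • p : X1) : Fin 275) = rS hpt s p.1 := fun _ _ => rfl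
  have htr : ∀ x y : X1, ∃ a : S, a • x = y := by
    intro x y
    obtain ⟨s, hs⟩ := tr1 hpt x.2
    obtain ⟨t, ht⟩ := tr1 hpt y.2
    refine ⟨t * s⁻¹, Subtype.ext ?_⟩
    rw [sm, map_mul, Equiv.Perm.mul_apply, ← hs, ← ht]
    congr 1
    rw [← Equiv.Perm.mul_apply, ← map_mul, inv_mul_cancel, map_one]; rfl
  have hR : ∀ (a : S) (x y : X1), A0 ((a • x : X1) : Fin 275) ((a • y : X1) : Fin 275) = true ↔ A0 x.1 y.1 = true := by
    intro a x y
    rw [sm, sm, rS_A0 hpt]
  have hcs : ∀ x : X1, Nat.card (stabilizer S x) = 29160 := by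
    intro x
    have h4 := Leech.orbit_mul_card (G := S) x
    have h5 : orbit S x = Set.univ := by
      ext y
      exact ⟨fun _ => Set.mem_univ _, fun _ => htr x y⟩
    rw [h5, Set.ncard_univ, card_X1, card_S] at h4
    omega
  have c30 : ∀ x : X1, ({z : X1 | A0 x.1 z.1 = true}).ncard = 30 := by
    intro x
    rw [ncard_X1 (fun y => A0 x.1 y)]
    exact cnt3 x.1 x.2
  have c81 : ∀ x : X1, ({z : X1 | z ≠ x ∧ ¬ A0 x.1 z.1 = true}).ncard = 81 := by
    intro x
    have h1 : (({x} : Set X1) ∪ ({z : X1 | A0 x.1 z.1 = true} ∪ {z : X1 | z ≠ x ∧ ¬ A0 x.1 z.1 = true})) = Set.univ := by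
      ext z
      refine ⟨fun _ => Set.mem_univ _, fun _ => ?_⟩
      by_cases h1 : z = x
      · left; exact h1
      · right
        by_cases h2 : A0 x.1 z.1 = true
        · left; exact h2
        · right; exact ⟨h1, h2⟩
    have h2 : Disjoint ({z : X1 | A0 x.1 z.1 = true}) {z : X1 | z ≠ x ∧ ¬ A0 x.1 z.1 = true} := by
      rw [Set.disjoint_left]
      intro z h3 h4
      exact h4.2 h3
    have h3 : Disjoint ({x} : Set X1) ({z : X1 | A0 x.1 z.1 = true} ∪ {z : X1 | z ≠ x ∧ ¬ A0 x.1 z.1 = true}) := by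
      rw [Set.disjoint_singleton_left]
      rintro (h | h)
      · have h' : A0 x.1 x.1 = true := h
        rw [A0_self] at h'
        exact absurd h' (by decide)
      · exact h.1 rfl
    have h4 := congrArg Set.ncard h1
    rw [Set.ncard_union_eq h3, Set.ncard_union_eq h2, Set.ncard_singleton, Set.ncard_univ, card_X1, c30] at h4
    omega
  have horb : ∀ x y : X1, ∀ T : Set X1, y ∈ T → (∀ z ∈ T, ∃ s : S, s • x = x ∧ s • y = z) →
      (∀ s : S, s • x = x → ∀ z ∈ T, s • z ∈ T) → Nat.card (stabilizer S x ⊓ stabilizer S y : Subgroup S) * T.ncard = 29160 := by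
    intro x y T hy h1 h2
    have h3 := osG (stabilizer S x) y
    have h4 : orbit (stabilizer S x) y = T := by
      ext z
      constructor
      · rintro ⟨s, rfl⟩
        exact h2 s.1 s.2 y hy
      · intro hz
        obtain ⟨s, s1, s2⟩ := h1 z hz
        exact ⟨⟨s, s1⟩, s2⟩
    rw [h4, hcs] at h3
    rw [mul_comm]; exact h3
  obtain ⟨x, hx⟩ := fix112 (A := S) (X := X1) card_S card_X1 htr (fun x y => A0 x.1 y.1 = true) hR
    (by
      intro x y hxy hr
      have h := horb x y {z | A0 x.1 z.1 = true} hr (by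
        intro z hz
        obtain ⟨s, s1, s2⟩ := pair1 hpt x.2 y.2 hr
        obtain ⟨t, t1, t2⟩ := pair1 hpt x.2 z.2 hz
        refine ⟨t * s⁻¹, Subtype.ext ?_, Subtype.ext ?_⟩
        · rw [sm, map_mul, Equiv.Perm.mul_apply, ← s1, ← Equiv.Perm.mul_apply (rS hpt s⁻¹), ← map_mul, inv_mul_cancel, map_one,
            Equiv.Perm.one_apply, t1, s1]
        · rw [sm, map_mul, Equiv.Perm.mul_apply, ← s2, ← Equiv.Perm.mul_apply (rS hpt s⁻¹), ← map_mul, inv_mul_cancel, map_one,
            Equiv.Perm.one_apply, t2]) (by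
        intro s hs z hz
        show A0 x.1 ((s • z : X1) : Fin 275) = true
        have := hR s x z
        rw [hs] at this
        exact this.2 hz)
      rw [c30] at h
      omega)
    (by
      intro x y hxy hr
      have h := horb x y {z | z ≠ x ∧ ¬ A0 x.1 z.1 = true} ⟨Ne.symm hxy, hr⟩ (by
        rintro z ⟨hz1, hz2⟩
        obtain ⟨s, s1, s2⟩ := pair1n hpt x.2 y.2 (fun h => hxy (Subtype.ext h.symm)) (by simpa using hr)
        obtain ⟨t, t1, t2⟩ := pair1n hpt x.2 z.2 (fun h => hz1 (Subtype.ext h)) (by simpa using hz2)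
        refine ⟨t * s⁻¹, Subtype.ext ?_, Subtype.ext ?_⟩
        · rw [sm, map_mul, Equiv.Perm.mul_apply, ← s1, ← Equiv.Perm.mul_apply (rS hpt s⁻¹), ← map_mul, inv_mul_cancel, map_one,
            Equiv.Perm.one_apply, t1, s1]
        · rw [sm, map_mul, Equiv.Perm.mul_apply, ← s2, ← Equiv.Perm.mul_apply (rS hpt s⁻¹), ← map_mul, inv_mul_cancel, map_one,
            Equiv.Perm.one_apply, t2]) (by
        rintro s hs z ⟨hz1, hz2⟩
        refine ⟨?_, ?_⟩
        · intro h; rw [← hs] at h; exact hz1 (MulAction.injective s h)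
        · have := hR s x z
          rw [hs] at this
          exact fun h => hz2 (this.1 h))
      rw [c81] at h
      omega)
    (by
      intro x y hxy hr
      obtain ⟨s, s1, s2⟩ := pair1 hpt x.2 y.2 hr
      have h1 : {z : X1 | A0 x.1 z.1 = true ∧ A0 y.1 z.1 = true} ⊆
          (fun z : X1 => s • z) '' {z : X1 | (A0 22 z.1 && A0 40 z.1) = true} := by
        rintro z ⟨hz1, hz2⟩
        refine ⟨s⁻¹ • z, ?_, smul_inv_smul s z⟩
        show (A0 22 _ && A0 40 _) = true
        have e : rS hpt s ((s⁻¹ • z : X1) : Fin 275) = z.1 := by rw [← sm, smul_inv_smul]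
        rw [Bool.and_eq_true]
        constructor
        · have := rS_A0 hpt s 22 ((s⁻¹ • z : X1) : Fin 275)
          rw [e, s1, hz1] at this; exact this.symm
        · have := rS_A0 hpt s 40 ((s⁻¹ • z : X1) : Fin 275)
          rw [e, s2, hz2] at this; exact this.symm
      refine (Set.ncard_le_ncard h1 (Set.toFinite _)).trans ((Set.ncard_image_le (Set.toFinite _)).trans ?_)
      rw [ncard_X1 (fun y => A0 22 y && A0 40 y), cnt6])
    H hH
  refine ⟨x, fun s => ?_⟩
  rw [hx, mem_stabilizer_iff, Subtype.ext_iff, sm]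

end

end Cfsg.Agent.MLin.Rk
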