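import Cfsg.Agent.MulX.Tab

/-! Relators (generated data, owner: helper7). -/

set_option autoImplicit false

namespace Cfsg.Agent.MLin.Sp6

/-- exact relators -/
def R1 : List (ℕ × List ℕ) := [(1, [1, 1, 3, 6, 3, 2, 4, 5, 4]), (3, [3, 3, 1, 6, 1, 4, 2, 5, 2]), (5, [5, 5, 1, 4, 1, 6, 2, 3, 2]), (7, [7, 7, 1, 4, 1, 8, 2, 3, 2]), (9, [9, 9, 1, 4, 1, 10, 2, 3, 2]), (11, [11, 11, 1, 4, 1, 12, 2, 3, 2]), (13, [13, 9, 11, 14, 12, 10, 5, 7, 13, 8, 6, 10, 11, 10, 6, 7, 6, 2, 3, 2])]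

/-- central relators -/
def R2 : List (List ℕ) := [[1, 1, 1], [3, 3, 3], [5, 5, 5], [9, 9, 9], [11, 11, 11], [1, 3, 1, 3], [3, 7, 3, 7], [3, 9, 3, 9], [3, 11, 3, 11], [5, 7, 5, 7], [5, 9, 5, 9], [5, 11, 5, 11], [7, 9, 7, 9], [7, 11, 7, 11], [9, 11, 9, 11], [13, 13], [13, 1, 14, 2], [13, 3, 14, 4], [13, 5, 12, 5, 14, 6, 11, 6]]

end Cfsg.Agent.MLin.Sp6
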