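import Cfsg.Agent.MLin.Fields
import Cfsg.Agent.MLin.Sp6Data
import Cfsg.Agent.MLin.Sp6Rel
import Cfsg.Agent.CosetEnum.MSp6.Certs
import Cfsg.Agent.ClassSp.Simple
import Cfsg.Agent.ClassSp.Order
import Cfsg.Prelude.Def_Classical
import Cfsg.Prelude.Def_KGroupFacts

/-!
The Schur multiplier of `Sp₆(2)` (owner: helper7).
-/
set_option autoImplicit false
set_option maxRecDepth 1000000

namespace Cfsg.Agent.MLin.Sp6

open Cfsg.Agent.CosetEnum Cfsg.Agent.PermTab Cfsg.Agent.MulX Cfsg.Agent.MLin Matrix Cfsg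

/-- numbering of the basis -/
def e : (Fin 3 ⊕ Fin 3) ≃ Fin 6 := finSumFinEquiv

/-- decoding over the prime field -/
abbrev dec0 : ℕ → ZMod 2 := fun a => ((a : ℕ) : ZMod 2)

theorem symp : ∀ i < 7, (mc 1 dec0 e (Mt i)) * (J (Fin 3) (ZMod 2)) * (mc 1 dec0 e (Mt i))ᵀ = J (Fin 3) (ZMod 2) := by
  decide +kernel

section

variable {F : Type*} [Field F] [Fintype F] (f : ZMod 2 ≃+* F)

theorem mc_map (m : ℕ) : mc 1 (fun a => f (dec0 a)) e m = (mc 1 dec0 e m).map f := rfl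

/-- generators -/
noncomputable def h (i : ℕ) : symplecticGroup (Fin 3) F :=
  if hi : i < 7 then ⟨(mc 1 dec0 e (Mt i)).map f,
    SymplecticGroup.map_mem (SymplecticGroup.mem_iff.2 (symp i hi)) f⟩ else 1

theorem rel_ok : letB 14 MSp6C.iv = true ∧ pairB 7 MSp6C.iv = true ∧ triB 14 MSp6C.iv R1 = true ∧
    relB MSp6C.iv 14 R1 R2 MSp6C.RL = true ∧
    (List.range (14 + 1)).all (fun x => !isLet 14 x || (R1.any fun q => q.1 == x || ivL MSp6C.iv q.1 == x)) = true ∧
    exB MSp6C.iv R1 MSp6C.RL = true ∧ ceB MSp6C.iv 14 R2 MSp6C.RL = true := by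
  decide +kernel

theorem fr_words : frB 6 (tfm gt gi idt 7) fr (R1.map Prod.snd) = true ∧ frB 6 (tfm gt gi idt 7) fr R2 = true := by
  decide +kernel

theorem card (hF : Fintype.card F = 2) : Nat.card (PSp 3 F) = 1451520 := by
  have h1 := Cfsg.Agent.ClassSp.card_fin (F := F) 3
  have h2 := Cfsg.Agent.ClassSp.card_center (l := Fin 3) (F := F)
  have h3 := Subgroup.card_eq_card_quotient_mul_card_subgroup (Subgroup.center (symplecticGroup (Fin 3) F))
  rw [h1, h2, hF] at h3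
  have e1 : Nat.gcd 2 (2 - 1) = 1 := by decide
  have e2 : 2 ^ (3 ^ 2) * ∏ i ∈ Finset.range 3, (2 ^ (2 * (i + 1)) - 1) = 1451520 := by decide
  rw [e1, e2, mul_one] at h3
  exact h3.symm

theorem cp (hF : Fintype.card F = 2) (C : Cod 1 6 8 2 (fun a => f (dec0 a))) :
    CP (fun x => (QuotientGroup.mk' (Subgroup.center (symplecticGroup (Fin 3) F))) (fam (h f) 7 x)) 14 MSp6C.iv R1 R2
      MSp6C.RL := by
  obtain ⟨h1, h2, h3, h4, h5, -, -⟩ := rel_ok
  obtain ⟨h6, h7⟩ := fr_words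
  obtain ⟨c1, c2⟩ := card_ok
  obtain ⟨f1, f2, f3⟩ := fr_ok
  have hfin : Finite (PSp 3 F) := Nat.finite_of_card_ne_zero (by rw [card hF]; norm_num)
  refine cp_proj C (by norm_num) e (μ := (symplecticGroup (Fin 3) F).subtype) Subtype.val_injective
    (h := h f) (Mt := Mt) ?_ (by norm_num) (by norm_num) hid gens_ok act_ok pts_ok frame_ok f3 f1 f2 mv_ok chain_ok c2
    h1 h2 h3 h4 h5 h6 h7 ?_
  · intro i hi
    show (h f i).1 = _
    unfold h
    rw [dif_pos hi]
    rfl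
  · rw [c1]
    exact (card hF).le

theorem bd : Bd (⊤ : Subgroup (QG 14 MSp6C.iv MSp6C.RL)) (1451520 * 2) := by
  have U := univ_qg 14 MSp6C.iv MSp6C.RL
  have g := U.good
  rw [← U.top]
  have h1 := (Bd.zero (qg 14 MSp6C.iv MSp6C.RL)).cl (M := 120) MSp6A.cert g (by decide +kernel) (by decide +kernel)
    (by norm_num) rfl
  have h2 := h1.cl (M := 40320) MSp6B.cert g (by decide +kernel) (by decide +kernel) (by norm_num) rfl
  exact h2.cl (M := 1451520 * 2) MSp6C.cert g (by decide +kernel) (by decide +kernel) (by norm_num) rfl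

theorem ord : 2 ∣ orderOf ((([[1, 3, 1, 3]] : List (List ℕ)).flatten.map (qg 14 MSp6C.iv MSp6C.RL)).prod) :=
  dvd_orderOf MSp6T.tabOK (c := [1, 3, 1, 3]) (by decide) (by norm_num) (i := 0) (by decide +kernel) (by decide +kernel)

theorem mult (hF : Fintype.card F = 2) : HasCyclicSchurMultiplier (PSp 3 F) 2 := by
  obtain ⟨-, -, -, -, -, h5, h6⟩ := rel_ok
  obtain ⟨f, C⟩ := exists_cod2 hF
  exact (cp f hF C).cyclic h5 h6 (card hF) (by norm_num) (by norm_num) bd (ws := [[1, 3, 1, 3]]) (by decide) ord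

end

end Cfsg.Agent.MLin.Sp6
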