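import Cfsg.Agent.MLin.Main
import Cfsg.Agent.MLin.Fields25
import Cfsg.Agent.MLin.IsoEx
import Cfsg.Agent.MLin.U35Data
import Cfsg.Agent.MLin.U35Rel
import Cfsg.Agent.CosetEnum.MU35.Certs
import Cfsg.Agent.MulX.Tab
import Cfsg.Agent.Uni.SU

/-!
A presentation of `U₃(5)` (owner: helper7).
-/
set_option autoImplicit false
set_option maxRecDepth 1000000

namespace Cfsg.Agent.MLin.U35

open Cfsg.Agent.CosetEnum Cfsg.Agent.PermTab Cfsg.Agent.MulX Cfsg.Agent.MLin Matrix Cfsg Subgroup Cfsg.Agent.Uni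

/-- numbering of the basis -/
abbrev e : Fin 3 ≃ Fin 3 := Equiv.refl _

theorem pres0 : ∀ i < 5, (mc 5 dec25 e (Mt i))ᵀ * (mc 5 dec25 e (Mt i)).map (fun x => x ^ 5) = 1 := by
  decide +kernel

theorem det0 : ∀ i < 5, (mc 5 dec25 e (Mt i)).det = 1 := by
  intro i hi
  rw [Matrix.det_fin_three]
  revert i
  decide +kernel

theorem rel_ok : letB 10 U35R.iv = true ∧ pairB 5 U35R.iv = true ∧ triB 10 U35R.iv U35R.R1 = true ∧
    relB U35R.iv 10 U35R.R1 U35R.R2 U35R.RL = true ∧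
    (List.range (10 + 1)).all (fun x => !isLet 10 x || (U35R.R1.any fun q => q.1 == x || ivL U35R.iv q.1 == x)) = true ∧
    relB U35R.iv 10 (U35R.R1 ++ U35R.R2.map fun w => (0, w)) [] U35R.RE = true := by
  decide +kernel

theorem fr_words : frB 7 (tfm gt gi idt 5) fr (U35R.R1.map Prod.snd) = true ∧
    frB 7 (tfm gt gi idt 5) fr U35R.R2 = true := by
  decide +kernel

theorem bd : Bd (⊤ : Subgroup (QG 10 U35R.iv U35R.RE)) 126000 := by
  have U := univ_qg 10 U35R.iv U35R.RE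
  have g := U.good
  rw [← U.top]
  have h1 := (Bd.zero (qg 10 U35R.iv U35R.RE)).cl (M := 60) MU35A.cert g (by decide +kernel) (by decide +kernel)
    (by norm_num) rfl
  have h2 := h1.cl (M := 2520) MU35B.cert g (by decide +kernel) (by decide +kernel) (by norm_num) rfl
  exact h2.cl (M := 126000) MU35C.cert g (by decide +kernel) (by decide +kernel) (by norm_num) rfl

section

variable {F : Type*} [Field F] [Fintype F] (hF : Fintype.card F = 5 ^ 2) (f : K25 ≃+* F)
  (C : Cod 5 At Ml 25 (fun a => f (dec25 a)))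

theorem mc_map (M : ℕ) : (mc 5 (fun a => f (dec25 a)) e M : Matrix (Fin 3) (Fin 3) F) =
    f.toRingHom.mapMatrix (mc 5 dec25 e M) := rfl

include hF in
theorem pres (i : ℕ) (hi : i < 5) : Pres 5 (mc 5 (fun a => f (dec25 a)) e (Mt i)) := by
  rw [pres_iff_transpose_mul hF]
  have h1 := congrArg (fun M : Matrix (Fin 3) (Fin 3) K25 => f.toRingHom.mapMatrix M) (pres0 i hi)
  simp only [map_mul, map_one] at h1
  rw [← h1]
  congr 1
  ext a b
  show _ ^ 5 = f (_ ^ 5)
  rw [map_pow]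
  rfl

theorem det_one (i : ℕ) (hi : i < 5) : (mc 5 (fun a => f (dec25 a)) e (Mt i)).det = 1 := by
  rw [mc_map, ← RingHom.map_det, det0 i hi, map_one]

/-- matrices of the special unitary group -/
def suM (F : Type*) [Field F] : SU 3 F 5 →* Matrix (Fin 3) (Fin 3) F :=
  (slToMat 3 F).comp (SU 3 F 5).subtype

theorem suM_inj (F : Type*) [Field F] [Fintype F] : Function.Injective (suM F) := fun _ _ h => SU_ext h

/-- generators -/
noncomputable def h (i : ℕ) : SU 3 F 5 :=
  if hi : i < 5 then mkSU (mc 5 (fun a => f (dec25 a)) e (Mt i)) (pres hF f i hi) (det_one f i hi) else 1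

theorem suM_h (i : ℕ) (hi : i < 5) : suM F (h hF f i) = mc 5 (fun a => f (dec25 a)) e (Mt i) := by
  unfold h
  rw [dif_pos hi]
  rfl

include hF in
theorem card : Nat.card (PSU 3 F 5) = 126000 := by
  have h := Uni.card_PSU (n := 3) hF (by norm_num)
  have e : ∏ i ∈ Finset.range 3, (if Even i then 5 ^ (i + 1) + 1 else 5 ^ (i + 1) - 1) = 6 * 24 * 126 := by decide
  rw [e] at h
  norm_num at h ⊢
  omega

include C in
theorem cp : CP (fun x => (QuotientGroup.mk' (center (SU 3 F 5))) (fam (h hF f) 5 x)) 10 U35R.iv U35R.R1 U35R.R2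
      U35R.RL := by
  obtain ⟨h1, h2, h3, h4, h5, -⟩ := rel_ok
  obtain ⟨h6, h7⟩ := fr_words
  obtain ⟨c1, c2⟩ := card_ok
  obtain ⟨f1, f2, f3⟩ := fr_ok
  have hfin : Finite (PSU 3 F 5) := Nat.finite_of_card_ne_zero (by rw [card hF]; norm_num)
  refine cp_proj C (by norm_num) e (μ := suM F) (suM_inj F)
    (h := h hF f) (Mt := Mt) (suM_h hF f) (by norm_num) (by norm_num) hid gens_ok act_ok pts_ok frame_ok f3 f1 f2
    mv_ok chain_ok c2 h1 h2 h3 h4 h5 h6 h7 ?_
  rw [c1]
  exact (card hF).le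

end

end Cfsg.Agent.MLin.U35
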