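import Cfsg.Agent.MLin.FrameC
import Cfsg.Agent.MLin.U35LData
import Cfsg.Agent.MLin.IsoCP
import Cfsg.Agent.MLin.U35
import Cfsg.Agent.Leech.Orders
import Cfsg.Agent.Leech.RankFin

/-!
The action of the Higman-Sims group on 352 vectors (owner: helper7).
-/
set_option autoImplicit false
set_option maxRecDepth 1000000

namespace Cfsg.Agent.MLin.U35St

open Cfsg Cfsg.Agent Cfsg.Agent.Leech Cfsg.Agent.PermTab Cfsg.Agent.CosetEnum Cfsg.Agent.MulX Cfsg.Agent.MLin
  Cfsg.Agent.MLin.Lat Cfsg.Agent.MLin.U35L MulAction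

theorem card_inf_stab {G X : Type*} [Group G] [MulAction G X] (H : Subgroup G) (w : X) (S : Set X)
    (hS : ∀ x, x ∈ S ↔ ∃ g ∈ H, g • w = x) :
    S.ncard * Nat.card (H ⊓ stabilizer G w : Subgroup G) = Nat.card H := by
  rw [← orbit_mul_card (G := H) w]
  have h1 : MulAction.orbit H w = S := by
    ext x
    rw [hS]
    constructor
    · rintro ⟨g, rfl⟩; exact ⟨g, g.2, rfl⟩
    · rintro ⟨g, hg, rfl⟩; exact ⟨⟨g, hg⟩, rfl⟩
  rw [h1]
  congr 1
  have h2 : MulAction.stabilizer H w = (H ⊓ stabilizer G w).subgroupOf H := by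
    ext g
    rw [Subgroup.mem_subgroupOf]
    constructor
    · intro h; exact ⟨g.2, h⟩
    · intro h; exact h.2
  rw [h2]
  exact (Nat.card_congr (Subgroup.subgroupOfEquivOfLe inf_le_left).toEquiv).symm

/-! ### the set of 352 vectors -/

theorem orbit_neg (S : Subgroup Co0) (p : leechLattice) : orbit S (-p) = (fun x => -x) '' orbit S p := by
  ext x
  constructor
  · rintro ⟨g, rfl⟩
    exact ⟨(g : Co0) • p, ⟨g, rfl⟩, (co0_neg _ _).symm⟩
  · rintro ⟨_, ⟨g, rfl⟩, rfl⟩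
    exact ⟨g, co0_neg _ _⟩

theorem o352_neg_ge : 352 ≤ (orbit stHS (-p352)).ncard := by
  rw [orbit_neg, Set.ncard_image_of_injective _ neg_injective]
  exact o352_ge

theorem T352_orbit : orbit stHS (-p352) = T3 Spor.leechV wHS 16 (-24) :=
  orbit_eq_of_ge (T3_finite _ _ _ _) T352_ncard
    (orbit_subset_T3 ⟨by rw [AddSubgroup.coe_neg, sqNorm_neg]; exact norm_p352, by decide +kernel, by decide +kernel⟩
      stHS_V stHS_w) o352_neg_ge

theorem codeV : ∀ p, (Spor.leechV : GolayPt → ℤ) p = ivv (tget 96 cd 50) p := by decide +kernel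

theorem codeW : ∀ p, (wHS : GolayPt → ℤ) p = ivv (tget 96 cd 51) p := by decide +kernel

theorem test_X : leechTest (ivv (tget 96 cd 52)) = true := by decide +kernel

/-- the third vector -/
def X0 : leechLattice := ⟨ivv (tget 96 cd 52), mem_of_test test_X⟩

theorem X0_mem : X0 ∈ T3 Spor.leechV wHS 16 (-24) := by
  refine ⟨?_, ?_, ?_⟩ <;> decide +kernel

theorem T352_orbit' : orbit stHS X0 = T3 Spor.leechV wHS 16 (-24) := by
  rw [← T352_orbit]
  apply orbit_eq_iff.2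
  rw [T352_orbit]
  exact X0_mem

/-- the group -/
abbrev S : Subgroup Co0 := stabilizer Co0 Spor.leechV ⊓ stabilizer Co0 wHS ⊓ stabilizer Co0 X0

theorem stHS_eq : stHS = stabilizer Co0 Spor.leechV ⊓ stabilizer Co0 wHS := by
  apply le_antisymm (le_inf stHS_V stHS_w)
  rintro g ⟨h1, h2⟩
  refine ⟨h1, ?_⟩
  have h1' : g • Spor.leechV = Spor.leechV := h1
  have h2' : g • wHS = wHS := h2
  show g • Spor.leechU' = Spor.leechU'
  have e : Spor.leechU' = -wHS - Spor.leechV := by unfold wHS; abel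
  rw [e, co0_sub, co0_neg, h1', h2']

theorem card_S : Nat.card S = 126000 := by
  have h := card_inf_stab (stabilizer Co0 Spor.leechV ⊓ stabilizer Co0 wHS) X0
    (T3 Spor.leechV wHS 16 (-24)) (by
      intro x
      rw [← T352_orbit', stHS_eq]
      constructor
      · rintro ⟨g, rfl⟩; exact ⟨g, g.2, rfl⟩
      · rintro ⟨g, hg, rfl⟩; exact ⟨⟨g, hg⟩, rfl⟩)
  rw [card_stab_48_48 _ _ norm_leechV norm_wHS dot_V_wHS, T352_ncard] at h
  change 352 * Nat.card S = 44352000 at h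
  omega

theorem faith {pt : Fin 50 → leechLattice} (hpt : ∀ i : Fin 50, Pt cd i (pt i)) (a : S)
    (h : ∀ i : Fin 50, (i : ℕ) ∈ fr → a • pt i = pt i) : a = 1 := by
  apply Subtype.ext
  apply faith_codes (by norm_num) frame_ok
  intro j hj
  by_cases hj2 : fk.getD j 0 < 50
  · exact ⟨pt ⟨_, hj2⟩, hpt _, h ⟨_, hj2⟩ (fk_ok j hj hj2)⟩
  · have key : ∀ j < 24, fk.getD j 0 < 50 ∨ fk.getD j 0 = 50 ∨ fk.getD j 0 = 51 ∨ fk.getD j 0 = 52 := by
      decide +kernel
    rcases key j hj with k | k | k | k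
    · exact absurd k hj2
    · rw [k]
      exact ⟨Spor.leechV, funext codeV, a.2.1.1⟩
    · rw [k]
      exact ⟨wHS, funext codeW, a.2.1.2⟩
    · rw [k]
      exact ⟨X0, rfl, a.2.2⟩

theorem stab_of_maps (g : Co0) (h : ∀ j < 3, Maps g (tget 96 cd (50 + j)) (tget 96 cd (50 + j))) : g ∈ S := by
  have h2 : (Spor.leechV : GolayPt → ℤ) = ivv (tget 96 cd (50 + 0)) := funext codeV
  have h3 := h 0 (by norm_num) Spor.leechV h2
  have h4 : (wHS : GolayPt → ℤ) = ivv (tget 96 cd (50 + 1)) := funext codeW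
  have h5 := h 1 (by norm_num) wHS h4
  have h6 : (X0 : GolayPt → ℤ) = ivv (tget 96 cd (50 + 2)) := rfl
  have h7 := h 2 (by norm_num) X0 h6
  refine ⟨⟨?_, ?_⟩, ?_⟩
  · show g • Spor.leechV = Spor.leechV
    apply Subtype.ext
    rw [h3]
    exact h2.symm
  · show g • wHS = wHS
    apply Subtype.ext
    rw [h5]
    exact h4.symm
  · show g • X0 = X0
    apply Subtype.ext
    rw [h7]
    exact h6.symm

/-- steps of the letters -/
def stL : ℕ → List ((ℕ × ℕ) × ℕ)
  | 0 => st0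
  | 1 => st1
  | 2 => st2
  | 3 => st3
  | 4 => st4
  | _ => []

theorem letters_ok : ∀ i < 5, letB' 6 50 3 (U35L.gt i) U35L.cd (stL i) = true := by
  intro i hi
  match i, hi with
  | 0, _ => exact U35L.act0
  | 1, _ => exact U35L.act1
  | 2, _ => exact U35L.act2
  | 3, _ => exact U35L.act3
  | 4, _ => exact U35L.act4
  | m + 5, h => exact absurd h (by omega)

theorem fr_words : frB 6 (tfm U35L.gt U35L.gi U35L.idt 5) U35L.fr (U35R.R1.map Prod.snd) = true ∧
    frB 6 (tfm U35L.gt U35L.gi U35L.idt 5) U35L.fr U35R.R2 = true := by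
  decide +kernel

theorem exists_cp : ∃ h : ℕ → S, CP (fam h 5) 10 U35R.iv U35R.R1 U35R.R2 U35R.RL := by
  obtain ⟨pt, hpt⟩ := exists_pt pts_ok
  obtain ⟨h, hh⟩ := exists_letters (k := 5) stab_of_maps letters_ok
  obtain ⟨h1, h2, h3, h4, h5, -⟩ := U35.rel_ok
  obtain ⟨h6, h7⟩ := fr_words
  have hfin : Finite S := Nat.finite_of_card_ne_zero (by rw [card_S]; norm_num)
  exact ⟨h, cp_lat (by norm_num) hid gens_ok hpt (pt_inj hpt (by norm_num) inc_ok) hh (faith hpt) h1 h2 h3 h4 h5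
    h6 h7 chain_ok (by rw [card_ok, card_S])⟩

theorem iso_psu {F : Type} [Field F] [Fintype F] (hF : Fintype.card F = 25) : Nonempty (S ≃* PSU 3 F 5) := by
  have hF' : Fintype.card F = 5 ^ 2 := by rw [hF]; norm_num
  obtain ⟨f, C⟩ := exists_cod25 hF
  obtain ⟨h, D⟩ := exists_cp
  obtain ⟨-, -, -, -, -, h6⟩ := U35.rel_ok
  exact iso_of_exact D (U35.cp hF' f C) h6 card_S (U35.card hF') U35.bd (by norm_num)

theorem result (v w : leechLattice) (hv : sqNorm (v : GolayPt → ℤ) = 48) (hw : sqNorm (w : GolayPt → ℤ) = 48)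
    (hvw : dotInt (v : GolayPt → ℤ) (w : GolayPt → ℤ) = -32) (F : Type) [Field F] [Fintype F]
    (hF : Fintype.card F = 25) :
    (T3 v w 16 (-24)).ncard = 352 ∧ (∀ x ∈ T3 v w 16 (-24), -w - x ∈ T3 v w 16 (-24)) ∧
    (∀ x ∈ T3 v w 16 (-24), ∀ x' ∈ T3 v w 16 (-24), ∃ g : Co0, g • v = v ∧ g • w = w ∧ g • x = x') ∧
    ∀ x ∈ T3 v w 16 (-24), Nonempty ((stabilizer Co0 v ⊓ stabilizer Co0 w ⊓ stabilizer Co0 x : Subgroup Co0) ≃*
      PSU 3 F 5) := by
  obtain ⟨g, h1, h2⟩ := hs_std v w hv hw hvw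
  refine ⟨by rw [T3_transport h1 h2, T352_ncard], ?_, fun x hx x' hx' => ?_, fun x hx => ?_⟩
  · rintro x ⟨a1, a2, a3⟩
    have e : ((-w - x : leechLattice) : GolayPt → ℤ) = -((w : GolayPt → ℤ) + (x : GolayPt → ℤ)) := by
      rw [AddSubgroup.coe_sub, AddSubgroup.coe_neg]; abel
    have b1 : dotInt (v : GolayPt → ℤ) ((w : GolayPt → ℤ) + (x : GolayPt → ℤ)) = -16 := by
      rw [dotInt_comm, dotInt_add_left, dotInt_comm, hvw, dotInt_comm, a2]; norm_num
    have b2 : dotInt (w : GolayPt → ℤ) ((w : GolayPt → ℤ) + (x : GolayPt → ℤ)) = 24 := by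
      rw [dotInt_comm, dotInt_add_left, dotInt_self, hw, dotInt_comm, a3]; norm_num
    refine ⟨?_, ?_, ?_⟩
    · show sqNorm ((-w - x : leechLattice) : GolayPt → ℤ) = 32
      rw [e, sqNorm_neg, sqNorm_add, hw, a1, a3]; norm_num
    · show dotInt (v : GolayPt → ℤ) ((-w - x : leechLattice) : GolayPt → ℤ) = 16
      rw [e, dotInt_comm, dotInt_neg_l, dotInt_comm, b1]; norm_num
    · show dotInt (w : GolayPt → ℤ) ((-w - x : leechLattice) : GolayPt → ℤ) = -24
      rw [e, dotInt_comm, dotInt_neg_l, dotInt_comm, b2]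
  · exact trans_transport h1 h2 stHS_V stHS_w T352_orbit' hx hx'
  · obtain ⟨k, k1, k2, k3⟩ := triple_std h1 h2 stHS_V stHS_w T352_orbit' hx
    obtain ⟨t⟩ := triple_equiv k (a := v) (b := w) (c := x) k1 k2 k3
    obtain ⟨f⟩ := iso_psu hF
    exact ⟨t.trans f⟩

end Cfsg.Agent.MLin.U35St
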