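import Cfsg.Agent.MLin.LatG
import Cfsg.Agent.MLin.U43StData
import Cfsg.Agent.MLin.IsoCP
import Cfsg.Agent.MulX.U43
import Cfsg.Agent.LeechSimple.McL
import Cfsg.Agent.S1580
import Cfsg.Agent.S0280
import Cfsg.Agent.ClassO.Iso6n
import Cfsg.Agent.ClassBase.RelHom

/-!
The point stabiliser of the McLaughlin group (owner: helper7).
-/
set_option autoImplicit false
set_option maxRecDepth 1000000

namespace Cfsg.Agent.MLin.U43St

open Cfsg Cfsg.Agent Cfsg.Agent.Leech Cfsg.Agent.PermTab Cfsg.Agent.CosetEnum Cfsg.Agent.MulX Cfsg.Agent.MLin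
  Cfsg.Agent.MLin.Lat Cfsg.Agent.LeechSimple MulAction

theorem codeV : ∀ p, (Spor.leechV : GolayPt → ℤ) p = ivv (tget 96 cd 275) p := by decide +kernel

theorem codeU : ∀ p, (Spor.leechU : GolayPt → ℤ) p = ivv (tget 96 cd 276) p := by decide +kernel

theorem test_X : leechTest (ivv (tget 96 cd 277)) = true := by decide +kernel

/-- the third vector -/
def X0 : leechLattice := ⟨ivv (tget 96 cd 277), mem_of_test test_X⟩

theorem X0_mem : sqNorm (X0 : GolayPt → ℤ) = 32 ∧
    sqNorm ((Spor.leechV : GolayPt → ℤ) - (X0 : GolayPt → ℤ)) = 32 ∧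
    dotInt ((-Spor.leechU : leechLattice) : GolayPt → ℤ) (X0 : GolayPt → ℤ) = 16 := by
  refine ⟨?_, ?_, ?_⟩ <;> decide +kernel

/-- the group -/
abbrev S : Subgroup Co0 := stabilizer Co0 Spor.leechV ⊓ stabilizer Co0 Spor.leechU ⊓ stabilizer Co0 X0

theorem card_S : Nat.card S = 3265920 := by
  obtain ⟨h1, h2⟩ := S1580.result Spor.leechV (-Spor.leechU) norm_leechV ⟨norm_neg_U, norm_V_sub_neg_U⟩
  have h := card_inf_stab mclSub X0 (S := {x : leechLattice | sqNorm (x : GolayPt → ℤ) = 32 ∧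
    sqNorm (((Spor.leechV : leechLattice) : GolayPt → ℤ) - (x : GolayPt → ℤ)) = 32 ∧
    dotInt ((-Spor.leechU : leechLattice) : GolayPt → ℤ) (x : GolayPt → ℤ) = 16}) (by
      intro x
      constructor
      · intro hx
        obtain ⟨g, g1, g2, g3⟩ := h2 X0 X0_mem x hx
        refine ⟨g, ⟨g1, ?_⟩, g3⟩
        rw [← LeechSimple.stab_neg]
        exact g2
      · rintro ⟨g, hg, rfl⟩
        have g1 : g • Spor.leechV = Spor.leechV := hg.1
        have g2 : g • (-Spor.leechU) = -Spor.leechU := by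
          have := hg.2
          rw [← LeechSimple.stab_neg] at this
          exact this
        refine ⟨by rw [co0_norm]; exact X0_mem.1, ?_, ?_⟩
        · have h3 := co0_dot g Spor.leechV X0
          rw [g1] at h3
          have h4 := Leech.sqNorm_sub (Spor.leechV : GolayPt → ℤ) ((g • X0 : leechLattice) : GolayPt → ℤ)
          have h5 := Leech.sqNorm_sub (Spor.leechV : GolayPt → ℤ) (X0 : GolayPt → ℤ)
          rw [co0_norm, h3, ← h5] at h4
          exact h4.trans X0_mem.2.1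
        · have h3 := co0_dot g (-Spor.leechU) X0
          rw [g2] at h3
          exact h3.trans X0_mem.2.2)
  rw [card_mcl] at h
  rw [h1] at h
  change 275 * Nat.card S = 898128000 at h
  omega

theorem frame_none : ∀ p : GolayPt, 9 * (e8 none : GolayPt → ℤ) p =
    4 * (Spor.leechV : GolayPt → ℤ) p + (Spor.leechU : GolayPt → ℤ) p - ∑ i : Fin 22, ivv (tget 96 cd (fr.getD i 0)) p := by
  decide +kernel

theorem frame_zero : ∀ p : GolayPt, (e8 (some 0) : GolayPt → ℤ) p =
    2 * (Spor.leechU : GolayPt → ℤ) p - (e8 none : GolayPt → ℤ) p := by decide +kernel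

theorem frame_some : ∀ j : ZMod 23, j ≠ 0 → ∀ p : GolayPt, (e8 (some j) : GolayPt → ℤ) p =
    -2 * ivv (tget 96 cd (fr.getD (j.val - 1) 0)) p - (e8 none : GolayPt → ℤ) p := by decide +kernel

theorem fr_lt : ∀ i < 22, fr.getD i 0 < 275 ∧ fr.getD i 0 ∈ fr := by decide +kernel

section

variable {pt : Fin 275 → leechLattice} (hpt : ∀ i : Fin 275, Pt cd i (pt i))

include hpt

theorem faith (a : S) (h : ∀ i : Fin 275, (i : ℕ) ∈ fr → a • pt i = pt i) : a = 1 := by
  apply Subtype.ext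
  have hV : Spor.leechV ∈ fixL (a : Co0) := a.2.1.1
  have hU : Spor.leechU ∈ fixL (a : Co0) := a.2.1.2
  have hx : ∀ i : ℕ, ∀ hi : i < 22, pt ⟨fr.getD i 0, (fr_lt i hi).1⟩ ∈ fixL (a : Co0) :=
    fun i hi => h _ (fr_lt i hi).2
  have h0 : e8 none ∈ fixL (a : Co0) := by
    apply fix_of_nsmul (m := 9) (by norm_num)
    have e : (9 : ℕ) • e8 none = (4 : ℕ) • Spor.leechV + Spor.leechU -
        ∑ i : Fin 22, pt ⟨fr.getD i 0, (fr_lt i i.2).1⟩ := by
      apply Subtype.ext
      funext p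
      rw [AddSubgroup.coe_nsmul, AddSubgroup.coe_sub, AddSubgroup.coe_add, AddSubgroup.coe_nsmul,
        AddSubgroup.val_finsetSum]
      have h1 := frame_none p
      have h2 : ∀ i : Fin 22, (pt ⟨fr.getD i 0, (fr_lt i i.2).1⟩ : GolayPt → ℤ) = ivv (tget 96 cd (fr.getD i 0)) :=
        fun i => hpt _
      simp only [h2, Pi.smul_apply, Pi.sub_apply, Pi.add_apply, Finset.sum_apply, nsmul_eq_mul, Nat.cast_ofNat] at h1 ⊢
      exact h1
    rw [e]
    exact (fixL (a : Co0)).sub_mem ((fixL (a : Co0)).add_mem ((fixL (a : Co0)).nsmul_mem hV 4) hU)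
      (AddSubgroup.sum_mem _ fun i _ => hx i i.2)
  apply eq_one_of_fix_e8
  intro i
  match i with
  | none => exact h0
  | some j =>
    by_cases hj0 : j = 0
    · subst hj0
      have e : e8 (some 0) = (2 : ℕ) • Spor.leechU - e8 none := by
        apply Subtype.ext
        funext p
        rw [AddSubgroup.coe_sub, AddSubgroup.coe_nsmul]
        have h1 := frame_zero p
        simp only [Pi.sub_apply, nsmul_eq_mul, Nat.cast_ofNat]
        rw [h1]
        have h3 : (2 * (Spor.leechU : GolayPt → ℤ) : GolayPt → ℤ) p = 2 * (Spor.leechU : GolayPt → ℤ) p := rfl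
        rw [h3]
      have h3 : e8 (some 0) ∈ fixL (a : Co0) := by
        rw [e]
        exact (fixL (a : Co0)).sub_mem ((fixL (a : Co0)).nsmul_mem hU 2) h0
      exact h3
    · have hj : j.val < 23 := ZMod.val_lt j
      have hj1 : j.val ≠ 0 := fun h => hj0 ((ZMod.val_eq_zero j).1 h)
      have hj2 : j.val - 1 < 22 := by omega
      have e : e8 (some j) = -((2 : ℕ) • pt ⟨fr.getD (j.val - 1) 0, (fr_lt _ hj2).1⟩) - e8 none := by
        apply Subtype.ext
        funext p
        rw [AddSubgroup.coe_sub, AddSubgroup.coe_neg, AddSubgroup.coe_nsmul]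
        have h1 := frame_some j hj0 p
        have h2 : (pt ⟨fr.getD (j.val - 1) 0, (fr_lt _ hj2).1⟩ : GolayPt → ℤ) = ivv (tget 96 cd (fr.getD (j.val - 1) 0)) :=
          hpt _
        simp only [h2, Pi.sub_apply, Pi.neg_apply, nsmul_eq_mul, Nat.cast_ofNat]
        rw [h1]
        have h3 : (2 * ivv (tget 96 cd (fr.getD (j.val - 1) 0)) : GolayPt → ℤ) p =
          2 * ivv (tget 96 cd (fr.getD (j.val - 1) 0)) p := rfl
        rw [h3]
        ring
      have h3 : e8 (some j) ∈ fixL (a : Co0) := by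
        rw [e]
        exact (fixL (a : Co0)).sub_mem ((fixL (a : Co0)).neg_mem ((fixL (a : Co0)).nsmul_mem (hx _ hj2) 2)) h0
      exact h3

end

theorem stab_of_maps (g : Co0) (h : ∀ j < 3, Maps g (tget 96 cd (275 + j)) (tget 96 cd (275 + j))) : g ∈ S := by
  have h2 : (Spor.leechV : GolayPt → ℤ) = ivv (tget 96 cd (275 + 0)) := funext codeV
  have h3 := h 0 (by norm_num) Spor.leechV h2
  have h4 : (Spor.leechU : GolayPt → ℤ) = ivv (tget 96 cd (275 + 1)) := funext codeU
  have h5 := h 1 (by norm_num) Spor.leechU h4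
  have h6 : (X0 : GolayPt → ℤ) = ivv (tget 96 cd (275 + 2)) := rfl
  have h7 := h 2 (by norm_num) X0 h6
  refine ⟨⟨?_, ?_⟩, ?_⟩
  · show g • Spor.leechV = Spor.leechV
    apply Subtype.ext
    rw [h3]
    exact h2.symm
  · show g • Spor.leechU = Spor.leechU
    apply Subtype.ext
    rw [h5]
    exact h4.symm
  · show g • X0 = X0
    apply Subtype.ext
    rw [h7]
    exact h6.symm

/-- steps of the letters -/
def stL : ℕ → List ((ℕ × ℕ) × ℕ)
  | 0 => st0
  | 1 => st1
  | 2 => st2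
  | 3 => st3
  | 4 => st4
  | 5 => st5
  | _ => []

theorem letters_ok : ∀ i < 6, letB' 9 275 3 (gt i) cd (stL i) = true := by
  intro i hi
  match i, hi with
  | 0, _ => exact act0
  | 1, _ => exact act1
  | 2, _ => exact act2
  | 3, _ => exact act3
  | 4, _ => exact act4
  | 5, _ => exact act5
  | m + 6, h => exact absurd h (by omega)

theorem pair_ok : pairB 6 MU43G.iv = true := by decide +kernel

theorem fr_words : frB 9 (tfm gt gi idt 6) fr (MU43R.R1.map Prod.snd) = true ∧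
    frB 9 (tfm gt gi idt 6) fr MU43R.R2 = true := by
  decide +kernel

theorem exists_cp : ∃ h : ℕ → S, CP (fam h 6) 12 MU43G.iv MU43R.R1 MU43R.R2 MU43G.RL := by
  obtain ⟨pt, hpt⟩ := exists_pt pts_ok
  obtain ⟨h, hh⟩ := exists_letters (k := 6) stab_of_maps letters_ok
  obtain ⟨h1, h3, h4, h5, -, -⟩ := U43.rel_ok
  obtain ⟨h6, h7⟩ := fr_words
  have hfin : Finite S := Nat.finite_of_card_ne_zero (by rw [card_S]; norm_num)
  exact ⟨h, cp_lat (by norm_num) hid gens_ok hpt (pt_inj hpt (by norm_num) inc_ok) hh (faith hpt) h1 pair_ok h3 h4 h5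
    h6 h7 chain_ok (by rw [card_ok, card_S])⟩

theorem iso_psu (card : Nat.card (PSU 4 ClassBase.PSL29.K9 3) = 3265920) :
    Nonempty (S ≃* PSU 4 ClassBase.PSL29.K9 3) := by
  obtain ⟨h, C⟩ := exists_cp
  obtain ⟨-, -, -, -, h5, h6⟩ := U43.rel_ok
  obtain ⟨σ, -, k1, k2, -, -⟩ := U43.main card
  refine iso_of_cp C (U43.cp card) h5 h6 card_S card (by norm_num) U43.bd ?_
  rw [← k1, k2]

theorem result (u v x : leechLattice) (hu : sqNorm (u : GolayPt → ℤ) = 48)
    (hv : sqNorm (v : GolayPt → ℤ) = 32 ∧ sqNorm ((u - v) : GolayPt → ℤ) = 32)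
    (hx : x ∈ {x : leechLattice | sqNorm (x : GolayPt → ℤ) = 32 ∧ sqNorm ((u - x) : GolayPt → ℤ) = 32 ∧
      dotInt (v : GolayPt → ℤ) (x : GolayPt → ℤ) = 16}) (F : Type) [Field F] [Fintype F] (hF : Fintype.card F = 9) :
    Nonempty ((stabilizer Co0 u ⊓ stabilizer Co0 v ⊓ stabilizer Co0 x : Subgroup Co0) ≃* PSU 4 F 3) := by
  have e : ClassBase.PSL29.K9 ≃+* F :=
    FiniteField.ringEquivOfCardEq (by rw [hF, ClassBase.PSL29.card_k9])
  have card : Nat.card (PSU 4 ClassBase.PSL29.K9 3) = 3265920 := by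
    have h := S0280.result (q := 3) ClassBase.PSL29.card_k9 4 (by norm_num)
    have e1 : Nat.gcd 4 (3 + 1) = 4 := by decide
    have e2 : (∏ i ∈ Finset.range 4, (if Even i then 3 ^ (i + 1) + 1 else 3 ^ (i + 1) - 1)) = 71680 := by decide
    rw [e1, e2] at h
    norm_num at h
    omega
  obtain ⟨f⟩ := iso_psu card
  obtain ⟨g, g1, g2⟩ := mcl_std u v hu hv
  obtain ⟨k, k1, k2, k3⟩ := (S1580.result Spor.leechV (-Spor.leechU) norm_leechV ⟨norm_neg_U, norm_V_sub_neg_U⟩).2
    (g • x) (by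
      have a1 := co0_dot g u x
      have a2 := co0_dot g v x
      rw [g1] at a1
      rw [g2] at a2
      refine ⟨by rw [co0_norm]; exact hx.1, ?_, a2.trans hx.2.2⟩
      have h4 := Leech.sqNorm_sub (Spor.leechV : GolayPt → ℤ) ((g • x : leechLattice) : GolayPt → ℤ)
      have h5 := Leech.sqNorm_sub (u : GolayPt → ℤ) (x : GolayPt → ℤ)
      rw [co0_norm, a1, norm_leechV, ← hu, ← h5] at h4
      exact h4.trans hx.2.1) X0 X0_mem
  obtain ⟨t⟩ := triple_equiv (k * g) (a := u) (b := v) (c := x) (by rw [mul_smul, g1, k1])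
    (by rw [mul_smul, g2, k2]) (by rw [mul_smul, k3])
  rw [LeechSimple.stab_neg] at t
  exact ⟨t.trans (f.trans (Cfsg.Agent.ClassBase.quotCenterCongr (Cfsg.Agent.ClassO.suCongr e 3)))⟩

end Cfsg.Agent.MLin.U43St
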