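import Cfsg.Agent.MLin.Main

/-! Inverse matrices (generated data, owner: helper7). -/

set_option autoImplicit false

namespace Cfsg.Agent.MLin.U6

/-- matrices -/
def Mi : ℕ → ℕ
  | 0 => 0x4001000ce03008f0cb
  | 1 => 0x40010008002e02b03a
  | 2 => 0x4001000e40e104a01f
  | 3 => 0x400100040010003008
  | 4 => 0x40010001e04e0a30f8
  | 5 => 0x400019040109333118
  | 6 => 0x100400040010004001
  | _ => 0

end Cfsg.Agent.MLin.U6
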