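import Cfsg.Agent.MulX.Tab

/-! Relators (generated data, owner: helper7). -/

set_option autoImplicit false

namespace Cfsg.Agent.MLin.U6

/-- exact relators -/
def R1 : List (ℕ × List ℕ) := [(1, [1, 1, 3, 6, 3, 2, 4, 5, 4]), (3, [3, 3, 1, 6, 1, 4, 2, 5, 2]), (5, [5, 5, 1, 4, 1, 6, 2, 3, 2]), (7, [7, 5, 8, 6, 6, 7, 5, 1, 6, 8, 5, 2, 3, 6, 7, 5, 4]), (9, [9, 5, 7, 6, 9, 5, 8, 6, 10, 5, 8, 6]), (11, [11, 9, 11, 10, 12, 10]), (13, [13, 11, 13, 12, 14, 12])]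

/-- central relators -/
def R2 : List (List ℕ) := [[1, 1, 1], [3, 3, 3], [5, 5, 5], [1, 5, 1, 5], [3, 5, 3, 5], [7, 7], [7, 1, 8, 2], [7, 3, 8, 4], [9, 9], [9, 1, 10, 2], [9, 3, 10, 4], [9, 5, 9, 6, 10, 5, 10, 6], [9, 7, 10, 8], [5, 7, 9, 5, 7, 9, 5, 7, 9, 5, 7, 9], [11, 11], [11, 7, 12, 8], [11, 5, 9, 6, 12, 5, 10, 6], [11, 1, 9, 6, 7, 5, 12, 6, 8, 5, 10, 2], [11, 3, 6, 7, 5, 9, 12, 10, 6, 8, 5, 4], [13, 3, 14, 4], [13, 5, 14, 6], [13, 7, 14, 8], [13, 9, 14, 10], [1, 3, 6, 1, 11, 1, 11, 9, 6, 11, 4, 2, 12, 5, 10, 12, 2, 12, 2, 5], [1, 3, 2, 11, 4, 11, 1, 11, 3, 11, 4, 2, 12, 4, 12, 2, 12, 3, 12, 1], [6, 1, 11, 1, 11, 9, 6, 11, 2, 11, 4, 11, 1, 11, 3, 5, 10, 12, 2, 12, 2, 5, 12, 4, 12, 2, 12, 3, 12, 1, 3, 1], [2, 3, 11, 13, 9, 11, 2, 3, 11, 13, 9, 11],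 [6, 11, 13, 9, 6, 11, 13, 9, 6, 11, 13, 9, 6, 11, 13, 9, 6, 11, 13, 9, 6, 11, 13, 9, 6, 11, 13, 9], [6, 11, 13, 7, 6, 11, 13, 7, 6, 11, 13, 7, 6, 11, 13, 7, 6, 11, 13, 7, 6, 11, 13, 7, 6, 11, 13, 7]]

end Cfsg.Agent.MLin.U6
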