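import Cfsg.Agent.MLin.Exact
import Cfsg.Agent.MLin.Fields4
import Cfsg.Agent.MLin.U6Data
import Cfsg.Agent.MLin.U6Rel
import Cfsg.Agent.MLin.U6Inv
import Cfsg.Agent.CosetEnum.MU6.Certs
import Cfsg.Agent.MulX.Multi
import Cfsg.Agent.Uni.SU

/-!
The Schur multiplier of `U₆(2)` (owner: helper7).
-/
set_option autoImplicit false
set_option maxRecDepth 1000000

namespace Cfsg.Agent.MLin.U6

open Cfsg.Agent.CosetEnum Cfsg.Agent.PermTab Cfsg.Agent.MulX Cfsg.Agent.MLin Matrix Cfsg Subgroup Cfsg.Agent.Uni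

/-- numbering of the basis -/
abbrev e : Fin 6 ≃ Fin 6 := Equiv.refl _

theorem pres0 : ∀ i < 7, (mc 2 dec4 e (Mt i))ᵀ * (mc 2 dec4 e (Mt i)).map (fun x => x * x) = 1 := by
  decide +kernel

theorem inv_ok : ∀ i < 7, mulB 2 At Ml 6 (Mi i) (Mt i) Id = true := by
  decide +kernel

theorem id_ok : idB 2 6 Id = true := by decide +kernel

theorem rel_ok : letB 14 MU6D.iv = true ∧ pairB 7 MU6D.iv = true ∧ triB 14 MU6D.iv R1 = true ∧
    relB MU6D.iv 14 R1 R2 MU6D.RL = true ∧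
    (List.range (14 + 1)).all (fun x => !isLet 14 x || (R1.any fun q => q.1 == x || ivL MU6D.iv q.1 == x)) = true ∧
    exB MU6D.iv R1 MU6D.RL = true ∧ ceB MU6D.iv 14 R2 MU6D.RL = true := by
  decide +kernel

theorem fr_words : frB 10 (tfm gt gi idt 7) fr (R1.map Prod.snd) = true ∧ frB 10 (tfm gt gi idt 7) fr R2 = true := by
  decide +kernel

theorem vec_words : wvB 2 At Ml 6 7 (mfm Mt Mi) (R1.map Prod.snd) 1 = true := by
  decide +kernel

/-- central words -/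
def wa : List ℕ := [2, 3, 11, 13, 9, 11, 2, 3, 11, 13, 9, 11]

/-- central words -/
def wb : List ℕ :=
  [6, 11, 13, 9, 6, 11, 13, 9, 6, 11, 13, 9, 6, 11, 13, 9, 6, 11, 13, 9, 6, 11, 13, 9, 6, 11, 13, 9]

/-- central words -/
def wc : List ℕ :=
  [6, 11, 13, 7, 6, 11, 13, 7, 6, 11, 13, 7, 6, 11, 13, 7, 6, 11, 13, 7, 6, 11, 13, 7, 6, 11, 13, 7]

theorem scal_ok : tget 2 (wvc 2 At Ml 6 (mfm Mt Mi) wa 1) 0 = 2 ∧ tget 2 (wvc 2 At Ml 6 (mfm Mt Mi) wb 1) 0 = 2 ∧
    tget 2 (wvc 2 At Ml 6 (mfm Mt Mi) wc 1) 0 = 2 := by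
  decide +kernel

section

variable {F : Type*} [Field F] [Fintype F] (hF : Fintype.card F = 2 ^ 2) (f : K4 ≃+* F)
  (C : Cod 2 At Ml 4 (fun a => f (dec4 a)))

include hF in
theorem pres (i : ℕ) (hi : i < 7) : Pres 2 (mc 2 (fun a => f (dec4 a)) e (Mt i)) := by
  rw [pres_iff_transpose_mul hF]
  have h1 := congrArg (fun M : Matrix (Fin 6) (Fin 6) K4 => f.toRingHom.mapMatrix M) (pres0 i hi)
  simp only [map_mul, map_one] at h1
  rw [← h1]
  congr 1
  ext a b
  show _ ^ 2 = f (_ * _)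
  rw [map_mul, sq]
  rfl

/-- elements of the isometry group -/
noncomputable def hI (i : ℕ) : GU 6 F 2 :=
  if hi : i < 7 then mkGU hF (mc 2 (fun a => f (dec4 a)) e (Mt i)) (pres hF f i hi) else 1

/-- matrices of the isometry group -/
def guM (F : Type*) [Field F] : GU 6 F 2 →* Matrix (Fin 6) (Fin 6) F :=
  (Units.coeHom (Matrix (Fin 6) (Fin 6) F)).comp (GU 6 F 2).subtype

theorem guM_inj (F : Type*) [Field F] [Fintype F] : Function.Injective (guM F) := fun _ _ h => GU_ext h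

/-- matrices of the special unitary group -/
def suM (F : Type*) [Field F] : SU 6 F 2 →* Matrix (Fin 6) (Fin 6) F :=
  (slToMat 6 F).comp (SU 6 F 2).subtype

theorem suM_inj (F : Type*) [Field F] [Fintype F] : Function.Injective (suM F) := fun _ _ h => SU_ext h

theorem guM_h (i : ℕ) (hi : i < 7) : guM F (hI hF f i) = mc 2 (fun a => f (dec4 a)) e (Mt i) := by
  unfold hI
  rw [dif_pos hi]
  rfl

include C in
theorem h_mem (i : ℕ) (hi : i < 7) : hI hF f i ∈ commutator (GU 6 F 2) := by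
  obtain ⟨h1, h2, h3, h4, h5, -, -⟩ := rel_ok
  obtain ⟨h6, h7⟩ := fr_words
  obtain ⟨f1, f2, f3⟩ := fr_ok
  have key := mem_commutator_of_tri (g := fam (hI hF f) 7) h3 h5 h1 (fam_inv _ h1 h2)
    (fun q hq => exact_words_vec C (by norm_num) e (guM_inj F) (guM_h hF f) (by norm_num) hid gens_ok act_ok frame_ok
      f3 f1 f2 h6 inv_ok id_ok vec_words (j := 0) (by norm_num) (by decide +kernel)
      q.2 (List.mem_map.2 ⟨q, hq, rfl⟩)) (fun y hy => fam_one _ hy) (2 * i + 1)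
  have h8 : fam (hI hF f) 7 (2 * i + 1) = hI hF f i := by
    unfold fam
    rw [if_pos (isLet_iff.2 ⟨by omega, by omega⟩), if_pos (by omega)]
    congr 1
    omega
  rw [h8] at key
  exact key

include hF C in
theorem det_one (i : ℕ) (hi : i < 7) : (mc 2 (fun a => f (dec4 a)) e (Mt i)).det = 1 := by
  have h1 := h_mem hF f C i hi
  have h2 : commutator (GU 6 F 2) ≤ (detHom hF 6).ker := Abelianization.commutator_subset_ker _
  have h3 := h2 h1
  rw [MonoidHom.mem_ker] at h3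
  have h4 := detHom_coe hF (hI hF f i)
  rw [h3] at h4
  have h5 : ((hI hF f i : GL (Fin 6) F) : Matrix (Fin 6) (Fin 6) F) = mc 2 (fun a => f (dec4 a)) e (Mt i) := guM_h hF f i hi
  rw [h5] at h4
  exact h4.symm

/-- generators -/
noncomputable def h (i : ℕ) : SU 6 F 2 :=
  if hi : i < 7 then mkSU (mc 2 (fun a => f (dec4 a)) e (Mt i)) (pres hF f i hi) (det_one hF f C i hi) else 1

theorem suM_h (i : ℕ) (hi : i < 7) : suM F (h hF f C i) = mc 2 (fun a => f (dec4 a)) e (Mt i) := by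
  unfold h
  rw [dif_pos hi]
  rfl

include hF in
theorem card : Nat.card (PSU 6 F 2) = 9196830720 := by
  have h := Uni.card_PSU (n := 6) hF (by norm_num)
  have e : ∏ i ∈ Finset.range 6, (if Even i then 2 ^ (i + 1) + 1 else 2 ^ (i + 1) - 1) =
      3 * 3 * 9 * 15 * 33 * 63 := by decide
  rw [e] at h
  norm_num at h ⊢
  omega

theorem cp : CP (fun x => (QuotientGroup.mk' (center (SU 6 F 2))) (fam (h hF f C) 7 x)) 14 MU6D.iv R1 R2
      MU6D.RL := by
  obtain ⟨h1, h2, h3, h4, h5, -, -⟩ := rel_ok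
  obtain ⟨h6, h7⟩ := fr_words
  obtain ⟨c1, c2⟩ := card_ok
  obtain ⟨f1, f2, f3⟩ := fr_ok
  have hfin : Finite (PSU 6 F 2) := Nat.finite_of_card_ne_zero (by rw [card hF]; norm_num)
  refine cp_proj C (by norm_num) e (μ := suM F) (suM_inj F)
    (h := h hF f C) (Mt := Mt) (suM_h hF f C) (by norm_num) (by norm_num) hid gens_ok act_ok pts_ok frame_ok f3 f1 f2
    mv_ok chain_ok c2 h1 h2 h3 h4 h5 h6 h7 ?_
  rw [c1]
  exact (card hF).le

/-- the letters of the special unitary group satisfy the relators of the covering group -/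
theorem good_su : Good (fam (h hF f C) 7) 14 MU6D.iv MU6D.RL := by
  obtain ⟨h1, h2, h3, h4, h5, -, -⟩ := rel_ok
  obtain ⟨h6, h7⟩ := fr_words
  obtain ⟨f1, f2, f3⟩ := fr_ok
  refine good_of (fam_inv _ h1 h2) (fun y hy => fam_one _ hy) ?_ ?_ h4
  · intro q hq
    exact exact_words_vec C (by norm_num) e (suM_inj F) (suM_h hF f C) (by norm_num) hid gens_ok act_ok frame_ok
      f3 f1 f2 h6 inv_ok id_ok vec_words (j := 0) (by norm_num) (by decide +kernel) q.2 (List.mem_map.2 ⟨q, hq, rfl⟩)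
  · intro w hw x
    have := (center_words C (by norm_num) e (suM_inj F) (suM_h hF f C) (by norm_num) hid gens_ok act_ok frame_ok
      f3 f1 f2 h7 w hw).1
    exact (mem_center_iff.1 this _).symm

theorem scal (u : List ℕ) (hu : u ∈ R2) (hl : u.all (isLet (2 * 7)) = true)
    (h2 : tget 2 (wvc 2 At Ml 6 (mfm Mt Mi) u 1) 0 = 2) :
    suM F ((u.map (fam (h hF f C) 7)).prod) = f (dec4 2) • (1 : Matrix (Fin 6) (Fin 6) F) := by
  obtain ⟨h6, h7⟩ := fr_words
  obtain ⟨f1, f2, f3⟩ := fr_ok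
  have h8 := scalar_word C e (suM_h hF f C) inv_ok id_ok (v := 1) (j := 0) (by norm_num) (by decide +kernel) hl
    (center_words C (by norm_num) e (suM_inj F) (suM_h hF f C) (by norm_num) hid gens_ok act_ok frame_ok
      f3 f1 f2 h7 u hu).2
  rw [h2] at h8
  exact h8

theorem dec4_cube : dec4 2 * (dec4 2 * dec4 2) = 1 ∧ dec4 2 ≠ 1 := by decide +kernel

end

/-! ### the order of the covering group -/

/-- exact relator -/
def w0 : List ℕ := [1, 3, 2, 4, 4, 2, 3, 1]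

theorem lem_words : [1, 3, 6, 1, 11, 1, 11, 9, 6, 11, 4, 2, 12, 5, 10, 12, 2, 12, 2, 5] ∈ R2 ∧
    [1, 3, 2, 11, 4, 11, 1, 11, 3, 11, 4, 2, 12, 4, 12, 2, 12, 3, 12, 1] ∈ R2 ∧
    [6, 1, 11, 1, 11, 9, 6, 11, 2, 11, 4, 11, 1, 11, 3, 5, 10, 12, 2, 12, 2, 5, 12, 4, 12, 2, 12, 3, 12, 1, 3, 1] ∈ R2 := by
  decide +kernel

theorem exact_w0 : (w0.map (qg 14 MU6D.iv MU6D.RL)).prod = 1 := by
  obtain ⟨h1, -, -, -, -, -, h6⟩ := rel_ok
  obtain ⟨l1, l2, l3⟩ := lem_words
  have k1 := qg_ce h1 h6 _ l1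
  have k2 := qg_ce h1 h6 _ l2
  have k3 := qg_ce h1 h6 _ l3
  have hI := (qg_good 14 MU6D.iv MU6D.RL).inv
  have i2 : qg 14 MU6D.iv MU6D.RL 2 = (qg 14 MU6D.iv MU6D.RL 1)⁻¹ := hI 1
  have i4 : qg 14 MU6D.iv MU6D.RL 4 = (qg 14 MU6D.iv MU6D.RL 3)⁻¹ := hI 3
  have i6 : qg 14 MU6D.iv MU6D.RL 6 = (qg 14 MU6D.iv MU6D.RL 5)⁻¹ := hI 5
  have i10 : qg 14 MU6D.iv MU6D.RL 10 = (qg 14 MU6D.iv MU6D.RL 9)⁻¹ := hI 9
  have i12 : qg 14 MU6D.iv MU6D.RL 12 = (qg 14 MU6D.iv MU6D.RL 11)⁻¹ := hI 11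
  generalize qg 14 MU6D.iv MU6D.RL = g at *
  have key := comm_of_comm (t := g 1 * g 3) (u := (g 5)⁻¹ * (g 1 * (g 11 * (g 1 * (g 11 * (g 9 * ((g 5)⁻¹ * g 11)))))))
    (v := (g 1)⁻¹ * (g 11 * ((g 3)⁻¹ * (g 11 * (g 1 * (g 11 * (g 3 * g 11)))))))
    (s := (g 1)⁻¹ * (g 3)⁻¹)
    (by
      have e : g 1 * g 3 * ((g 5)⁻¹ * (g 1 * (g 11 * (g 1 * (g 11 * (g 9 * ((g 5)⁻¹ * g 11))))))) * (g 1 * g 3)⁻¹ *
          ((g 5)⁻¹ * (g 1 * (g 11 * (g 1 * (g 11 * (g 9 * ((g 5)⁻¹ * g 11)))))))⁻¹ =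
          (List.map g [1, 3, 6, 1, 11, 1, 11, 9, 6, 11, 4, 2, 12, 5, 10, 12, 2, 12, 2, 5]).prod := by
        simp [i2, i4, i6, i10, i12, mul_assoc]
      rw [e]; exact k1)
    (by
      have e : g 1 * g 3 * ((g 1)⁻¹ * (g 11 * ((g 3)⁻¹ * (g 11 * (g 1 * (g 11 * (g 3 * g 11))))))) * (g 1 * g 3)⁻¹ *
          ((g 1)⁻¹ * (g 11 * ((g 3)⁻¹ * (g 11 * (g 1 * (g 11 * (g 3 * g 11)))))))⁻¹ =
          (List.map g [1, 3, 2, 11, 4, 11, 1, 11, 3, 11, 4, 2, 12, 4, 12, 2, 12, 3, 12, 1]).prod := by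
        simp [i2, i4, i6, i10, i12, mul_assoc]
      rw [e]; exact k2)
    (by
      have e : ((g 5)⁻¹ * (g 1 * (g 11 * (g 1 * (g 11 * (g 9 * ((g 5)⁻¹ * g 11))))))) *
          ((g 1)⁻¹ * (g 11 * ((g 3)⁻¹ * (g 11 * (g 1 * (g 11 * (g 3 * g 11))))))) *
          ((g 5)⁻¹ * (g 1 * (g 11 * (g 1 * (g 11 * (g 9 * ((g 5)⁻¹ * g 11)))))))⁻¹ *
          ((g 1)⁻¹ * (g 11 * ((g 3)⁻¹ * (g 11 * (g 1 * (g 11 * (g 3 * g 11)))))))⁻¹ * ((g 1)⁻¹ * (g 3)⁻¹)⁻¹ =
          (List.map g [6, 1, 11, 1, 11, 9, 6, 11, 2, 11, 4, 11, 1, 11, 3, 5, 10, 12, 2, 12, 2, 5, 12, 4, 12, 2, 12, 3,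
            12, 1, 3, 1]).prod := by
        simp [i2, i4, i6, i10, i12, mul_assoc]
      rw [e]; exact k3)
  rw [← key]
  simp [w0, i2, i4, mul_assoc]

theorem bd : Bd (⊤ : Subgroup (QG 14 MU6D.iv MU6D.RL)) (9196830720 * ∏ i : Fin 3, (![3, 2, 2] : Fin 3 → ℕ) i) := by
  have e : 9196830720 * ∏ i : Fin 3, (![3, 2, 2] : Fin 3 → ℕ) i = 110361968640 := by decide
  rw [e]
  have U := univ_qg 14 MU6D.iv MU6D.RL
  have g := U.good
  have g' := good_ext g (E := [w0]) (by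
    intro w hw
    rw [List.mem_singleton.1 hw]
    exact exact_w0)
  rw [← U.top]
  have h1 := (Bd.zero (qg 14 MU6D.iv MU6D.RL)).cl (M := 60) MU6A.cert g' (by decide +kernel) (by decide +kernel)
    (by norm_num) rfl
  have h2 := h1.cl (M := 25920) MU6B.cert g' (by decide +kernel) (by decide +kernel) (by norm_num) rfl
  have h3 := h2.cl (M := 13685760) MU6C.cert g' (by decide +kernel) (by decide +kernel) (by norm_num) rfl
  exact h3.cl (M := 110361968640) MU6D.cert g (by decide +kernel) (by decide +kernel) (by norm_num) rfl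

/-! ### the kernel -/

/-- words of the generators of the kernel -/
def cws : Fin 3 → List (List ℕ) := ![[wa], [wb, wa, wa], [wc, wa, wa]]

/-- reordering the factors -/
def prodE : (∀ i : Fin 3, ZMod ((![3, 2, 2] : Fin 3 → ℕ) i)) ≃+ ZMod 3 × ZMod 2 × ZMod 2 where
  toFun f := (f 0, f 1, f 2)
  invFun p := Fin.cons p.1 (Fin.cons p.2.1 (Fin.cons p.2.2 finZeroElim))
  left_inv f := by
    funext i
    fin_cases i <;> rfl
  right_inv p := rfl
  map_add' f g := rfl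

theorem mem_R2 : wa ∈ R2 ∧ wb ∈ R2 ∧ wc ∈ R2 ∧ wa.all (isLet (2 * 7)) = true ∧ wb.all (isLet (2 * 7)) = true ∧
    wc.all (isLet (2 * 7)) = true := by
  decide +kernel

theorem mult {F : Type*} [Field F] [Fintype F] (hF : Fintype.card F = 4) :
    HasSchurMultiplier (PSU 6 F 2) (Multiplicative (ZMod 3 × ZMod 2 × ZMod 2)) := by
  have hF' : Fintype.card F = 2 ^ 2 := by rw [hF]; norm_num
  obtain ⟨-, -, -, -, -, h5, h6⟩ := rel_ok
  obtain ⟨f, C⟩ := exists_cod4 hF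
  obtain ⟨S1, a1, b1⟩ := exists_stab MU6T2.tabOK (i := 0) (by decide +kernel)
  obtain ⟨S2, a2, b2⟩ := exists_stab MU6T1.tabOK (i := 0) (by decide +kernel)
  obtain ⟨φ, hφ⟩ := qg_univ (good_su hF' f C)
  have hword : ∀ u : List ℕ, φ ((u.map (qg 14 MU6D.iv MU6D.RL)).prod) = (u.map (fam (h hF' f C) 7)).prod := by
    intro u
    rw [map_list_prod, List.map_map]
    congr 2
    funext x
    exact hφ x
  obtain ⟨m1, m2, m3, n1, n2, n3⟩ := mem_R2
  obtain ⟨s1, s2, s3⟩ := scal_ok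
  have va := scal hF' f C wa m1 n1 s1
  have vb := scal hF' f C wb m2 n2 s2
  have vc := scal hF' f C wc m3 n3 s3
  have cube : f (dec4 2) * (f (dec4 2) * f (dec4 2)) = 1 := by
    rw [← map_mul, ← map_mul, dec4_cube.1, map_one]
  have ne1 : f (dec4 2) ≠ 1 := by
    intro hh
    rw [← map_one f] at hh
    exact dec4_cube.2 (f.injective hh)
  have ker_of : ∀ u : List ℕ, suM F ((u.map (fam (h hF' f C) 7)).prod) = f (dec4 2) • (1 : Matrix (Fin 6) (Fin 6) F) →
      ((([u, wa, wa] : List (List ℕ)).flatten).map (qg 14 MU6D.iv MU6D.RL)).prod ∈ φ.ker := by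
    intro u hu
    rw [MonoidHom.mem_ker, hword]
    apply suM_inj F
    rw [map_one, List.flatten_cons, List.flatten_cons, List.flatten_cons, List.flatten_nil, List.append_nil,
      List.map_append, List.map_append, List.prod_append, List.prod_append, map_mul, map_mul, hu, va]
    rw [smul_mul_smul_comm, smul_mul_smul_comm, one_mul, one_mul, cube, one_smul]
  have ord3 : orderOf (f (dec4 2)) = 3 := by
    apply orderOf_eq_prime
    · rw [pow_three]; exact cube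
    · exact ne1
  obtain ⟨σ, g1, -, g3, -, ⟨g5⟩⟩ := (cp hF' f C).multi h5 h6 (card hF') (by norm_num) (by decide) bd (ws := cws)
    (by decide +kernel)
    (S := ![φ.ker, S1, S2]) (by
      intro i j hij
      fin_cases i <;> fin_cases j <;> first | exact absurd rfl hij | skip
      · exact ker_of wb vb
      · exact ker_of wc vc
      · exact a1 _ (by decide +kernel) (by decide +kernel)
      · exact a1 _ (by decide +kernel) (by decide +kernel)
      · exact a2 _ (by decide +kernel) (by decide +kernel)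
      · exact a2 _ (by decide +kernel) (by decide +kernel)) (by
      intro i
      fin_cases i
      · intro k
        show ((([wa] : List (List ℕ)).flatten).map (qg 14 MU6D.iv MU6D.RL)).prod ^ k ∈ φ.ker ↔ 3 ∣ k
        rw [MonoidHom.mem_ker, map_pow, hword, ← ord3, orderOf_dvd_iff_pow_eq_one]
        have hfl : (([wa] : List (List ℕ)).flatten) = wa := by simp
        rw [hfl]
        constructor
        · intro hh
          have h9 := congrArg (suM F) hh
          rw [map_pow, va, map_one, smul_pow, one_pow] at h9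
          have h10 := congrFun (congrFun h9 0) 0
          simpa using h10
        · intro hh
          apply suM_inj F
          rw [map_pow, va, map_one, smul_pow, one_pow, hh, one_smul]
      · exact b1 _ 2 (by decide +kernel) (by norm_num) (by decide +kernel)
      · exact b2 _ 2 (by decide +kernel) (by norm_num) (by decide +kernel))
  exact hasSchur_of_cover (cp hF' f C) (card hF') (by norm_num) bd g1 g3 ⟨g5.trans (AddEquiv.toMultiplicative prodE)⟩

end Cfsg.Agent.MLin.U6
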