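import Cfsg.Agent.MLin.FrameC
import Cfsg.Agent.MLin.U6StData
import Cfsg.Agent.MLin.IsoCP
import Cfsg.Agent.MLin.U6
import Cfsg.Agent.Leech.Orders

/-!
The stabiliser of a triangle of type 222 in the Conway group is `PSU₆(2)` (owner: helper7).
-/
set_option autoImplicit false
set_option maxRecDepth 1000000

namespace Cfsg.Agent.MLin.U6

open Cfsg.Agent.CosetEnum Cfsg.Agent.PermTab Cfsg.Agent.MulX Cfsg.Agent.MLin Matrix Cfsg Subgroup Cfsg.Agent.Uni

theorem ker_card {F : Type*} [Field F] [Fintype F] (hF' : Fintype.card F = 2 ^ 2) (f : K4 ≃+* F)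
    (C : Cod 2 At Ml 4 (fun a => f (dec4 a))) : 12 ≤ Nat.card (cenN 14 MU6D.iv R2 MU6D.RL) := by
  obtain ⟨-, -, -, -, -, h5, h6⟩ := rel_ok
  obtain ⟨S1, a1, b1⟩ := exists_stab MU6T2.tabOK (i := 0) (by decide +kernel)
  obtain ⟨S2, a2, b2⟩ := exists_stab MU6T1.tabOK (i := 0) (by decide +kernel)
  obtain ⟨φ, hφ⟩ := qg_univ (good_su hF' f C)
  have hword : ∀ u : List ℕ, φ ((u.map (qg 14 MU6D.iv MU6D.RL)).prod) = (u.map (fam (h hF' f C) 7)).prod := by
    intro u
    rw [map_list_prod, List.map_map]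
    congr 2
    funext x
    exact hφ x
  obtain ⟨m1, m2, m3, n1, n2, n3⟩ := mem_R2
  obtain ⟨s1, s2, s3⟩ := scal_ok
  have va := scal hF' f C wa m1 n1 s1
  have vb := scal hF' f C wb m2 n2 s2
  have vc := scal hF' f C wc m3 n3 s3
  have cube : f (dec4 2) * (f (dec4 2) * f (dec4 2)) = 1 := by
    rw [← map_mul, ← map_mul, dec4_cube.1, map_one]
  have ne1 : f (dec4 2) ≠ 1 := by
    intro hh
    rw [← map_one f] at hh
    exact dec4_cube.2 (f.injective hh)
  have ker_of : ∀ u : List ℕ, suM F ((u.map (fam (h hF' f C) 7)).prod) = f (dec4 2) • (1 : Matrix (Fin 6) (Fin 6) F) →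
      ((([u, wa, wa] : List (List ℕ)).flatten).map (qg 14 MU6D.iv MU6D.RL)).prod ∈ φ.ker := by
    intro u hu
    rw [MonoidHom.mem_ker, hword]
    apply suM_inj F
    rw [map_one, List.flatten_cons, List.flatten_cons, List.flatten_cons, List.flatten_nil, List.append_nil,
      List.map_append, List.map_append, List.prod_append, List.prod_append, map_mul, map_mul, hu, va]
    rw [smul_mul_smul_comm, smul_mul_smul_comm, one_mul, one_mul, cube, one_smul]
  have ord3 : orderOf (f (dec4 2)) = 3 := by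
    apply orderOf_eq_prime
    · rw [pow_three]; exact cube
    · exact ne1
  obtain ⟨σ, -, g2, g3, -, -⟩ := (cp hF' f C).multi h5 h6 (card hF') (by norm_num) (by decide) bd (ws := cws)
    (by decide +kernel)
    (S := ![φ.ker, S1, S2]) (by
      intro i j hij
      fin_cases i <;> fin_cases j <;> first | exact absurd rfl hij | skip
      · exact ker_of wb vb
      · exact ker_of wc vc
      · exact a1 _ (by decide +kernel) (by decide +kernel)
      · exact a1 _ (by decide +kernel) (by decide +kernel)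
      · exact a2 _ (by decide +kernel) (by decide +kernel)
      · exact a2 _ (by decide +kernel) (by decide +kernel)) (by
      intro i
      fin_cases i
      · intro k
        show ((([wa] : List (List ℕ)).flatten).map (qg 14 MU6D.iv MU6D.RL)).prod ^ k ∈ φ.ker ↔ 3 ∣ k
        rw [MonoidHom.mem_ker, map_pow, hword, ← ord3, orderOf_dvd_iff_pow_eq_one]
        have hfl : (([wa] : List (List ℕ)).flatten) = wa := by simp
        rw [hfl]
        constructor
        · intro hh
          have h9 := congrArg (suM F) hh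
          rw [map_pow, va, map_one, smul_pow, one_pow] at h9
          have h10 := congrFun (congrFun h9 0) 0
          simpa using h10
        · intro hh
          apply suM_inj F
          rw [map_pow, va, map_one, smul_pow, one_pow, hh, one_smul]
      · exact b1 _ 2 (by decide +kernel) (by norm_num) (by decide +kernel)
      · exact b2 _ 2 (by decide +kernel) (by norm_num) (by decide +kernel))
  rw [← g2, g3]
  decide

end Cfsg.Agent.MLin.U6

namespace Cfsg.Agent.MLin.U6St

open Cfsg Cfsg.Agent Cfsg.Agent.Leech Cfsg.Agent.PermTab Cfsg.Agent.CosetEnum Cfsg.Agent.MulX Cfsg.Agent.MLin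
  Cfsg.Agent.MLin.Lat MulAction

theorem test_VW : leechTest (ivv (tget 96 cd 891)) = true ∧ leechTest (ivv (tget 96 cd 892)) = true := by
  decide +kernel

/-- first vector -/
def V0 : leechLattice := ⟨ivv (tget 96 cd 891), mem_of_test test_VW.1⟩

/-- second vector -/
def W0 : leechLattice := ⟨ivv (tget 96 cd 892), mem_of_test test_VW.2⟩

theorem VW_mem : sqNorm (V0 : GolayPt → ℤ) = 32 ∧ sqNorm (W0 : GolayPt → ℤ) = 32 ∧
    dotInt (V0 : GolayPt → ℤ) (W0 : GolayPt → ℤ) = -16 := by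
  refine ⟨?_, ?_, ?_⟩ <;> decide +kernel

/-- the group -/
abbrev S : Subgroup Co0 := stabilizer Co0 V0 ⊓ stabilizer Co0 W0

theorem card_S : Nat.card S = 9196830720 := card_stab_pair_16 V0 W0 VW_mem.1 VW_mem.2.1 VW_mem.2.2

theorem faith {pt : Fin 891 → leechLattice} (hpt : ∀ i : Fin 891, Pt cd i (pt i)) (a : S)
    (h : ∀ i : Fin 891, (i : ℕ) ∈ fr → a • pt i = pt i) : a = 1 := by
  apply Subtype.ext
  apply faith_codes (by norm_num) frame_ok
  intro j hj
  by_cases hj2 : fk.getD j 0 < 891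
  · exact ⟨pt ⟨_, hj2⟩, hpt _, h ⟨_, hj2⟩ (fk_ok j hj hj2)⟩
  · have key : ∀ j < 24, fk.getD j 0 < 891 ∨ fk.getD j 0 = 891 ∨ fk.getD j 0 = 892 := by decide +kernel
    rcases key j hj with k | k | k
    · exact absurd k hj2
    · rw [k]
      exact ⟨V0, rfl, a.2.1⟩
    · rw [k]
      exact ⟨W0, rfl, a.2.2⟩

theorem stab_of_maps (g : Co0) (h : ∀ j < 2, Maps g (tget 96 cd (891 + j)) (tget 96 cd (891 + j))) : g ∈ S := by
  have h3 := h 0 (by norm_num) V0 rfl
  have h5 := h 1 (by norm_num) W0 rfl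
  refine ⟨?_, ?_⟩
  · show g • V0 = V0
    exact Subtype.ext h3
  · show g • W0 = W0
    exact Subtype.ext h5

/-- steps of the letters -/
def stL : ℕ → List ((ℕ × ℕ) × ℕ)
  | 0 => st0
  | 1 => st1
  | 2 => st2
  | 3 => st3
  | 4 => st4
  | 5 => st5
  | 6 => st6
  | _ => []

theorem letters_ok : ∀ i < 7, letB' 10 891 2 (gt i) cd (stL i) = true := by
  intro i hi
  match i, hi with
  | 0, _ => exact act0
  | 1, _ => exact act1
  | 2, _ => exact act2
  | 3, _ => exact act3
  | 4, _ => exact act4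
  | 5, _ => exact act5
  | 6, _ => exact act6
  | m + 7, h => exact absurd h (by omega)

theorem fr_words : frB 10 (tfm gt gi idt 7) fr (U6.R1.map Prod.snd) = true ∧
    frB 10 (tfm gt gi idt 7) fr U6.R2 = true := by
  decide +kernel

theorem exists_cp : ∃ h : ℕ → S, CP (fam h 7) 14 MU6D.iv U6.R1 U6.R2 MU6D.RL := by
  obtain ⟨pt, hpt⟩ := exists_pt pts_ok
  obtain ⟨h, hh⟩ := exists_letters (k := 7) stab_of_maps letters_ok
  obtain ⟨h1, h2, h3, h4, h5, -, -⟩ := U6.rel_ok
  obtain ⟨h6, h7⟩ := fr_words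
  have hfin : Finite S := Nat.finite_of_card_ne_zero (by rw [card_S]; norm_num)
  exact ⟨h, cp_lat (by norm_num) hid gens_ok hpt (pt_inj hpt (by norm_num) inc_ok) hh (faith hpt) h1 h2 h3 h4 h5
    h6 h7 chain_ok (by rw [card_ok, card_S])⟩

theorem iso_psu {F : Type} [Field F] [Fintype F] (hF : Fintype.card F = 4) : Nonempty (S ≃* PSU 6 F 2) := by
  have hF' : Fintype.card F = 2 ^ 2 := by rw [hF]; norm_num
  obtain ⟨f, C⟩ := exists_cod4 hF
  obtain ⟨h, D⟩ := exists_cp
  obtain ⟨-, -, -, -, -, h5, h6⟩ := U6.rel_ok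
  refine iso_of_cp D (U6.cp hF' f C) h5 h6 card_S (U6.card hF') (by norm_num) (m := 12) ?_ (U6.ker_card hF' f C)
  have h9 := U6.bd
  have e : ∏ i : Fin 3, (![3, 2, 2] : Fin 3 → ℕ) i = 12 := by decide
  rwa [e] at h9

theorem result (v w : leechLattice) (hv : sqNorm (v : GolayPt → ℤ) = 32) (hw : sqNorm (w : GolayPt → ℤ) = 32)
    (hd : dotInt (v : GolayPt → ℤ) (w : GolayPt → ℤ) = -16) (F : Type) [Field F] [Fintype F]
    (hF : Fintype.card F = 4) :
    Nonempty ((stabilizer Co0 v ⊓ stabilizer Co0 w : Subgroup Co0) ≃* PSU 6 F 2) := by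
  obtain ⟨g, g1, g2⟩ := trans_pair_16 v w V0 W0 hv hw VW_mem.1 VW_mem.2.1 hd VW_mem.2.2
  obtain ⟨f⟩ := iso_psu hF
  exact ⟨(pair_equiv g g1 g2).trans f⟩

end Cfsg.Agent.MLin.U6St
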